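import Mathlib
import Cfsg.Prelude.Def_Sporadic_a
import Cfsg.Agent.Lib.Helper9.Golay

set_option autoImplicit false

namespace Cfsg.Agent.Lib.Helper9

open Cfsg

/-- The word of second bits of the coordinates. -/
def hbit (x : GolayPt → ℤ) : GolayPt → ZMod 2 := fun i => ((x i / 2 : ℤ) : ZMod 2)

/-- An additive reformulation of membership in `leechSet`. -/
def LeechCond (x : GolayPt → ℤ) : Prop :=
  ∃ m : ℤ, (∀ i, x i ≡ m [ZMOD 2]) ∧ (∑ i, x i ≡ 4 * m [ZMOD 8]) ∧ hbit x ∈ golayCode

theorem zmod2_eq_iff : ∀ a b : ZMod 2, a = b ↔ (a ≠ 0 ↔ b ≠ 0) := by decide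

theorem hbit_ne_zero_iff (x : GolayPt → ℤ) (i : GolayPt) : hbit x i ≠ 0 ↔ (x i / 2) % 2 = 1 := by
  unfold hbit
  rw [Ne, ZMod.intCast_zmod_eq_zero_iff_dvd]
  constructor
  · intro h; omega
  · intro h; omega

theorem leechCond_of_mem {x : GolayPt → ℤ} (hx : x ∈ leechSet) : LeechCond x := by
  obtain ⟨m, hpar, hsum, hk⟩ := hx
  refine ⟨m, hpar, hsum, ?_⟩
  obtain ⟨w, hw, hsupp⟩ := hk (m % 2 + 2)
  have : w = hbit x := by
    funext i
    rw [zmod2_eq_iff, hbit_ne_zero_iff]
    have h1 : w i ≠ 0 ↔ i ∈ support₂ w := by simp [support₂]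
    rw [h1, hsupp]
    have h2 := hpar i
    rw [Finset.mem_filter_univ]
    simp only [Int.ModEq] at h2 ⊢
    constructor
    · intro h; omega
    · intro h; omega
  rw [← this]; exact hw

theorem mem_of_leechCond {x : GolayPt → ℤ} (hx : LeechCond x) : x ∈ leechSet := by
  obtain ⟨m, hpar, hsum, hh⟩ := hx
  refine ⟨m, hpar, hsum, fun k => ?_⟩
  by_cases h1 : k % 2 = m % 2
  · by_cases h2 : k % 4 = m % 2 + 2
    · refine ⟨hbit x, hh, ?_⟩
      ext i
      have h3 := hpar i
      rw [Finset.mem_filter_univ, support₂, Finset.mem_filter_univ]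
      simp only [Int.ModEq] at h3 ⊢
      rw [hbit_ne_zero_iff]
      constructor
      · intro h; omega
      · intro h; omega
    · refine ⟨hbit x + 1, Submodule.add_mem _ hh one_mem_golayCode, ?_⟩
      ext i
      have h3 := hpar i
      rw [Finset.mem_filter_univ, support₂, Finset.mem_filter_univ]
      simp only [Int.ModEq] at h3 ⊢
      have h4 : (hbit x + 1) i ≠ 0 ↔ ¬ (hbit x i ≠ 0) := by
        show hbit x i + 1 ≠ 0 ↔ ¬ (hbit x i ≠ 0)
        generalize hbit x i = a
        revert a
        decide
      rw [h4, hbit_ne_zero_iff]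
      constructor
      · intro h; omega
      · intro h; omega
  · refine ⟨0, Submodule.zero_mem _, ?_⟩
    ext i
    have h3 := hpar i
    rw [Finset.mem_filter_univ, support₂, Finset.mem_filter_univ]
    simp only [Int.ModEq] at h3 ⊢
    constructor
    · intro h; exact absurd rfl h
    · intro h; omega

theorem leechCond_zero : LeechCond 0 := by
  refine ⟨0, fun i => by rfl, by simp, ?_⟩
  have : hbit 0 = 0 := by funext i; simp [hbit]
  rw [this]; exact Submodule.zero_mem _

theorem leechCond_add {x y : GolayPt → ℤ} (hx : LeechCond x) (hy : LeechCond y) :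
    LeechCond (x + y) := by
  obtain ⟨m, hpar, hsum, hh⟩ := hx
  obtain ⟨m', hpar', hsum', hh'⟩ := hy
  refine ⟨m + m', fun i => (hpar i).add (hpar' i), ?_, ?_⟩
  · have : ∑ i, (x + y) i = ∑ i, x i + ∑ i, y i := by
      simp [Finset.sum_add_distrib]
    rw [this, mul_add]
    exact hsum.add hsum'
  · by_cases hc : m % 2 = 1 ∧ m' % 2 = 1
    · have : hbit (x + y) = hbit x + hbit y + 1 := by
        funext i
        have h1 := hpar i
        have h2 := hpar' i
        simp only [Int.ModEq] at h1 h2
        have h3 : (x i + y i) / 2 = x i / 2 + y i / 2 + 1 := by omega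
        simp only [hbit, Pi.add_apply, Pi.one_apply, h3]
        push_cast
        ring
      rw [this]
      exact Submodule.add_mem _ (Submodule.add_mem _ hh hh') one_mem_golayCode
    · have : hbit (x + y) = hbit x + hbit y := by
        funext i
        have h1 := hpar i
        have h2 := hpar' i
        simp only [Int.ModEq] at h1 h2
        have h3 : (x i + y i) / 2 = x i / 2 + y i / 2 := by omega
        simp only [hbit, Pi.add_apply, h3]
        push_cast
        ring
      rw [this]
      exact Submodule.add_mem _ hh hh'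

theorem leechCond_neg {x : GolayPt → ℤ} (hx : LeechCond x) : LeechCond (-x) := by
  obtain ⟨m, hpar, hsum, hh⟩ := hx
  refine ⟨-m, fun i => (hpar i).neg, ?_, ?_⟩
  · have : ∑ i, (-x) i = -∑ i, x i := by simp
    rw [this, mul_neg]
    exact hsum.neg
  · by_cases hc : m % 2 = 1
    · have : hbit (-x) = -hbit x - 1 := by
        funext i
        have h1 := hpar i
        simp only [Int.ModEq] at h1
        have h3 : (-x i) / 2 = -(x i / 2) - 1 := by omega
        simp only [hbit, Pi.neg_apply, Pi.sub_apply, Pi.one_apply, h3]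
        push_cast
        ring
      rw [this]
      exact Submodule.sub_mem _ (Submodule.neg_mem _ hh) one_mem_golayCode
    · have : hbit (-x) = -hbit x := by
        funext i
        have h1 := hpar i
        simp only [Int.ModEq] at h1
        have h3 : (-x i) / 2 = -(x i / 2) := by omega
        simp only [hbit, Pi.neg_apply, h3]
        push_cast
        ring
      rw [this]
      exact Submodule.neg_mem _ hh

/-- The Leech conditions define an additive subgroup. -/
def leechSub : AddSubgroup (GolayPt → ℤ) where
  carrier := {x | LeechCond x}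
  add_mem' := fun hx hy => leechCond_add hx hy
  zero_mem' := leechCond_zero
  neg_mem' := fun hx => leechCond_neg hx

theorem leechCond_of_mem_lattice {x : GolayPt → ℤ} (hx : x ∈ leechLattice) : LeechCond x := by
  have : leechLattice ≤ leechSub := by
    apply (AddSubgroup.closure_le _).mpr
    intro y hy
    exact leechCond_of_mem hy
  exact this hx

theorem card_golayPt : Fintype.card GolayPt = 24 := by decide

theorem sqNorm_ge_of_leechCond {x : GolayPt → ℤ} (hx : LeechCond x) (hx0 : x ≠ 0) :
    32 ≤ sqNorm x := by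
  obtain ⟨m, hpar, hsum, hh⟩ := hx
  have hpar' : ∀ i, x i % 2 = m % 2 := fun i => hpar i
  have hsum' : (∑ i, x i) % 8 = (4 * m) % 8 := hsum
  by_cases hm : m % 2 = 1
  · have hodd : ∀ i, x i % 2 = 1 := fun i => by rw [hpar' i, hm]
    have hone : ∀ i, 1 ≤ x i ^ 2 := by
      intro i
      have h0 : x i ≠ 0 := by
        intro h
        have := hodd i
        rw [h] at this
        norm_num at this
      have : 0 < x i ^ 2 := by positivity
      omega
    by_cases hbig : ∃ j, 9 ≤ x j ^ 2
    · obtain ⟨j, hj⟩ := hbig
      have h1 : ∑ i, (1 + (if i = j then (8 : ℤ) else 0)) ≤ ∑ i, x i ^ 2 := by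
        apply Finset.sum_le_sum
        intro i _
        by_cases h : i = j
        · subst h
          rw [if_pos rfl]
          linarith
        · rw [if_neg h, add_zero]
          exact hone i
      have h2 : ∑ i : GolayPt, (1 + (if i = j then (8 : ℤ) else 0)) = 32 := by
        rw [Finset.sum_add_distrib, Finset.sum_ite_eq' Finset.univ j (fun _ => (8 : ℤ)),
          if_pos (Finset.mem_univ j), Finset.sum_const, Finset.card_univ, card_golayPt]
        norm_num
      unfold sqNorm
      linarith
    · push Not at hbig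
      exfalso
      have hpm : ∀ i, x i = 1 ∨ x i = -1 := by
        intro i
        have h1 := hbig i
        have h2 := hodd i
        have h3 : x i < 3 := by nlinarith
        have h4 : -3 < x i := by nlinarith
        omega
      have hval : ∀ i, x i = 1 - 2 * (if hbit x i ≠ 0 then 1 else 0) := by
        intro i
        rcases hpm i with h | h
        · have : ¬ (hbit x i ≠ 0) := by rw [hbit_ne_zero_iff, h]; norm_num
          rw [if_neg this, h]; norm_num
        · have : hbit x i ≠ 0 := by rw [hbit_ne_zero_iff, h]; norm_num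
          rw [if_pos this, h]; norm_num
      have hs : ∑ i, x i = 24 - 2 * ((support₂ (hbit x)).card : ℤ) := by
        rw [Finset.sum_congr rfl (fun i _ => hval i), Finset.sum_sub_distrib, ← Finset.mul_sum,
          Finset.sum_const, Finset.card_univ, card_golayPt, support₂, Finset.card_filter]
        push_cast
        norm_num
      have hw := golay_weight (hbit x) hh
      rw [hs] at hsum'
      rcases hw with h | h | h | h | h <;> rw [h] at hsum' <;> omega
  · have hm0 : m % 2 = 0 := by omega
    have heven : ∀ i, x i % 2 = 0 := fun i => by rw [hpar' i, hm0]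
    by_cases hw : hbit x = 0
    · have h4 : ∀ i, x i % 4 = 0 := by
        intro i
        have h1 : ¬ (hbit x i ≠ 0) := by rw [hw]; simp
        rw [hbit_ne_zero_iff] at h1
        have := heven i
        omega
      obtain ⟨j, hj⟩ : ∃ j, x j ≠ 0 := by
        by_contra h
        push Not at h
        exact hx0 (funext h)
      have h16 : ∀ i, x i ≠ 0 → 16 ≤ x i ^ 2 := by
        intro i hi
        have := h4 i
        have h5 : x i ≤ -4 ∨ 4 ≤ x i := by omega
        rcases h5 with h5 | h5 <;> nlinarith
      by_cases hl : ∃ l, l ≠ j ∧ x l ≠ 0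
      · obtain ⟨l, hlj, hl0⟩ := hl
        have h1 : ∑ i ∈ ({j, l} : Finset GolayPt), x i ^ 2 ≤ ∑ i, x i ^ 2 :=
          Finset.sum_le_sum_of_subset_of_nonneg (Finset.subset_univ _) (fun i _ _ => sq_nonneg _)
        rw [Finset.sum_pair (Ne.symm hlj)] at h1
        have h2 := h16 j hj
        have h3 := h16 l hl0
        unfold sqNorm
        linarith
      · push Not at hl
        have hs : ∑ i, x i = x j := by
          apply Finset.sum_eq_single j
          · intro b _ hb; exact hl b hb
          · intro h; exact absurd (Finset.mem_univ j) h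
        rw [hs] at hsum'
        have h8 : x j % 8 = 0 := by omega
        have h5 : x j ≤ -8 ∨ 8 ≤ x j := by omega
        have h64 : 64 ≤ x j ^ 2 := by rcases h5 with h5 | h5 <;> nlinarith
        have h1 : x j ^ 2 ≤ ∑ i, x i ^ 2 :=
          Finset.single_le_sum (f := fun i => x i ^ 2) (fun i _ => sq_nonneg (x i))
            (Finset.mem_univ j)
        unfold sqNorm
        linarith
    · have hc := golay_weight (hbit x) hh
      have hc0 : (support₂ (hbit x)).card ≠ 0 := by
        intro h
        apply hw
        rw [Finset.card_eq_zero] at h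
        funext i
        by_contra hi
        have : i ∈ support₂ (hbit x) := by
          rw [support₂, Finset.mem_filter_univ]; exact hi
        rw [h] at this
        simp at this
      have hc8 : 8 ≤ (support₂ (hbit x)).card := by omega
      have h4 : ∀ i ∈ support₂ (hbit x), (4 : ℤ) ≤ x i ^ 2 := by
        intro i hi
        have h1 : hbit x i ≠ 0 := by
          rw [support₂, Finset.mem_filter_univ] at hi; exact hi
        rw [hbit_ne_zero_iff] at h1
        have := heven i
        have h5 : x i ≤ -2 ∨ 2 ≤ x i := by omega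
        rcases h5 with h5 | h5 <;> nlinarith
      have h1 : (support₂ (hbit x)).card • (4 : ℤ) ≤ ∑ i ∈ support₂ (hbit x), x i ^ 2 :=
        Finset.card_nsmul_le_sum _ _ _ h4
      have h2 : ∑ i ∈ support₂ (hbit x), x i ^ 2 ≤ ∑ i, x i ^ 2 :=
        Finset.sum_le_sum_of_subset_of_nonneg (Finset.subset_univ _) (fun i _ _ => sq_nonneg _)
      have h3 : (32 : ℤ) ≤ (support₂ (hbit x)).card • (4 : ℤ) := by
        rw [nsmul_eq_mul]
        have : (8 : ℤ) ≤ ((support₂ (hbit x)).card : ℤ) := by exact_mod_cast hc8
        linarith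
      unfold sqNorm
      linarith

theorem sqNorm_sub (x y : GolayPt → ℤ) :
    sqNorm (x - y) = sqNorm x + sqNorm y - 2 * dotInt x y := by
  unfold sqNorm dotInt
  rw [Finset.mul_sum, ← Finset.sum_add_distrib, ← Finset.sum_sub_distrib]
  apply Finset.sum_congr rfl
  intro i _
  simp only [Pi.sub_apply]
  ring

theorem sqNorm_add (x y : GolayPt → ℤ) :
    sqNorm (x + y) = sqNorm x + sqNorm y + 2 * dotInt x y := by
  unfold sqNorm dotInt
  rw [Finset.mul_sum, ← Finset.sum_add_distrib, ← Finset.sum_add_distrib]
  apply Finset.sum_congr rfl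
  intro i _
  simp only [Pi.add_apply]
  ring

theorem sqNorm_two_smul (z : GolayPt → ℤ) : sqNorm (2 • z) = 4 * sqNorm z := by
  unfold sqNorm
  rw [Finset.mul_sum]
  apply Finset.sum_congr rfl
  intro i _
  simp only [Pi.smul_apply, smul_eq_mul, nsmul_eq_mul]
  push_cast
  ring

/-- Two distinct short Leech vectors congruent modulo `2Λ` are opposite, or orthogonal of
squared length 64. -/
theorem leech_main (x y : GolayPt → ℤ) (hx : x ∈ leechLattice) (hy : y ∈ leechLattice)
    (hxy : x ≠ y) (hxn : sqNorm x ≤ 64) (hyn : sqNorm y ≤ 64)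
    (hc : ∃ z ∈ leechLattice, x - y = 2 • z) :
    x = -y ∨ (sqNorm x = 64 ∧ sqNorm y = 64 ∧ dotInt x y = 0) := by
  obtain ⟨z, hz, hxz⟩ := hc
  by_cases hneg : x = -y
  · exact Or.inl hneg
  right
  have hz0 : z ≠ 0 := by
    rintro rfl
    apply hxy
    have : x - y = 0 := by rw [hxz]; simp
    exact sub_eq_zero.mp this
  have h1 : 32 ≤ sqNorm z := sqNorm_ge_of_leechCond (leechCond_of_mem_lattice hz) hz0
  have hz' : z + y ∈ leechLattice := leechLattice.add_mem hz hy
  have hxz' : x + y = 2 • (z + y) := by
    have : x = 2 • z + y := by rw [← hxz]; abel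
    rw [this, two_smul, two_smul]
    abel
  have hz'0 : z + y ≠ 0 := by
    intro h
    apply hneg
    rw [h] at hxz'
    have : x + y = 0 := by rw [hxz']; simp
    exact eq_neg_of_add_eq_zero_left this
  have h2 : 32 ≤ sqNorm (z + y) := sqNorm_ge_of_leechCond (leechCond_of_mem_lattice hz') hz'0
  have e1 : sqNorm (x - y) = 4 * sqNorm z := by rw [hxz, sqNorm_two_smul]
  have e2 : sqNorm (x + y) = 4 * sqNorm (z + y) := by rw [hxz', sqNorm_two_smul]
  rw [sqNorm_sub] at e1
  rw [sqNorm_add] at e2
  refine ⟨by linarith, by linarith, by linarith⟩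

end Cfsg.Agent.Lib.Helper9
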