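import Mathlib
import Cfsg.Prelude.Def_Solvable

set_option autoImplicit false

namespace Cfsg.Agent.Lib.Helper9

variable {G : Type*} [Group G]

theorem pCore_normal (p : ℕ) (G : Type*) [Group G] : (Cfsg.pCore p G).Normal :=
  Subgroup.sSup_normal _ (fun _ h => h.1)

theorem pCore_isPGroup (p : ℕ) (G : Type*) [Group G] : IsPGroup p (Cfsg.pCore p G) :=
  Sylow.sSup_of_normal _ (fun _ h => h.2) (fun _ h => h.1)

/-- A subgroup of odd order meets a 2-group trivially. -/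
theorem inf_eq_bot_of_odd_of_two_group {K P : Subgroup G} (hK : Odd (Nat.card K))
    (hP : IsPGroup 2 P) : K ⊓ P = ⊥ := by
  rw [Subgroup.eq_bot_iff_forall]
  intro x hx
  obtain ⟨k, hk⟩ := (IsPGroup.iff_orderOf.mp hP) ⟨x, hx.2⟩
  have hk' : orderOf x = 2 ^ k := by
    rw [← hk, Subgroup.orderOf_mk]
  have hdvd : orderOf x ∣ Nat.card K := by
    have := orderOf_dvd_natCard (⟨x, hx.1⟩ : K)
    rwa [Subgroup.orderOf_mk] at this
  rw [hk'] at hdvd
  rcases Nat.eq_zero_or_pos k with h0 | hpos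
  · rw [h0, pow_zero] at hk'
    exact orderOf_eq_one_iff.mp hk'
  · exfalso
    have h2 : 2 ∣ Nat.card K := (dvd_pow_self 2 (by omega)).trans hdvd
    exact (Nat.not_even_iff_odd.mpr hK) (even_iff_two_dvd.mpr h2)

/-- A `p`-subgroup acting on the cosets of a subgroup of index prime to `p` has a fixed point. -/
theorem exists_conj_mem_of_not_dvd_index {Γ : Type*} [Group Γ] {p : ℕ} [Fact p.Prime]
    (K R : Subgroup Γ) (hK : ¬ p ∣ K.index) (hR : IsPGroup p R) :
    ∃ g : Γ, ∀ r ∈ R, g⁻¹ * r * g ∈ K := by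
  have h2 : ¬ p ∣ Nat.card (Γ ⧸ K) := by
    rw [← Subgroup.index_eq_card]
    exact hK
  obtain ⟨c, hc⟩ := hR.nonempty_fixed_point_of_prime_not_dvd_card (Γ ⧸ K) h2
  induction c using QuotientGroup.induction_on with
  | H g =>
    refine ⟨g, fun r hr => ?_⟩
    have h3 : ((r * g : Γ) : Γ ⧸ K) = (g : Γ ⧸ K) := hc ⟨r, hr⟩
    rw [QuotientGroup.eq] at h3
    have h4 := K.inv_mem h3
    have : ((r * g)⁻¹ * g)⁻¹ = g⁻¹ * r * g := by group
    rwa [this] at h4

end Cfsg.Agent.Lib.Helper9
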