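import Mathlib
import Cfsg.Prelude.Def_Sporadic_a

set_option autoImplicit false

namespace Cfsg.Agent.Lib.Helper9

/-- Binary words of length 24. -/
abbrev W24 : Type := Fin 24 → ZMod 2

/-- The support of a word. -/
def sp (u : W24) : Finset (Fin 24) := Finset.univ.filter (fun i => u i ≠ 0)

/-- The word with a given support. -/
def indw (s : Finset (Fin 24)) : W24 := fun i => if i ∈ s then 1 else 0

theorem hammingNorm_eq_card_sp (u : W24) : hammingNorm u = (sp u).card := rfl

theorem support₂_eq_sp (u : W24) : Cfsg.support₂ u = sp u := by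
  unfold Cfsg.support₂ sp
  congr

theorem zmod2_cases (a : ZMod 2) : a = 0 ∨ a = 1 := by revert a; decide

theorem mem_sp (u : W24) (i : Fin 24) : i ∈ sp u ↔ u i = 1 := by
  unfold sp
  rcases zmod2_cases (u i) with h | h <;> simp [h]

theorem notMem_sp (u : W24) (i : Fin 24) : i ∉ sp u ↔ u i = 0 := by
  unfold sp
  simp

theorem sp_indw (s : Finset (Fin 24)) : sp (indw s) = s := by
  ext i
  rw [mem_sp]
  unfold indw
  by_cases h : i ∈ s <;> simp [h]

theorem indw_sp (u : W24) : indw (sp u) = u := by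
  funext i
  unfold indw
  by_cases h : i ∈ sp u
  · rw [if_pos h]; exact ((mem_sp u i).1 h).symm
  · rw [if_neg h]; exact ((notMem_sp u i).1 h).symm

theorem sp_injective : Function.Injective sp := by
  intro u v h
  rw [← indw_sp u, ← indw_sp v, h]

theorem sp_zero : sp (0 : W24) = ∅ := by
  ext i
  simp [sp]

theorem sp_eq_empty {u : W24} : sp u = ∅ ↔ u = 0 := by
  constructor
  · intro h
    apply sp_injective
    rw [h, sp_zero]
  · rintro rfl; exact sp_zero

theorem sub_eq_add24 (u v : W24) : u - v = u + v := by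
  funext i
  simp only [Pi.sub_apply, Pi.add_apply]
  exact CharTwo.sub_eq_add _ _

theorem sp_add (u v : W24) : sp (u + v) = symmDiff (sp u) (sp v) := by
  ext i
  rw [Finset.mem_symmDiff, mem_sp, mem_sp, mem_sp, Pi.add_apply]
  rcases zmod2_cases (u i) with h | h <;> rcases zmod2_cases (v i) with h' | h' <;>
    simp [h, h'] <;> decide

theorem card_symmDiff_add (A B : Finset (Fin 24)) :
    (symmDiff A B).card + 2 * (A ∩ B).card = A.card + B.card := by
  have h1 : symmDiff A B = (A \ B) ∪ (B \ A) := rfl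
  have h2 : Disjoint (A \ B) (B \ A) := by
    rw [Finset.disjoint_left]
    intro x hx hx'
    simp only [Finset.mem_sdiff] at hx hx'
    exact hx.2 hx'.1
  rw [h1, Finset.card_union_of_disjoint h2]
  have h3 := Finset.card_sdiff_add_card_inter A B
  have h4 := Finset.card_sdiff_add_card_inter B A
  rw [Finset.inter_comm B A] at h4
  omega

theorem card_sp_add (u v : W24) :
    (sp (u + v)).card + 2 * (sp u ∩ sp v).card = (sp u).card + (sp v).card := by
  rw [sp_add]
  exact card_symmDiff_add _ _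

theorem dot_eq (u v : W24) : ∑ i, u i * v i = ((sp u ∩ sp v).card : ZMod 2) := by
  have : ∀ i, u i * v i = if i ∈ sp u ∩ sp v then (1 : ZMod 2) else 0 := by
    intro i
    have e : i ∈ sp u ∩ sp v ↔ (u i = 1 ∧ v i = 1) := by
      rw [Finset.mem_inter, mem_sp, mem_sp]
    by_cases hh : i ∈ sp u ∩ sp v
    · rw [if_pos hh]
      rw [e] at hh
      rw [hh.1, hh.2, mul_one]
    · rw [if_neg hh]
      rw [e] at hh
      rcases zmod2_cases (u i) with h | h <;> rcases zmod2_cases (v i) with h' | h' <;>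
        simp [h, h'] at hh ⊢
  simp_rw [this]
  rw [Finset.sum_ite_mem, Finset.univ_inter, Finset.sum_const, nsmul_eq_mul, mul_one]

theorem card_weight (k : ℕ) :
    (Finset.univ.filter (fun u : W24 => hammingNorm u = k)).card = Nat.choose 24 k := by
  have h := Finset.card_powersetCard k (Finset.univ : Finset (Fin 24))
  rw [Finset.card_univ, Fintype.card_fin] at h
  rw [← h]
  apply Finset.card_bij' (fun u _ => sp u) (fun s _ => indw s)
  · intro u hu
    simp only [Finset.mem_filter, Finset.mem_univ, true_and] at hu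
    rw [Finset.mem_powersetCard]
    exact ⟨Finset.subset_univ _, hu⟩
  · intro s hs
    rw [Finset.mem_powersetCard] at hs
    simp only [Finset.mem_filter, Finset.mem_univ, true_and]
    rw [hammingNorm_eq_card_sp, sp_indw]
    exact hs.2
  · intro u _
    exact indw_sp u
  · intro s _
    exact sp_indw s

section Code
variable (C : Submodule (ZMod 2) W24)

theorem card_quot24 (hdim : Module.finrank (ZMod 2) C = 12) : Nat.card (W24 ⧸ C) = 4096 := by
  have h1 : Module.finrank (ZMod 2) (W24 ⧸ C) = 12 := by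
    have := Submodule.finrank_quotient_add_finrank C
    rw [hdim] at this
    have h24 : Module.finrank (ZMod 2) W24 = 24 := by simp
    omega
  have := Module.natCard_eq_pow_finrank (K := ZMod 2) (V := W24 ⧸ C)
  rw [this, h1, Nat.card_zmod]
  norm_num

theorem leaders_disjoint (hmin : ∀ w ∈ C, w ≠ 0 → 8 ≤ hammingNorm w) {u u' : W24}
    (h : u - u' ∈ C) (hne : u ≠ u')
    (hu : hammingNorm u ≤ 4) (hu' : hammingNorm u' ≤ 4) :
    hammingNorm u = 4 ∧ hammingNorm u' = 4 ∧ Disjoint (sp u) (sp u') := by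
  have h0 : u - u' ≠ 0 := sub_ne_zero.2 hne
  have h8 := hmin _ h h0
  rw [sub_eq_add24, hammingNorm_eq_card_sp] at h8
  rw [hammingNorm_eq_card_sp] at hu hu' ⊢
  rw [hammingNorm_eq_card_sp]
  have := card_sp_add u u'
  refine ⟨by omega, by omega, ?_⟩
  rw [Finset.disjoint_iff_inter_eq_empty, ← Finset.card_eq_zero]
  omega

theorem card_le_six (S : Finset W24) (h4 : ∀ u ∈ S, (sp u).card = 4)
    (hd : ∀ u ∈ S, ∀ u' ∈ S, u ≠ u' → Disjoint (sp u) (sp u')) : S.card ≤ 6 := by
  have h1 : (S.biUnion sp).card = ∑ u ∈ S, (sp u).card := Finset.card_biUnion (by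
    intro u hu u' hu' hne; exact hd u hu u' hu' hne)
  have h2 : ∑ u ∈ S, (sp u).card = 4 * S.card := by
    rw [Finset.sum_congr rfl h4, Finset.sum_const, smul_eq_mul, mul_comm]
  have h3 : (S.biUnion sp).card ≤ 24 := by
    have := Finset.card_le_univ (S.biUnion sp)
    simpa using this
  omega

theorem coset_count (hdim : Module.finrank (ZMod 2) C = 12)
    (hmin : ∀ w ∈ C, w ≠ 0 → 8 ≤ hammingNorm w) (w : W24)
    (hw : ∀ u : W24, u - w ∈ C → 4 ≤ hammingNorm u) :
    {u : W24 | u - w ∈ C ∧ hammingNorm u = 4}.ncard = 6 := by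
  classical
  letI : Fintype (W24 ⧸ C) := Fintype.ofFinite _
  let π : W24 → W24 ⧸ C := fun a => C.mkQ a
  have hπeq : ∀ a b : W24, π a = π b ↔ a - b ∈ C := fun a b => by
    simp only [π, Submodule.mkQ_apply]
    exact Submodule.Quotient.eq C
  let B3 : Finset W24 := Finset.univ.filter (fun u => hammingNorm u ≤ 3)
  let W4 : Finset W24 := Finset.univ.filter (fun u => hammingNorm u = 4)
  have mB3 : ∀ u, u ∈ B3 ↔ hammingNorm u ≤ 3 := fun u => by simp [B3]
  have mW4 : ∀ u, u ∈ W4 ↔ hammingNorm u = 4 := fun u => by simp [W4]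
  have cB3 : B3.card = 2325 := by
    have e : B3 = (Finset.range 4).biUnion
        (fun k => Finset.univ.filter (fun u : W24 => hammingNorm u = k)) := by
      ext u
      rw [mB3]
      simp only [Finset.mem_biUnion, Finset.mem_range, Finset.mem_filter, Finset.mem_univ, true_and]
      constructor
      · intro h; exact ⟨_, by omega, rfl⟩
      · rintro ⟨k, hk, rfl⟩; omega
    rw [e, Finset.card_biUnion]
    · simp_rw [card_weight]
      decide
    · intro a _ b _ hab
      rw [Function.onFun, Finset.disjoint_left]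
      intro u hu hu'
      simp only [Finset.mem_filter, Finset.mem_univ, true_and] at hu hu'
      exact hab (hu.symm.trans hu')
  have cW4 : W4.card = 10626 := by
    simp only [W4]
    rw [card_weight]
    decide
  have inj : Set.InjOn π (B3 : Set W24) := by
    intro a ha b hb hab
    by_contra hne
    have ha' := (mB3 a).1 ha
    have hb' := (mB3 b).1 hb
    have := leaders_disjoint C hmin ((hπeq a b).1 hab) hne (by omega) (by omega)
    omega
  let Q3 : Finset (W24 ⧸ C) := B3.image π
  have cQ3 : Q3.card = 2325 := by rw [Finset.card_image_of_injOn inj, cB3]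
  let Q4 : Finset (W24 ⧸ C) := Finset.univ \ Q3
  have mQ4 : ∀ q, q ∈ Q4 ↔ ∀ b ∈ B3, π b ≠ q := by
    intro q
    simp only [Q4, Q3, Finset.mem_sdiff, Finset.mem_univ, true_and, Finset.mem_image, not_exists,
      not_and]
  have cQ4 : Q4.card = 1771 := by
    have h1 := Finset.card_sdiff_add_card_eq_card (Finset.subset_univ Q3)
    rw [Finset.card_univ, ← Nat.card_eq_fintype_card, card_quot24 C hdim, cQ3] at h1
    show (Finset.univ \ Q3).card = 1771
    omega
  have hmaps : ∀ u ∈ W4, π u ∈ Q4 := by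
    intro u hu
    rw [mQ4]
    intro b hb hbu
    have hb' := (mB3 b).1 hb
    have hu' := (mW4 u).1 hu
    have hne : b ≠ u := by rintro rfl; omega
    have := leaders_disjoint C hmin ((hπeq b u).1 hbu) hne (by omega) (by omega)
    omega
  have hsum := Finset.card_eq_sum_card_fiberwise hmaps
  have hfib : ∀ q ∈ Q4, (W4.filter (fun u => π u = q)).card ≤ 6 := by
    intro q _
    apply card_le_six
    · intro u hu
      rw [Finset.mem_filter, mW4] at hu
      rw [← hammingNorm_eq_card_sp]; exact hu.1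
    · intro u hu u' hu' hne
      rw [Finset.mem_filter, mW4] at hu hu'
      exact (leaders_disjoint C hmin ((hπeq u u').1 (hu.2.trans hu'.2.symm)) hne
        (by omega) (by omega)).2.2
  have hq0 : π w ∈ Q4 := by
    rw [mQ4]
    intro b hb hbw
    have := hw b ((hπeq b w).1 hbw)
    have hb' := (mB3 b).1 hb
    omega
  have hset : {u : W24 | u - w ∈ C ∧ hammingNorm u = 4} =
      ↑(W4.filter (fun u => π u = π w)) := by
    ext u
    rw [Set.mem_setOf_eq, Finset.mem_coe, Finset.mem_filter, mW4, hπeq]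
    exact and_comm
  rw [hset, Set.ncard_coe_finset]
  by_contra hne
  have hlt : (W4.filter (fun u => π u = π w)).card < 6 := lt_of_le_of_ne (hfib _ hq0) hne
  have hlt2 : ∑ q ∈ Q4, (W4.filter (fun u => π u = q)).card < ∑ q ∈ Q4, 6 :=
    Finset.sum_lt_sum hfib ⟨π w, hq0, hlt⟩
  rw [Finset.sum_const, smul_eq_mul, cQ4] at hlt2
  omega

theorem covering (hdim : Module.finrank (ZMod 2) C = 12)
    (hmin : ∀ w ∈ C, w ≠ 0 → 8 ≤ hammingNorm w) (w : W24) :
    ∃ u : W24, u - w ∈ C ∧ hammingNorm u ≤ 4 := by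
  by_cases h : ∀ u : W24, u - w ∈ C → 4 ≤ hammingNorm u
  · have h6 := coset_count C hdim hmin w h
    have hne : {u : W24 | u - w ∈ C ∧ hammingNorm u = 4}.Nonempty := by
      rw [← Set.ncard_pos]; omega
    obtain ⟨u, hu1, hu2⟩ := hne
    exact ⟨u, hu1, hu2.le⟩
  · push Not at h
    obtain ⟨u, hu1, hu2⟩ := h
    exact ⟨u, hu1, by omega⟩

theorem even_weight (horth : ∀ v ∈ C, ∀ w ∈ C, ∑ i, v i * w i = 0) {c : W24} (hc : c ∈ C) :
    Even (sp c).card := by
  have h := horth c hc c hc
  rw [dot_eq, Finset.inter_self] at h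
  exact ZMod.natCast_eq_zero_iff_even.1 h

theorem exists_five_superset (U : Finset (Fin 24)) (hU : U.card ≤ 5) :
    ∃ F : Finset (Fin 24), U ⊆ F ∧ F.card = 5 := by
  obtain ⟨F, h1, _, h3⟩ := Finset.exists_subsuperset_card_eq (Finset.subset_univ U) hU
    (by rw [Finset.card_univ, Fintype.card_fin]; norm_num)
  exact ⟨F, h1, h3⟩

theorem steiner_exists (hdim : Module.finrank (ZMod 2) C = 12)
    (hmin : ∀ w ∈ C, w ≠ 0 → 8 ≤ hammingNorm w)
    (horth : ∀ v ∈ C, ∀ w ∈ C, ∑ i, v i * w i = 0)
    (s : Finset (Fin 24)) (hs : s.card = 5) :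
    ∃ c ∈ C, (sp c).card = 8 ∧ s ⊆ sp c := by
  obtain ⟨u, hu1, hu2⟩ := covering C hdim hmin (indw s)
  rw [hammingNorm_eq_card_sp] at hu2
  have hne : u - indw s ≠ 0 := by
    intro h0
    have : u = indw s := sub_eq_zero.1 h0
    rw [this, sp_indw] at hu2
    omega
  have h8 := hmin _ hu1 hne
  have hev := even_weight C horth hu1
  rw [sub_eq_add24] at hu1 h8 hev
  rw [hammingNorm_eq_card_sp] at h8
  have hadd := card_sp_add u (indw s)
  rw [sp_indw, hs] at hadd
  obtain ⟨k, hk⟩ := hev
  have hcard : (sp (u + indw s)).card = 8 := by omega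
  have hint : (sp u ∩ s).card = 0 := by omega
  refine ⟨u + indw s, hu1, hcard, ?_⟩
  intro i hi
  rw [sp_add, sp_indw, Finset.mem_symmDiff]
  right
  refine ⟨hi, fun hiu => ?_⟩
  rw [Finset.card_eq_zero] at hint
  have : i ∈ sp u ∩ s := Finset.mem_inter.2 ⟨hiu, hi⟩
  rw [hint] at this
  exact absurd this (Finset.notMem_empty i)

theorem steiner_unique (hmin : ∀ w ∈ C, w ≠ 0 → 8 ≤ hammingNorm w) {c c' : W24}
    (hc : c ∈ C) (hc' : c' ∈ C) (h8 : (sp c).card = 8) (h8' : (sp c').card = 8)
    (s : Finset (Fin 24)) (hs : s.card = 5) (h1 : s ⊆ sp c) (h2 : s ⊆ sp c') : c = c' := by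
  by_contra hne
  have h0 : c - c' ≠ 0 := sub_ne_zero.2 hne
  have hmem : c - c' ∈ C := C.sub_mem hc hc'
  have h := hmin _ hmem h0
  rw [sub_eq_add24, hammingNorm_eq_card_sp] at h
  have hadd := card_sp_add c c'
  have hsub : s ⊆ sp c ∩ sp c' := Finset.subset_inter h1 h2
  have := Finset.card_le_card hsub
  omega

theorem exists_odd_octad (hdim : Module.finrank (ZMod 2) C = 12)
    (hmin : ∀ w ∈ C, w ≠ 0 → 8 ≤ hammingNorm w)
    (horth : ∀ v ∈ C, ∀ w ∈ C, ∑ i, v i * w i = 0)
    (U : Finset (Fin 24)) (hU1 : U.Nonempty) (hU4 : U.card ≤ 4) :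
    ∃ o ∈ C, (sp o).card = 8 ∧ Odd (sp o ∩ U).card := by
  by_cases hodd : Odd U.card
  · obtain ⟨F, hUF, hF⟩ := exists_five_superset U (by omega)
    obtain ⟨o, ho, h8, hFo⟩ := steiner_exists C hdim hmin horth F hF
    refine ⟨o, ho, h8, ?_⟩
    rw [Finset.inter_eq_right.2 (hUF.trans hFo)]
    exact hodd
  · obtain ⟨d, hd⟩ := hU1
    obtain ⟨F1, hUF1, hF1⟩ := exists_five_superset U (by omega)
    obtain ⟨o1, ho1, h81, hF1o⟩ := steiner_exists C hdim hmin horth F1 hF1
    have hy : ∃ y, y ∉ sp o1 := by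
      by_contra hall
      push Not at hall
      have : sp o1 = Finset.univ := Finset.eq_univ_iff_forall.2 hall
      rw [this, Finset.card_univ, Fintype.card_fin] at h81
      omega
    obtain ⟨y, hy⟩ := hy
    have hdF1 : d ∈ F1 := hUF1 hd
    have hyF : y ∉ F1.erase d := fun h => hy (hF1o (Finset.mem_of_mem_erase h))
    have hG : (insert y (F1.erase d)).card = 5 := by
      rw [Finset.card_insert_of_notMem hyF, Finset.card_erase_of_mem hdF1, hF1]
    obtain ⟨o, ho, h8, hGo⟩ := steiner_exists C hdim hmin horth _ hG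
    have hdo : d ∉ sp o := by
      intro hdo
      have hF1o' : F1 ⊆ sp o := by
        intro i hi
        by_cases hid : i = d
        · rw [hid]; exact hdo
        · exact hGo (Finset.mem_insert_of_mem (Finset.mem_erase.2 ⟨hid, hi⟩))
      have heq := steiner_unique C hmin ho ho1 h8 h81 F1 hF1 hF1o' hF1o
      rw [heq] at hGo
      exact hy (hGo (Finset.mem_insert_self _ _))
    have hint : sp o ∩ U = U.erase d := by
      ext i
      rw [Finset.mem_inter, Finset.mem_erase]
      constructor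
      · rintro ⟨h1, h2⟩
        refine ⟨fun hid => hdo (hid ▸ h1), h2⟩
      · rintro ⟨h1, h2⟩
        exact ⟨hGo (Finset.mem_insert_of_mem (Finset.mem_erase.2 ⟨h1, hUF1 h2⟩)), h2⟩
    refine ⟨o, ho, h8, ?_⟩
    rw [hint, Finset.card_erase_of_mem hd]
    have hpos : 0 < U.card := Finset.card_pos.2 ⟨d, hd⟩
    rw [Nat.not_odd_iff_even] at hodd
    obtain ⟨k, hk⟩ := hodd
    exact ⟨k - 1, by omega⟩

theorem dot_add_left (a b c : W24) :
    ∑ i, (a + b) i * c i = ∑ i, a i * c i + ∑ i, b i * c i := by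
  simp only [Pi.add_apply, add_mul, Finset.sum_add_distrib]

theorem mem_of_orth_octads (hdim : Module.finrank (ZMod 2) C = 12)
    (hmin : ∀ w ∈ C, w ≠ 0 → 8 ≤ hammingNorm w)
    (horth : ∀ v ∈ C, ∀ w ∈ C, ∑ i, v i * w i = 0)
    (v : W24) (hv : ∀ o ∈ C, hammingNorm o = 8 → ∑ i, v i * o i = 0) : v ∈ C := by
  obtain ⟨u, hu1, hu2⟩ := covering C hdim hmin v
  have hu0 : u = 0 := by
    by_contra hu0
    have hne : (sp u).Nonempty := by
      rw [Finset.nonempty_iff_ne_empty]
      intro h
      exact hu0 (sp_eq_empty.1 h)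
    obtain ⟨o, ho, h8, hodd⟩ := exists_odd_octad C hdim hmin horth (sp u) hne hu2
    have h1 : ∑ i, u i * o i = 0 := by
      have e : u = (u - v) + v := by abel
      rw [e, dot_add_left, horth _ hu1 _ ho, hv o ho h8, add_zero]
    rw [dot_eq, Finset.inter_comm] at h1
    rw [ZMod.natCast_eq_zero_iff_even] at h1
    exact (Nat.not_even_iff_odd.2 hodd) h1
  rw [hu0, zero_sub] at hu1
  exact (Submodule.neg_mem_iff C).1 hu1

theorem span_octads (hdim : Module.finrank (ZMod 2) C = 12)
    (hmin : ∀ w ∈ C, w ≠ 0 → 8 ≤ hammingNorm w)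
    (horth : ∀ v ∈ C, ∀ w ∈ C, ∑ i, v i * w i = 0) :
    Submodule.span (ZMod 2) {w : W24 | w ∈ C ∧ hammingNorm w = 8} = C := by
  set C' := Submodule.span (ZMod 2) {w : W24 | w ∈ C ∧ hammingNorm w = 8} with hC'
  have hle : C' ≤ C := Submodule.span_le.2 (fun w hw => hw.1)
  let φ : W24 →ₗ[ZMod 2] Module.Dual (ZMod 2) C' :=
    LinearMap.mk₂ (ZMod 2) (fun (v : W24) (c : C') => ∑ i, v i * (c : W24) i)
      (by intro a b c; simp only [Pi.add_apply, add_mul, Finset.sum_add_distrib])
      (by intro r a c; simp only [Pi.smul_apply, smul_eq_mul, mul_assoc, Finset.mul_sum])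
      (by intro a b c; simp only [Submodule.coe_add, Pi.add_apply, mul_add, Finset.sum_add_distrib])
      (by intro r a c; simp only [Submodule.coe_smul, Pi.smul_apply, smul_eq_mul, Finset.mul_sum]
          apply Finset.sum_congr rfl; intro i _; ring)
  have hker : LinearMap.ker φ ≤ C := by
    intro v hv
    rw [LinearMap.mem_ker] at hv
    apply mem_of_orth_octads C hdim hmin horth
    intro o ho h8
    have ho' : o ∈ C' := Submodule.subset_span ⟨ho, h8⟩
    have := congrArg (fun f => f ⟨o, ho'⟩) hv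
    exact this
  have h1 := LinearMap.finrank_range_add_finrank_ker φ
  have h2 : Module.finrank (ZMod 2) (LinearMap.range φ) ≤ Module.finrank (ZMod 2) C' := by
    have := Submodule.finrank_le (LinearMap.range φ)
    rw [Subspace.dual_finrank_eq] at this
    exact this
  have h3 : Module.finrank (ZMod 2) (LinearMap.ker φ) ≤ 12 := by
    rw [← hdim]
    exact Submodule.finrank_mono hker
  have h24 : Module.finrank (ZMod 2) W24 = 24 := by simp
  apply Submodule.eq_of_le_of_finrank_le hle
  omega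

theorem doubly_even (hdim : Module.finrank (ZMod 2) C = 12)
    (hmin : ∀ w ∈ C, w ≠ 0 → 8 ≤ hammingNorm w)
    (horth : ∀ v ∈ C, ∀ w ∈ C, ∑ i, v i * w i = 0) :
    ∀ w ∈ C, 4 ∣ hammingNorm w := by
  have key : ∀ w ∈ Submodule.span (ZMod 2) {w : W24 | w ∈ C ∧ hammingNorm w = 8},
      w ∈ C ∧ 4 ∣ hammingNorm w := by
    intro w hw
    induction hw using Submodule.span_induction with
    | mem x hx => exact ⟨hx.1, by rw [hx.2]; norm_num⟩
    | zero => exact ⟨C.zero_mem, by rw [hammingNorm_zero]; exact dvd_zero 4⟩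
    | add x y _ _ hx hy =>
      refine ⟨C.add_mem hx.1 hy.1, ?_⟩
      have h := horth x hx.1 y hy.1
      rw [dot_eq, ZMod.natCast_eq_zero_iff_even] at h
      obtain ⟨k, hk⟩ := h
      have hadd := card_sp_add x y
      obtain ⟨a, ha⟩ := hx.2
      obtain ⟨b, hb⟩ := hy.2
      rw [hammingNorm_eq_card_sp] at ha hb ⊢
      exact ⟨a + b - k, by omega⟩
    | smul a x _ hx =>
      rcases zmod2_cases a with h | h
      · rw [h, zero_smul]
        exact ⟨C.zero_mem, by rw [hammingNorm_zero]; exact dvd_zero 4⟩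
      · rw [h, one_smul]; exact hx
  intro w hw
  rw [← span_octads C hdim hmin horth] at hw
  exact (key w hw).2

end Code

end Cfsg.Agent.Lib.Helper9
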