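import Mathlib

set_option autoImplicit false

namespace Cfsg.Agent.Lib.Helper9

variable {G : Type*} [Group G]

/-- In a dihedral configuration (`e` an involution inverting `u`), `e u^k = u^{-k} e`. -/
theorem dihedral_comm (e u : G) (h : e * u * e⁻¹ = u⁻¹) (k : ℕ) :
    e * u ^ k = (u ^ k)⁻¹ * e := by
  have := conj_pow (a := e) (b := u) (i := k)
  rw [h, inv_pow] at this
  rw [this]; group

/-- In a dihedral configuration, `e u^{2k}` is the conjugate of `e` by `u^{-k}`. -/
theorem dihedral_conj (e u : G) (h : e * u * e⁻¹ = u⁻¹) (k : ℕ) :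
    e * u ^ (2 * k) = (u ^ k)⁻¹ * e * ((u ^ k)⁻¹)⁻¹ := by
  rw [inv_inv, ← dihedral_comm e u h, mul_assoc, ← pow_add, two_mul]

/-- An involution is its own inverse. -/
theorem inv_eq_self_of_mul_self {a : G} (h : a * a = 1) : a⁻¹ = a :=
  inv_eq_of_mul_eq_one_left h

theorem mul_self_of_orderOf_two {a : G} (h : orderOf a = 2) : a * a = 1 := by
  have := pow_orderOf_eq_one a
  rwa [h, sq] at this

end Cfsg.Agent.Lib.Helper9
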