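import Mathlib
import Cfsg.Prelude.Def_GeometricClasses
import Cfsg.Agent.Lib.Helper9.Decomp
import Cfsg.Agent.S5635

set_option autoImplicit false

namespace Cfsg.Agent.Lib.Helper9.Frame3

open Cfsg.Agent.Lib.Helper9.Decomp
open Cfsg.Agent.S5635 (tvG tvG_mulVec not_stab)
open scoped Matrix

section quad
variable {F : Type*} [Field F] {κ : Type} [Fintype κ] [DecidableEq κ]
  (Q : (κ → F) → F)

theorem Q_add (x y : κ → F) : Q (x + y) = Q x + Q y + QuadraticMap.polar Q x y := by
  unfold QuadraticMap.polar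
  ring

theorem Q_zero (hsm : ∀ (c : F) (v : κ → F), Q (c • v) = c ^ 2 * Q v) : Q 0 = 0 := by
  have h := hsm 0 0
  rw [zero_smul] at h
  rw [h]
  ring

theorem polar_zero_right (hbil : Cfsg.Geo.IsBilinearForm (QuadraticMap.polar Q)) (x : κ → F) :
    QuadraticMap.polar Q x 0 = 0 := by
  have h := hbil.smul_right 0 x 0
  rw [zero_smul] at h
  rw [h]
  ring

theorem polar_sum_right (hbil : Cfsg.Geo.IsBilinearForm (QuadraticMap.polar Q)) {ι : Type*}
    (S : Finset ι) (c : ι → F) (e : ι → κ → F) (x : κ → F) :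
    QuadraticMap.polar Q x (∑ a ∈ S, c a • e a) = ∑ a ∈ S, c a * QuadraticMap.polar Q x (e a) := by
  classical
  induction S using Finset.induction_on with
  | empty => simp [polar_zero_right Q hbil]
  | insert a S ha ih =>
    rw [Finset.sum_insert ha, Finset.sum_insert ha, hbil.add_right, hbil.smul_right, ih]

theorem polar_sum_left (hbil : Cfsg.Geo.IsBilinearForm (QuadraticMap.polar Q)) {ι : Type*}
    (S : Finset ι) (c : ι → F) (e : ι → κ → F) (x : κ → F) :
    QuadraticMap.polar Q (∑ a ∈ S, c a • e a) x = ∑ a ∈ S, c a * QuadraticMap.polar Q (e a) x := by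
  rw [QuadraticMap.polar_comm, polar_sum_right Q hbil]
  apply Finset.sum_congr rfl
  intro a _
  rw [QuadraticMap.polar_comm]

theorem Q_sum (hsm : ∀ (c : F) (v : κ → F), Q (c • v) = c ^ 2 * Q v)
    (hbil : Cfsg.Geo.IsBilinearForm (QuadraticMap.polar Q)) {ι : Type*}
    (e : ι → κ → F) (horth : ∀ a a', a ≠ a' → QuadraticMap.polar Q (e a) (e a') = 0)
    (S : Finset ι) (c : ι → F) :
    Q (∑ a ∈ S, c a • e a) = ∑ a ∈ S, (c a) ^ 2 * Q (e a) := by
  classical
  induction S using Finset.induction_on with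
  | empty => simp [Q_zero Q hsm]
  | insert a S ha ih =>
    have hz : ∑ b ∈ S, c b * QuadraticMap.polar Q (c a • e a) (e b) = 0 := by
      apply Finset.sum_eq_zero
      intro b hb
      have hab : a ≠ b := fun h => ha (h ▸ hb)
      rw [hbil.smul_left, horth a b hab]
      ring
    rw [Finset.sum_insert ha, Finset.sum_insert ha, Q_add Q, hsm, ih, polar_sum_right Q hbil,
      hz, add_zero]

theorem Q_coord (hsm : ∀ (c : F) (v : κ → F), Q (c • v) = c ^ 2 * Q v)
    (hbil : Cfsg.Geo.IsBilinearForm (QuadraticMap.polar Q)) {ι : Type*} [Fintype ι]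
    (bb : Module.Basis ι F (κ → F))
    (horth : ∀ a a', a ≠ a' → QuadraticMap.polar Q (bb a) (bb a') = 0) (ε : F)
    (hε : ∀ a, Q (bb a) = ε) (x : κ → F) : Q x = ε * ∑ a, (bb.repr x a) ^ 2 := by
  conv_lhs => rw [← bb.sum_repr x]
  rw [Q_sum Q hsm hbil (fun a => bb a) horth, Finset.mul_sum]
  apply Finset.sum_congr rfl
  intro a _
  rw [hε]
  ring

end quad

section elems
variable {F : Type*} [Field F] {κ : Type} [Fintype κ] [DecidableEq κ]
  {ι : Type*} [Fintype ι] [DecidableEq ι] (bb : Module.Basis ι F (κ → F))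

/-- the functional `γ` times the sum of the coordinates over `S` -/
noncomputable def fU (S : Finset ι) (γ : F) : Module.Dual F (κ → F) :=
  γ • ∑ a ∈ S, bb.coord a

/-- the sum of the basis vectors over `S` -/
noncomputable def wU (S : Finset ι) : κ → F := ∑ a ∈ S, bb a

theorem fU_apply (S : Finset ι) (γ : F) (x : κ → F) :
    fU bb S γ x = γ * ∑ a ∈ S, bb.repr x a := by
  simp [fU, LinearMap.sum_apply, Module.Basis.coord_apply]

theorem repr_wU (S : Finset ι) (a : ι) : bb.repr (wU bb S) a = if a ∈ S then 1 else 0 := by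
  unfold wU
  rw [map_sum, Finsupp.finset_sum_apply]
  simp only [Module.Basis.repr_self, Finsupp.single_apply]
  rw [Finset.sum_ite_eq' S a]

theorem fU_wU (S : Finset ι) (γ : F) : fU bb S γ (wU bb S) = γ * (S.card : F) := by
  rw [fU_apply, Finset.sum_congr rfl (fun a ha => by rw [repr_wU, if_pos ha])]
  simp

/-- the element `x ↦ x + (γ Σ_{a∈S} x_a) • Σ_{a∈S} e_a` -/
noncomputable def gU (S : Finset ι) (γ : F) (hu : 1 + fU bb S γ (wU bb S) ≠ 0) :
    Matrix.GeneralLinearGroup κ F :=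
  tvG (fU bb S γ) (wU bb S) hu

theorem gU_mulVec (S : Finset ι) (γ : F) (hu : 1 + fU bb S γ (wU bb S) ≠ 0) (x : κ → F) :
    ((gU bb S γ hu : Matrix.GeneralLinearGroup κ F) : Matrix κ κ F) *ᵥ x
      = x + fU bb S γ x • wU bb S :=
  tvG_mulVec _ _ _ _

theorem gU_repr (S : Finset ι) (γ : F) (hu : 1 + fU bb S γ (wU bb S) ≠ 0) (x : κ → F)
    (a : ι) :
    bb.repr (((gU bb S γ hu : Matrix.GeneralLinearGroup κ F) : Matrix κ κ F) *ᵥ x) a
      = bb.repr x a + (γ * ∑ a' ∈ S, bb.repr x a') * (if a ∈ S then 1 else 0) := by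
  rw [gU_mulVec, map_add, map_smul, Finsupp.add_apply, Finsupp.smul_apply, repr_wU, fU_apply,
    smul_eq_mul]

theorem invO {κ' : Type*} (S : Finset κ') (γ : F)
    (hγS : 2 * γ + γ ^ 2 * (S.card : F) = 0) (a : κ' → F) :
    ∑ j ∈ S, (a j + γ * ∑ i ∈ S, a i) ^ 2 = ∑ j ∈ S, (a j) ^ 2 := by
  have e : ∀ j, (a j + γ * ∑ i ∈ S, a i) ^ 2
      = (a j) ^ 2 + ((2 * γ * ∑ i ∈ S, a i) * a j + γ ^ 2 * (∑ i ∈ S, a i) ^ 2) := by
    intro j
    ring
  rw [Finset.sum_congr rfl (fun j _ => e j), Finset.sum_add_distrib, Finset.sum_add_distrib,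
    ← Finset.mul_sum, Finset.sum_const, nsmul_eq_mul]
  linear_combination ((∑ i ∈ S, a i) ^ 2) * hγS

theorem gU_isom (Q : (κ → F) → F) (hsm : ∀ (c : F) (v : κ → F), Q (c • v) = c ^ 2 * Q v)
    (hbil : Cfsg.Geo.IsBilinearForm (QuadraticMap.polar Q))
    (horth : ∀ a a', a ≠ a' → QuadraticMap.polar Q (bb a) (bb a') = 0) (ε : F)
    (hε : ∀ a, Q (bb a) = ε) (S : Finset ι) (γ : F) (hu : 1 + fU bb S γ (wU bb S) ≠ 0)
    (hγS : 2 * γ + γ ^ 2 * (S.card : F) = 0) : gU bb S γ hu ∈ Cfsg.isometryGroup F Q := by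
  intro u v
  show Q (((gU bb S γ hu : Matrix.GeneralLinearGroup κ F) : Matrix κ κ F) *ᵥ u) = Q u
  rw [Q_coord Q hsm hbil bb horth ε hε, Q_coord Q hsm hbil bb horth ε hε]
  congr 1
  rw [← Finset.sum_add_sum_compl S, ← Finset.sum_add_sum_compl S (fun a => (bb.repr u a) ^ 2)]
  congr 1
  · rw [← invO S γ hγS (fun a => bb.repr u a)]
    apply Finset.sum_congr rfl
    intro a ha
    rw [gU_repr, if_pos ha, mul_one]
  · apply Finset.sum_congr rfl
    intro a ha
    rw [Finset.mem_compl] at ha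
    rw [gU_repr, if_neg ha, mul_zero, add_zero]

/-- exactly one non-zero coordinate -/
def oneCoord (x : κ → F) : Prop :=
  ∃ a, bb.repr x a ≠ 0 ∧ ∀ a', a' ≠ a → bb.repr x a' = 0

theorem oneCoord_perm (τ : Equiv.Perm ι) (d : ι → F) (hd : ∀ a, d a ≠ 0) (x y : κ → F)
    (hxy : ∀ a, bb.repr y a = d a * bb.repr x (τ a)) : oneCoord bb y ↔ oneCoord bb x := by
  constructor
  · rintro ⟨a, ha, ha'⟩
    refine ⟨τ a, ?_, fun a' hne => ?_⟩
    · intro h0
      apply ha
      rw [hxy, h0, mul_zero]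
    · have h1 := ha' (τ.symm a') (fun h => hne (by rw [← h, Equiv.apply_symm_apply]))
      rw [hxy, Equiv.apply_symm_apply] at h1
      rcases mul_eq_zero.mp h1 with h2 | h2
      · exact absurd h2 (hd _)
      · exact h2
  · rintro ⟨a, ha, ha'⟩
    refine ⟨τ.symm a, ?_, fun a' hne => ?_⟩
    · rw [hxy, Equiv.apply_symm_apply]
      exact mul_ne_zero (hd _) ha
    · rw [hxy, ha' _ (fun h => hne (by rw [← h, Equiv.symm_apply_apply])), mul_zero]

theorem oneCoord_basis (a : ι) : oneCoord bb (bb a) := by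
  refine ⟨a, ?_, fun a' hne => ?_⟩
  · rw [Module.Basis.repr_self, Finsupp.single_eq_same]
    exact one_ne_zero
  · rw [Module.Basis.repr_self, Finsupp.single_apply, if_neg (Ne.symm hne)]

/-- the matrices preserving the set of vectors with exactly one non-zero coordinate -/
def frameGroup : Subgroup (Matrix.GeneralLinearGroup κ F) where
  carrier := {g | ∀ x, oneCoord bb ((g : Matrix κ κ F) *ᵥ x) ↔ oneCoord bb x}
  one_mem' := fun x => by simp
  mul_mem' := by
    intro a b ha hb x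
    rw [Units.val_mul, ← Matrix.mulVec_mulVec, ha, hb]
  inv_mem' := by
    intro a ha x
    have h1 := ha (((a⁻¹ : Matrix.GeneralLinearGroup κ F) : Matrix κ κ F) *ᵥ x)
    rw [Matrix.mulVec_mulVec, ← Units.val_mul, mul_inv_cancel, Units.val_one,
      Matrix.one_mulVec] at h1
    exact h1.symm

end elems

section omega
open scoped commutatorElement
variable {F : Type*} [Field F] {κ : Type} [Fintype κ] [DecidableEq κ] (Q : (κ → F) → F)

theorem comm_mem_omega (s s' : Matrix.GeneralLinearGroup κ F)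
    (hs : s ∈ Cfsg.isometryGroup F Q) (hs' : s' ∈ Cfsg.isometryGroup F Q) :
    s * s' * s⁻¹ * s'⁻¹ ∈ Cfsg.Geo.omegaGL Q := by
  refine ⟨⁅(⟨s, hs⟩ : Cfsg.isometryGroup F Q), ⟨s', hs'⟩⁆, ?_, rfl⟩
  exact Subgroup.commutator_mem_commutator (Subgroup.mem_top _) (Subgroup.mem_top _)

theorem omega_isom (g : Matrix.GeneralLinearGroup κ F) (hg : g ∈ Cfsg.Geo.omegaGL Q)
    (v : κ → F) : Q ((g : Matrix κ κ F) *ᵥ v) = Q v := by
  obtain ⟨y, -, rfl⟩ := hg
  exact y.2 v v

end omega

section more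
variable {F : Type*} [Field F] {κ : Type} [Fintype κ] [DecidableEq κ]
  {ι : Type*} [Fintype ι] [DecidableEq ι] (bb : Module.Basis ι F (κ → F))

theorem repr_basis (a b : ι) : bb.repr (bb a) b = if a = b then 1 else 0 := by
  rw [Module.Basis.repr_self, Finsupp.single_apply]

theorem swapneg_mem (a b : ι) (hab : a ≠ b) (hu : 1 + fU bb {a, b} (-1) (wU bb {a, b}) ≠ 0) :
    gU bb {a, b} (-1) hu ∈ frameGroup bb := by
  intro x
  apply oneCoord_perm bb (Equiv.swap a b) (fun a' => if a' = a ∨ a' = b then -1 else 1)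
  · intro a'
    by_cases h : a' = a ∨ a' = b
    · simp [h]
    · simp [h]
  · intro a'
    rw [gU_repr, Finset.sum_pair hab]
    by_cases h1 : a' = a
    · rw [h1, Equiv.swap_apply_left, if_pos (by simp), if_pos (Or.inl rfl)]
      ring
    · by_cases h2 : a' = b
      · rw [h2, Equiv.swap_apply_right, if_pos (by simp), if_pos (Or.inr rfl)]
        ring
      · rw [Equiv.swap_apply_of_ne_of_ne h1 h2, if_neg (by simp [h1, h2]),
          if_neg (by simp [h1, h2])]
        ring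

end more

section f3
variable {F : Type*} [Field F] [Fintype F] (hF : Fintype.card F = 3)
include hF

theorem f3_three : (3 : F) = 0 := by
  have h3 := Nat.cast_card_eq_zero F
  rw [hF] at h3
  exact_mod_cast h3

theorem f3_two_ne : (2 : F) ≠ 0 := by
  intro h2
  have h3 := f3_three hF
  have h1 : (1 : F) = 0 := by linear_combination h3 - h2
  exact one_ne_zero h1

theorem f3_sq (x : F) (hx : x ≠ 0) : x ^ 2 = 1 := by
  have h5 := FiniteField.pow_card_sub_one_eq_one x hx
  rw [hF] at h5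
  exact h5

theorem f3_cases (x : F) : x = 0 ∨ x = 1 ∨ x = -1 := by
  by_cases hx : x = 0
  · left
    exact hx
  · right
    have h := f3_sq hF x hx
    have h2 : (x - 1) * (x + 1) = 0 := by linear_combination h
    rcases mul_eq_zero.mp h2 with h3 | h3
    · left
      linear_combination h3
    · right
      linear_combination h3

theorem sum_sq_one {k : ℕ} (hk : k ≤ 3) (c : Fin k → F) (h : ∑ j, (c j) ^ 2 = 1) :
    ∃ j₀, c j₀ ≠ 0 ∧ ∀ j, j ≠ j₀ → c j = 0 := by
  classical
  have h3 := f3_three hF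
  have e : ∑ j, (c j) ^ 2 = ((Finset.univ.filter (fun j => c j ≠ 0)).card : F) := by
    rw [Finset.card_filter, Nat.cast_sum]
    apply Finset.sum_congr rfl
    intro j _
    by_cases hj : c j = 0
    · simp [hj]
    · simp [hj, f3_sq hF _ hj]
  rw [e] at h
  have hle : (Finset.univ.filter (fun j => c j ≠ 0)).card ≤ 3 := by
    have h4 := Finset.card_le_univ (Finset.univ.filter (fun j => c j ≠ 0))
    rw [Fintype.card_fin] at h4
    omega
  have h1 : (Finset.univ.filter (fun j => c j ≠ 0)).card = 1 := by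
    generalize (Finset.univ.filter (fun j => c j ≠ 0)).card = N at h hle
    interval_cases N
    · exfalso
      simp at h
    · rfl
    · exfalso
      push_cast at h
      have h10 : (1 : F) = 0 := by linear_combination h
      exact one_ne_zero h10
    · exfalso
      push_cast at h
      have h10 : (1 : F) = 0 := by linear_combination h3 - h
      exact one_ne_zero h10
  obtain ⟨j₀, hj₀⟩ := Finset.card_eq_one.mp h1
  refine ⟨j₀, ?_, fun j hj => ?_⟩
  · have h5 : j₀ ∈ Finset.univ.filter (fun j => c j ≠ 0) := by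
      rw [hj₀]
      exact Finset.mem_singleton_self _
    exact (Finset.mem_filter.mp h5).2
  · by_contra hne
    have h5 : j ∈ Finset.univ.filter (fun j => c j ≠ 0) :=
      Finset.mem_filter.mpr ⟨Finset.mem_univ _, hne⟩
    rw [hj₀, Finset.mem_singleton] at h5
    exact hj h5

end f3

section core
variable {F : Type*} [Field F] [Fintype F] {κ : Type} [Fintype κ] [DecidableEq κ]

theorem frame_core (hF : Fintype.card F = 3) (Q : (κ → F) → F)
    (hsm : ∀ (c : F) (v : κ → F), Q (c • v) = c ^ 2 * Q v)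
    (hbil : Cfsg.Geo.IsBilinearForm (QuadraticMap.polar Q))
    {t k : ℕ} (ht : 3 ≤ t) (hk2 : 2 ≤ k) (hk3 : k ≤ 3)
    (D : Fin t → Submodule F (κ → F)) (hint : DirectSum.IsInternal D)
    (bb : Module.Basis (Σ _ : Fin t, Fin k) F (κ → F))
    (horth : ∀ a a', a ≠ a' → QuadraticMap.polar Q (bb a) (bb a') = 0) (ε : F) (hε0 : ε ≠ 0)
    (hε : ∀ a, Q (bb a) = ε)
    (hmem : ∀ a, bb a ∈ D a.1)
    (hz : ∀ x i, x ∈ D i → ∀ j l, j ≠ i → bb.repr x ⟨j, l⟩ = 0) :
    ∃ K : Subgroup (Matrix.GeneralLinearGroup κ F),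
      Cfsg.Geo.decompositionStabilizer D ⊓ Cfsg.Geo.omegaGL Q < K ∧
        K < Cfsg.Geo.omegaGL Q := by
  classical
  have h3 := f3_three hF
  have h2ne := f3_two_ne hF
  -- characterisation of the frame vectors
  have hXD : ∀ x, oneCoord bb x ↔ ((∃ i, x ∈ D i) ∧ Q x = ε) := by
    intro x
    constructor
    · rintro ⟨a, ha, ha'⟩
      have hx : x = bb.repr x a • bb a := by
        conv_lhs => rw [← bb.sum_repr x]
        rw [Finset.sum_eq_single a]
        · intro b _ hb
          rw [ha' b hb, zero_smul]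
        · intro h
          exact absurd (Finset.mem_univ a) h
      refine ⟨⟨a.1, ?_⟩, ?_⟩
      · rw [hx]
        exact (D a.1).smul_mem _ (hmem a)
      · have hc := f3_sq hF _ ha
        rw [hx, hsm, hε, hc, one_mul]
    · rintro ⟨⟨i, hx⟩, hxx⟩
      have hsum : Q x = ε * ∑ l : Fin k, (bb.repr x ⟨i, l⟩) ^ 2 := by
        rw [Q_coord Q hsm hbil bb horth ε hε, Fintype.sum_sigma, Finset.sum_eq_single i]
        · intro j _ hj
          apply Finset.sum_eq_zero
          intro l _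
          rw [hz x i hx j l hj]
          ring
        · intro h
          exact absurd (Finset.mem_univ i) h
      rw [hsum] at hxx
      have h1 : ∑ l : Fin k, (bb.repr x ⟨i, l⟩) ^ 2 = 1 := by
        apply mul_left_cancel₀ hε0
        rw [hxx, mul_one]
      obtain ⟨l₀, hl₀, hl'⟩ := sum_sq_one hF hk3 (fun l => bb.repr x ⟨i, l⟩) h1
      refine ⟨⟨i, l₀⟩, hl₀, ?_⟩
      rintro ⟨j, l⟩ hne
      by_cases hj : j = i
      · subst hj
        apply hl'
        intro hl
        apply hne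
        rw [hl]
      · exact hz x i hx j l hj
  -- the stabiliser lies in the frame group
  have hle : Cfsg.Geo.decompositionStabilizer D ⊓ Cfsg.Geo.omegaGL Q
      ≤ frameGroup bb ⊓ Cfsg.Geo.omegaGL Q := by
    rintro g ⟨⟨σ, hσ⟩, hg2⟩
    refine ⟨?_, hg2⟩
    intro x
    rw [hXD, hXD, omega_isom Q g hg2]
    constructor
    · rintro ⟨⟨i, hi⟩, h1⟩
      refine ⟨⟨σ.symm i, ?_⟩, h1⟩
      have h4 := hσ (σ.symm i)
      rw [Equiv.apply_symm_apply] at h4
      rw [← h4] at hi
      obtain ⟨y, hy, hyx⟩ := hi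
      rw [Matrix.toLin'_apply] at hyx
      have hyx' : y = x := by
        have h5 := congrArg (fun z => ((g⁻¹ : Matrix.GeneralLinearGroup κ F) :
          Matrix κ κ F) *ᵥ z) hyx
        simp only [Matrix.mulVec_mulVec, ← Units.val_mul, inv_mul_cancel, Units.val_one,
          Matrix.one_mulVec] at h5
        exact h5
      rw [← hyx']
      exact hy
    · rintro ⟨⟨i, hi⟩, h1⟩
      refine ⟨⟨σ i, ?_⟩, h1⟩
      rw [← hσ i, ← Matrix.toLin'_apply]
      exact Submodule.mem_map_of_mem hi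
  -- a non-zero coordinate gives a non-zero component
  have hcomp : ∀ (y : κ → F) (i : Fin t) (l : Fin k), bb.repr y ⟨i, l⟩ ≠ 0 →
      comp D hint i y ≠ 0 := by
    intro y i l hne h0
    apply hne
    conv_lhs => rw [← sum_comp D hint y]
    rw [map_sum, Finsupp.finset_sum_apply]
    apply Finset.sum_eq_zero
    intro j _
    by_cases hj : j = i
    · rw [hj, h0, map_zero, Finsupp.zero_apply]
    · exact hz _ j (comp_mem D hint j y) i l (Ne.symm hj)
  -- five frame indices
  obtain ⟨φ, hφ, hφ01, hφ23, hφ02⟩ : ∃ φ : Fin 5 → (Σ _ : Fin t, Fin k),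
      Function.Injective φ ∧ (φ 0).1 = (φ 1).1 ∧ (φ 2).1 = (φ 3).1 ∧ (φ 0).1 ≠ (φ 2).1 := by
    refine ⟨![⟨⟨0, by omega⟩, ⟨0, by omega⟩⟩, ⟨⟨0, by omega⟩, ⟨1, by omega⟩⟩,
      ⟨⟨1, by omega⟩, ⟨0, by omega⟩⟩, ⟨⟨1, by omega⟩, ⟨1, by omega⟩⟩,
      ⟨⟨2, by omega⟩, ⟨0, by omega⟩⟩], ?_, rfl, rfl, ?_⟩
    · intro i j hij
      fin_cases i <;> fin_cases j <;> first | rfl | (exfalso; simp [Fin.ext_iff] at hij)
    · simp [Fin.ext_iff]
  have hne : ∀ i j : Fin 5, i ≠ j → φ i ≠ φ j := fun i j hij h => hij (hφ h)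
  have hrb : ∀ i j : Fin 5, bb.repr (bb (φ i)) (φ j) = if i = j then 1 else 0 := by
    intro i j
    rw [repr_basis]
    by_cases hij : i = j
    · rw [if_pos hij, if_pos (by rw [hij])]
    · rw [if_neg hij, if_neg (hne i j hij)]
  have hm1 : (-1 : F) ≠ 0 := neg_ne_zero.mpr one_ne_zero
  have hupair : ∀ a b : (Σ _ : Fin t, Fin k), a ≠ b →
      1 + fU bb {a, b} (-1) (wU bb {a, b}) ≠ 0 := by
    intro a b hab
    rw [fU_wU, Finset.card_pair hab]
    intro h
    apply hm1
    push_cast at h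
    linear_combination h
  have hisopair : ∀ (a b : (Σ _ : Fin t, Fin k)) (hab : a ≠ b),
      gU bb {a, b} (-1) (hupair a b hab) ∈ Cfsg.isometryGroup F Q := by
    intro a b hab
    apply gU_isom bb Q hsm hbil horth ε hε
    rw [Finset.card_pair hab]
    push_cast
    ring
  -- the element of the frame group outside the stabiliser
  have h01 := hne 0 1 (by decide)
  have h02 := hne 0 2 (by decide)
  have hs1F := swapneg_mem bb (φ 0) (φ 1) h01 (hupair _ _ h01)
  have hs2F := swapneg_mem bb (φ 0) (φ 2) h02 (hupair _ _ h02)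
  have hs1I := hisopair _ _ h01
  have hs2I := hisopair _ _ h02
  have hsw1 : gU bb {φ 0, φ 1} (-1) (hupair _ _ h01) * gU bb {φ 0, φ 2} (-1) (hupair _ _ h02)
      * (gU bb {φ 0, φ 1} (-1) (hupair _ _ h01))⁻¹ * (gU bb {φ 0, φ 2} (-1) (hupair _ _ h02))⁻¹
      ∈ frameGroup bb :=
    Subgroup.mul_mem _ (Subgroup.mul_mem _ (Subgroup.mul_mem _ hs1F hs2F)
      (Subgroup.inv_mem _ hs1F)) (Subgroup.inv_mem _ hs2F)
  have hsw2 := comm_mem_omega Q _ _ hs1I hs2I
  have hsw3 : gU bb {φ 0, φ 1} (-1) (hupair _ _ h01) * gU bb {φ 0, φ 2} (-1) (hupair _ _ h02)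
      * (gU bb {φ 0, φ 1} (-1) (hupair _ _ h01))⁻¹ * (gU bb {φ 0, φ 2} (-1) (hupair _ _ h02))⁻¹
      ∉ Cfsg.Geo.decompositionStabilizer D := by
    have hgrp : gU bb {φ 0, φ 1} (-1) (hupair _ _ h01) * gU bb {φ 0, φ 2} (-1) (hupair _ _ h02)
        * (gU bb {φ 0, φ 1} (-1) (hupair _ _ h01))⁻¹
        * (gU bb {φ 0, φ 2} (-1) (hupair _ _ h02))⁻¹
        * (gU bb {φ 0, φ 2} (-1) (hupair _ _ h02) * gU bb {φ 0, φ 1} (-1) (hupair _ _ h01))
        = gU bb {φ 0, φ 1} (-1) (hupair _ _ h01) * gU bb {φ 0, φ 2} (-1) (hupair _ _ h02) := by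
      group
    have hgv := congrArg (fun u : Matrix.GeneralLinearGroup κ F =>
      (u : Matrix κ κ F) *ᵥ (bb (φ 1) + bb (φ 3))) hgrp
    simp only [Units.val_mul, ← Matrix.mulVec_mulVec] at hgv
    -- the inner vectors
    have e1 : ((gU bb {φ 0, φ 1} (-1) (hupair _ _ h01) : Matrix.GeneralLinearGroup κ F) :
        Matrix κ κ F) *ᵥ (bb (φ 1) + bb (φ 3)) = bb (φ 3) - bb (φ 0) := by
      rw [gU_mulVec, fU_apply, Finset.sum_pair h01, map_add, Finsupp.add_apply,
        Finsupp.add_apply, hrb, hrb, hrb, hrb, wU, Finset.sum_pair h01]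
      simp only [Fin.reduceEq, if_true, if_false]
      module
    have e2 : ((gU bb {φ 0, φ 2} (-1) (hupair _ _ h02) : Matrix.GeneralLinearGroup κ F) :
        Matrix κ κ F) *ᵥ (bb (φ 3) - bb (φ 0)) = bb (φ 2) + bb (φ 3) := by
      rw [gU_mulVec, fU_apply, Finset.sum_pair h02, map_sub, Finsupp.sub_apply,
        Finsupp.sub_apply, hrb, hrb, hrb, hrb, wU, Finset.sum_pair h02]
      simp only [Fin.reduceEq, if_true, if_false]
      module
    have e3 : ((gU bb {φ 0, φ 2} (-1) (hupair _ _ h02) : Matrix.GeneralLinearGroup κ F) :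
        Matrix κ κ F) *ᵥ (bb (φ 1) + bb (φ 3)) = bb (φ 1) + bb (φ 3) := by
      rw [gU_mulVec, fU_apply, Finset.sum_pair h02, map_add, Finsupp.add_apply,
        Finsupp.add_apply, hrb, hrb, hrb, hrb]
      simp only [Fin.reduceEq, if_true, if_false]
      module
    rw [e1, e2, e3, e1] at hgv
    have hx : bb (φ 2) + bb (φ 3) ∈ D (φ 2).1 := by
      apply (D (φ 2).1).add_mem (hmem (φ 2))
      rw [hφ23]
      exact hmem (φ 3)
    apply not_stab D hint _ (φ 2).1 (φ 0).1 (φ 2).1 hφ02 (bb (φ 2) + bb (φ 3)) hx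
    · simp only [Units.val_mul, ← Matrix.mulVec_mulVec]
      rw [hgv]
      apply hcomp _ (φ 0).1 (φ 0).2
      rw [map_sub, Finsupp.sub_apply]
      have e4 : (⟨(φ 0).1, (φ 0).2⟩ : Σ _ : Fin t, Fin k) = φ 0 := rfl
      rw [e4, hrb, hrb]
      simp only [Fin.reduceEq, if_true, if_false]
      intro h
      apply hm1
      linear_combination h
    · simp only [Units.val_mul, ← Matrix.mulVec_mulVec]
      rw [hgv]
      apply hcomp _ (φ 2).1 (φ 3).2
      have e4 : (⟨(φ 2).1, (φ 3).2⟩ : Σ _ : Fin t, Fin k) = φ 3 := by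
        apply Sigma.ext
        · exact hφ23
        · rfl
      rw [map_sub, Finsupp.sub_apply, e4, hrb, hrb]
      simp only [Fin.reduceEq, if_true, if_false]
      intro h
      apply one_ne_zero (α := F)
      linear_combination h
  -- the element of Ω outside the frame group
  have h34 := hne 3 4 (by decide)
  have hcard4 : ((Finset.image φ {0, 1, 2, 3}).card : F) = 4 := by
    rw [Finset.card_image_of_injective _ hφ]
    rfl
  have hu4 : 1 + fU bb (Finset.image φ {0, 1, 2, 3}) 1 (wU bb (Finset.image φ {0, 1, 2, 3}))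
      ≠ 0 := by
    rw [fU_wU, hcard4]
    intro h
    apply h2ne
    linear_combination h - h3
  have hrI : gU bb (Finset.image φ {0, 1, 2, 3}) 1 hu4 ∈ Cfsg.isometryGroup F Q := by
    apply gU_isom bb Q hsm hbil horth ε hε
    rw [hcard4]
    linear_combination 2 * h3
  have hsF := swapneg_mem bb (φ 3) (φ 4) h34 (hupair _ _ h34)
  have hsI := hisopair _ _ h34
  have hB1 := comm_mem_omega Q _ _ hrI hsI
  have hB2 : gU bb (Finset.image φ {0, 1, 2, 3}) 1 hu4 * gU bb {φ 3, φ 4} (-1) (hupair _ _ h34)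
      * (gU bb (Finset.image φ {0, 1, 2, 3}) 1 hu4)⁻¹
      * (gU bb {φ 3, φ 4} (-1) (hupair _ _ h34))⁻¹ ∉ frameGroup bb := by
    intro hmemB
    have hgrp : gU bb (Finset.image φ {0, 1, 2, 3}) 1 hu4
        * gU bb {φ 3, φ 4} (-1) (hupair _ _ h34)
        * (gU bb (Finset.image φ {0, 1, 2, 3}) 1 hu4)⁻¹
        * (gU bb {φ 3, φ 4} (-1) (hupair _ _ h34))⁻¹
        * (gU bb {φ 3, φ 4} (-1) (hupair _ _ h34) * gU bb (Finset.image φ {0, 1, 2, 3}) 1 hu4)
        = gU bb (Finset.image φ {0, 1, 2, 3}) 1 hu4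
          * gU bb {φ 3, φ 4} (-1) (hupair _ _ h34) := by
      group
    have hgv := congrArg (fun u : Matrix.GeneralLinearGroup κ F =>
      (u : Matrix κ κ F) *ᵥ (bb (φ 4))) hgrp
    simp only [Units.val_mul, ← Matrix.mulVec_mulVec] at hgv
    have hsum4 : ∀ f : (Σ _ : Fin t, Fin k) → F, ∑ a ∈ Finset.image φ {0, 1, 2, 3}, f a
        = f (φ 0) + f (φ 1) + f (φ 2) + f (φ 3) := by
      intro f
      rw [Finset.sum_image (fun i _ j _ hij => hφ hij)]
      simp [Finset.sum_insert]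
      ring
    have e1 : ((gU bb (Finset.image φ {0, 1, 2, 3}) 1 hu4 : Matrix.GeneralLinearGroup κ F) :
        Matrix κ κ F) *ᵥ (bb (φ 4)) = bb (φ 4) := by
      rw [gU_mulVec, fU_apply, hsum4, hrb, hrb, hrb, hrb]
      simp only [Fin.reduceEq, if_true, if_false]
      module
    rw [e1] at hgv
    have h1 := (hmemB (((gU bb {φ 3, φ 4} (-1) (hupair _ _ h34) :
      Matrix.GeneralLinearGroup κ F) : Matrix κ κ F) *ᵥ (bb (φ 4)))).mpr
      ((hsF (bb (φ 4))).mpr (oneCoord_basis bb (φ 4)))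
    simp only [Units.val_mul, ← Matrix.mulVec_mulVec] at h1
    rw [hgv] at h1
    have e2 : ((gU bb {φ 3, φ 4} (-1) (hupair _ _ h34) : Matrix.GeneralLinearGroup κ F) :
        Matrix κ κ F) *ᵥ (bb (φ 4)) = - bb (φ 3) := by
      rw [gU_mulVec, fU_apply, Finset.sum_pair h34, hrb, hrb, wU, Finset.sum_pair h34]
      simp only [Fin.reduceEq, if_true, if_false]
      module
    rw [e2] at h1
    obtain ⟨a, -, ha'⟩ := h1
    have hr : ∀ j : Fin 5, bb.repr (((gU bb (Finset.image φ {0, 1, 2, 3}) 1 hu4 :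
        Matrix.GeneralLinearGroup κ F) : Matrix κ κ F) *ᵥ (- bb (φ 3))) (φ j)
        = (if (3 : Fin 5) = j then -1 else 0)
          + (-1) * (if φ j ∈ Finset.image φ {0, 1, 2, 3} then 1 else 0) := by
      intro j
      rw [gU_repr, hsum4]
      simp only [map_neg, Finsupp.neg_apply, hrb, Fin.reduceEq, if_true, if_false]
      by_cases hj : (3 : Fin 5) = j
      · rw [if_pos hj, if_pos hj]
        ring
      · rw [if_neg hj, if_neg hj]
        ring
    have hm0 : φ 0 ∈ Finset.image φ {0, 1, 2, 3} :=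
      Finset.mem_image.mpr ⟨0, by decide, rfl⟩
    have hm1' : φ 1 ∈ Finset.image φ {0, 1, 2, 3} :=
      Finset.mem_image.mpr ⟨1, by decide, rfl⟩
    have hr0 := hr 0
    have hr1 := hr 1
    rw [if_neg (by decide), if_pos hm0] at hr0
    rw [if_neg (by decide), if_pos hm1'] at hr1
    have e5 : φ 0 = a := by
      by_contra hne0
      rw [ha' (φ 0) hne0] at hr0
      apply hm1
      linear_combination -hr0
    have e6 : φ 1 = a := by
      by_contra hne1
      rw [ha' (φ 1) hne1] at hr1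
      apply hm1
      linear_combination -hr1
    exact h01 (e5.trans e6.symm)
  refine ⟨frameGroup bb ⊓ Cfsg.Geo.omegaGL Q, lt_of_le_of_ne hle ?_,
    lt_of_le_of_ne inf_le_right ?_⟩
  · intro hEq
    have h1 : gU bb {φ 0, φ 1} (-1) (hupair _ _ h01) * gU bb {φ 0, φ 2} (-1) (hupair _ _ h02)
        * (gU bb {φ 0, φ 1} (-1) (hupair _ _ h01))⁻¹
        * (gU bb {φ 0, φ 2} (-1) (hupair _ _ h02))⁻¹
        ∈ Cfsg.Geo.decompositionStabilizer D ⊓ Cfsg.Geo.omegaGL Q := by
      rw [hEq]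
      exact ⟨hsw1, hsw2⟩
    exact hsw3 h1.1
  · intro hEq
    have h1 : gU bb (Finset.image φ {0, 1, 2, 3}) 1 hu4
        * gU bb {φ 3, φ 4} (-1) (hupair _ _ h34)
        * (gU bb (Finset.image φ {0, 1, 2, 3}) 1 hu4)⁻¹
        * (gU bb {φ 3, φ 4} (-1) (hupair _ _ h34))⁻¹
        ∈ frameGroup bb ⊓ Cfsg.Geo.omegaGL Q := by
      rw [hEq]
      exact hB1
    exact hB2 h1.1

end core

section assemble
variable {F : Type*} [Field F] [Fintype F] {κ : Type} [Fintype κ] [DecidableEq κ]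
  (Q : (κ → F) → F)

/-- a frame: a basis of `W` of pairwise orthogonal vectors on which `Q` takes the value `ε` -/
def HasFrame (k : ℕ) (W : Submodule F (κ → F)) (ε : F) : Prop :=
  ∃ B : Module.Basis (Fin k) F W,
    (∀ l l', l ≠ l' → QuadraticMap.polar Q (B l : κ → F) (B l' : κ → F) = 0) ∧
      ∀ l, Q (B l : κ → F) = ε

theorem frame_transport {k : ℕ} (W W' : Submodule F (κ → F)) (ε : F)
    (h : Cfsg.Geo.AreIsometricFor Q W W') (hfr : HasFrame Q k W ε) : HasFrame Q k W' ε := by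
  obtain ⟨e, he⟩ := h
  obtain ⟨B, hB1, hB2⟩ := hfr
  refine ⟨B.map e, ?_, ?_⟩
  · intro l l' hne
    rw [Module.Basis.map_apply, Module.Basis.map_apply]
    have h1 := hB1 l l' hne
    unfold QuadraticMap.polar at h1 ⊢
    have h2 : ((e (B l) : W') : κ → F) + ((e (B l') : W') : κ → F)
        = ((e (B l + B l') : W') : κ → F) := by
      rw [map_add, Submodule.coe_add]
    rw [h2, he, he, he, Submodule.coe_add]
    exact h1
  · intro l
    rw [Module.Basis.map_apply, he]
    exact hB2 l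

theorem frame_main (hF : Fintype.card F = 3)
    (hsm : ∀ (c : F) (v : κ → F), Q (c • v) = c ^ 2 * Q v)
    (hbil : Cfsg.Geo.IsBilinearForm (QuadraticMap.polar Q))
    {t k : ℕ} (hk2 : 2 ≤ k) (hk3 : k ≤ 3) (hcard : 13 ≤ Fintype.card κ)
    (D : Fin t → Submodule F (κ → F)) (hD : Cfsg.Geo.IsOrthogonalMDecomposition Q k D)
    (ε : F) (hε0 : ε ≠ 0) (hfr : ∃ i₀, HasFrame Q k (D i₀) ε) :
    ∃ K : Subgroup (Matrix.GeneralLinearGroup κ F),
      Cfsg.Geo.decompositionStabilizer D ⊓ Cfsg.Geo.omegaGL Q < K ∧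
        K < Cfsg.Geo.omegaGL Q := by
  classical
  have hint : DirectSum.IsInternal D :=
    DirectSum.isInternal_submodule_of_iSupIndep_of_iSup_eq_top hD.decomp.decomp.indep
      hD.decomp.decomp.iSup_eq_top
  obtain ⟨i₀, hfr0⟩ := hfr
  have hall : ∀ j, HasFrame Q k (D j) ε := fun j =>
    frame_transport Q (D i₀) (D j) ε (hD.isometric i₀ j) hfr0
  choose B hB1 hB2 using hall
  have hbbv : ∀ a, hint.collectedBasis B a = (B a.1 a.2 : κ → F) := fun a => by
    rw [DirectSum.IsInternal.collectedBasis_coe]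
  have hmem : ∀ a, hint.collectedBasis B a ∈ D a.1 := fun a => hint.collectedBasis_mem B a
  have htn : Fintype.card κ = t * k := by
    have h1 := Module.finrank_eq_card_basis (hint.collectedBasis B)
    rw [Module.finrank_fintype_fun_eq_card] at h1
    simpa using h1
  have ht : 3 ≤ t := by nlinarith
  refine frame_core hF Q hsm hbil ht hk2 hk3 D hint (hint.collectedBasis B) ?_ ε hε0 ?_ hmem ?_
  · rintro ⟨i, l⟩ ⟨i', l'⟩ hne
    by_cases hi : i = i'
    · subst hi
      rw [hbbv, hbbv]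
      exact hB1 i l l' (fun h => hne (by rw [h]))
    · exact hD.decomp.orthogonal i i' hi _ (hmem ⟨i, l⟩) _ (hmem ⟨i', l'⟩)
  · intro a
    rw [hbbv]
    exact hB2 a.1 a.2
  · intro x i hx j l hj
    exact hint.collectedBasis_repr_of_mem_ne B (Ne.symm hj) hx

theorem polar_zero_left (hbil : Cfsg.Geo.IsBilinearForm (QuadraticMap.polar Q)) (x : κ → F) :
    QuadraticMap.polar Q 0 x = 0 := by
  rw [QuadraticMap.polar_comm, polar_zero_right Q hbil]

theorem polar_self (hsm : ∀ (c : F) (v : κ → F), Q (c • v) = c ^ 2 * Q v) (x : κ → F) :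
    QuadraticMap.polar Q x x = 2 * Q x := by
  unfold QuadraticMap.polar
  rw [← two_smul F x, hsm]
  ring

theorem orth_li (hsm : ∀ (c : F) (v : κ → F), Q (c • v) = c ^ 2 * Q v)
    (hbil : Cfsg.Geo.IsBilinearForm (QuadraticMap.polar Q)) (h2 : (2 : F) ≠ 0) {k : ℕ}
    (e : Fin k → κ → F) (horth : ∀ l l', l ≠ l' → QuadraticMap.polar Q (e l) (e l') = 0)
    (hq : ∀ l, Q (e l) ≠ 0) : LinearIndependent F e := by
  rw [linearIndependent_iff']
  intro s g hsum i hi
  have h1 : QuadraticMap.polar Q (∑ a ∈ s, g a • e a) (e i) = QuadraticMap.polar Q 0 (e i) := by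
    rw [hsum]
  rw [polar_sum_left Q hbil, polar_zero_left Q hbil, Finset.sum_eq_single i] at h1
  · rw [polar_self Q hsm] at h1
    rcases mul_eq_zero.mp h1 with h3 | h3
    · exact h3
    · exfalso
      rcases mul_eq_zero.mp h3 with h4 | h4
      · exact h2 h4
      · exact hq i h4
  · intro b _ hb
    rw [horth b i hb, mul_zero]
  · intro h
    exact absurd hi h

theorem basis_of_orth (hsm : ∀ (c : F) (v : κ → F), Q (c • v) = c ^ 2 * Q v)
    (hbil : Cfsg.Geo.IsBilinearForm (QuadraticMap.polar Q)) (h2 : (2 : F) ≠ 0) {k : ℕ}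
    (hk : 0 < k) (W : Submodule F (κ → F)) (hdim : Module.finrank F W = k)
    (e : Fin k → κ → F) (hmem : ∀ l, e l ∈ W)
    (horth : ∀ l l', l ≠ l' → QuadraticMap.polar Q (e l) (e l') = 0) (ε : F) (hε0 : ε ≠ 0)
    (hε : ∀ l, Q (e l) = ε) : HasFrame Q k W ε := by
  have hli := orth_li Q hsm hbil h2 e horth (fun l => by rw [hε l]; exact hε0)
  have hli' : LinearIndependent F (fun l => (⟨e l, hmem l⟩ : W)) := by
    apply LinearIndependent.of_comp W.subtype
    exact hli
  haveI : Nonempty (Fin k) := ⟨⟨0, hk⟩⟩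
  refine ⟨basisOfLinearIndependentOfCardEqFinrank hli' (by rw [Fintype.card_fin, hdim]), ?_, ?_⟩
  · intro l l' hne
    rw [coe_basisOfLinearIndependentOfCardEqFinrank]
    exact horth l l' hne
  · intro l
    rw [coe_basisOfLinearIndependentOfCardEqFinrank]
    exact hε l

theorem exists_orth (hsm : ∀ (c : F) (v : κ → F), Q (c • v) = c ^ 2 * Q v)
    (hbil : Cfsg.Geo.IsBilinearForm (QuadraticMap.polar Q)) (h2 : (2 : F) ≠ 0) {k : ℕ}
    (W : Submodule F (κ → F)) (hdim : Module.finrank F W = k)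
    (hnd : Cfsg.Geo.IsNondegenerateOn (QuadraticMap.polar Q) W) :
    ∃ v : Fin k → κ → F, (∀ l, v l ∈ W) ∧
      (∀ l l', l ≠ l' → QuadraticMap.polar Q (v l) (v l') = 0) ∧ ∀ l, Q (v l) ≠ 0 := by
  classical
  let BW : LinearMap.BilinForm F W := LinearMap.mk₂ F
    (fun x y : W => QuadraticMap.polar Q (x : κ → F) (y : κ → F))
    (fun x y z => hbil.add_left _ _ _) (fun c x y => hbil.smul_left _ _ _)
    (fun x y z => hbil.add_right _ _ _) (fun c x y => hbil.smul_right _ _ _)
  have hBW : ∀ x y : W, BW x y = QuadraticMap.polar Q (x : κ → F) (y : κ → F) := fun x y => rfl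
  have hsymm : LinearMap.IsSymm BW :=
    LinearMap.isSymm_def.mpr (fun x y => by
      rw [RingHom.id_apply, hBW, hBW, QuadraticMap.polar_comm])
  haveI : Invertible (2 : F) := invertibleOfNonzero h2
  have key : ∃ v : Module.Basis (Fin k) F W, BW.IsOrthoᵢ v := by
    have h := LinearMap.BilinForm.exists_orthogonal_basis hsymm
    rw [hdim] at h
    exact h
  obtain ⟨v, hv⟩ := key
  have hvo : ∀ l l', l ≠ l' → QuadraticMap.polar Q (v l : κ → F) (v l' : κ → F) = 0 := by
    intro l l' hne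
    have h1 := LinearMap.isOrthoᵢ_def.mp hv l l' hne
    rw [hBW] at h1
    exact h1
  refine ⟨fun l => (v l : κ → F), fun l => (v l).2, hvo, ?_⟩
  intro l h0
  have hvl : (v l : κ → F) ≠ 0 := by
    intro h
    exact v.ne_zero l (Subtype.ext h)
  obtain ⟨-, ⟨x, hx, hxne⟩⟩ := hnd _ (v l).2 hvl
  apply hxne
  have hx' : x = ∑ j, (v.repr ⟨x, hx⟩ j) • (v j : κ → F) := by
    have h1 := congrArg Subtype.val (v.sum_repr ⟨x, hx⟩)
    rw [Submodule.coe_sum] at h1
    simp only [Submodule.coe_smul] at h1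
    exact h1.symm
  rw [hx', polar_sum_right Q hbil]
  apply Finset.sum_eq_zero
  intro j _
  by_cases hj : l = j
  · rw [← hj, polar_self Q hsm, h0]
    ring
  · rw [hvo l j hj, mul_zero]

end assemble

section frames
variable {F : Type*} [Field F] [Fintype F] {κ : Type} [Fintype κ] [DecidableEq κ]
  (Q : (κ → F) → F)

theorem f3_ne_neg (hF : Fintype.card F = 3) (x y : F) (hx : x ≠ 0) (hy : y ≠ 0)
    (hxy : x ≠ y) : y = -x := by
  rcases f3_cases hF x with h | h | h
  · exact absurd h hx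
  · rcases f3_cases hF y with h' | h' | h'
    · exact absurd h' hy
    · exact absurd (h.trans h'.symm) hxy
    · rw [h', h]
  · rcases f3_cases hF y with h' | h' | h'
    · exact absurd h' hy
    · rw [h', h]
      ring
    · exact absurd (h.trans h'.symm) hxy

theorem same3 (hF : Fintype.card F = 3)
    (hsm : ∀ (c : F) (v : κ → F), Q (c • v) = c ^ 2 * Q v)
    (hbil : Cfsg.Geo.IsBilinearForm (QuadraticMap.polar Q))
    (W : Submodule F (κ → F)) (hdim : Module.finrank F W = 3) (x y z : κ → F)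
    (hx : x ∈ W) (hy : y ∈ W) (hz : z ∈ W)
    (hxy : QuadraticMap.polar Q x y = 0) (hxz : QuadraticMap.polar Q x z = 0)
    (hyz : QuadraticMap.polar Q y z = 0) (a : F) (ha : a ≠ 0)
    (qx : Q x = a) (qy : Q y = a) (qz : Q z = a) : HasFrame Q 3 W a := by
  have hyx : QuadraticMap.polar Q y x = 0 := by
    rw [QuadraticMap.polar_comm]
    exact hxy
  have hzx : QuadraticMap.polar Q z x = 0 := by
    rw [QuadraticMap.polar_comm]
    exact hxz
  have hzy : QuadraticMap.polar Q z y = 0 := by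
    rw [QuadraticMap.polar_comm]
    exact hyz
  apply basis_of_orth Q hsm hbil (f3_two_ne hF) (by norm_num) W hdim ![x, y, z]
  · intro l
    fin_cases l
    · exact hx
    · exact hy
    · exact hz
  · intro l l' hne
    fin_cases l <;> fin_cases l' <;> first
      | exact absurd rfl hne
      | exact hxy
      | exact hxz
      | exact hyz
      | exact hyx
      | exact hzx
      | exact hzy
  · exact ha
  · intro l
    fin_cases l
    · exact qx
    · exact qy
    · exact qz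

theorem adjust3 (hF : Fintype.card F = 3)
    (hsm : ∀ (c : F) (v : κ → F), Q (c • v) = c ^ 2 * Q v)
    (hbil : Cfsg.Geo.IsBilinearForm (QuadraticMap.polar Q))
    (W : Submodule F (κ → F)) (hdim : Module.finrank F W = 3) (x y z : κ → F)
    (hx : x ∈ W) (hy : y ∈ W) (hz : z ∈ W)
    (hxy : QuadraticMap.polar Q x y = 0) (hxz : QuadraticMap.polar Q x z = 0)
    (hyz : QuadraticMap.polar Q y z = 0) (a : F) (ha : a ≠ 0)
    (qx : Q x = a) (qy : Q y = a) (qz : Q z = -a) : HasFrame Q 3 W (-a) := by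
  have h3 := f3_three hF
  have hyx : QuadraticMap.polar Q y x = 0 := by
    rw [QuadraticMap.polar_comm]
    exact hxy
  have pxx := polar_self Q hsm x
  rw [qx] at pxx
  have pyy := polar_self Q hsm y
  rw [qy] at pyy
  have hmy : (-1 : F) • y ∈ W := W.smul_mem _ hy
  have q1 : Q (x + y) = -a := by
    rw [Q_add Q, qx, qy, hxy]
    linear_combination a * h3
  have q2 : Q (x + (-1 : F) • y) = -a := by
    rw [Q_add Q, hsm, qx, qy, hbil.smul_right, hxy]
    linear_combination a * h3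
  have o12 : QuadraticMap.polar Q (x + y) (x + (-1 : F) • y) = 0 := by
    rw [hbil.add_left, hbil.add_right, hbil.add_right, hbil.smul_right, hbil.smul_right, pxx,
      hxy, hyx, pyy]
    ring
  have o21 : QuadraticMap.polar Q (x + (-1 : F) • y) (x + y) = 0 := by
    rw [QuadraticMap.polar_comm]
    exact o12
  have o13 : QuadraticMap.polar Q (x + y) z = 0 := by
    rw [hbil.add_left, hxz, hyz, add_zero]
  have o31 : QuadraticMap.polar Q z (x + y) = 0 := by
    rw [QuadraticMap.polar_comm]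
    exact o13
  have o23 : QuadraticMap.polar Q (x + (-1 : F) • y) z = 0 := by
    rw [hbil.add_left, hbil.smul_left, hxz, hyz]
    ring
  have o32 : QuadraticMap.polar Q z (x + (-1 : F) • y) = 0 := by
    rw [QuadraticMap.polar_comm]
    exact o23
  apply basis_of_orth Q hsm hbil (f3_two_ne hF) (by norm_num) W hdim
    ![x + y, x + (-1 : F) • y, z]
  · intro l
    fin_cases l
    · exact W.add_mem hx hy
    · exact W.add_mem hx hmy
    · exact hz
  · intro l l' hne
    fin_cases l <;> fin_cases l' <;> first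
      | exact absurd rfl hne
      | exact o12
      | exact o13
      | exact o23
      | exact o21
      | exact o31
      | exact o32
  · exact neg_ne_zero.mpr ha
  · intro l
    fin_cases l
    · exact q1
    · exact q2
    · exact qz

theorem frame3 (hF : Fintype.card F = 3)
    (hsm : ∀ (c : F) (v : κ → F), Q (c • v) = c ^ 2 * Q v)
    (hbil : Cfsg.Geo.IsBilinearForm (QuadraticMap.polar Q))
    (W : Submodule F (κ → F)) (hdim : Module.finrank F W = 3)
    (hnd : Cfsg.Geo.IsNondegenerateOn (QuadraticMap.polar Q) W) :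
    ∃ ε : F, ε ≠ 0 ∧ HasFrame Q 3 W ε := by
  obtain ⟨v, hvW, hvo, hvq⟩ := exists_orth Q hsm hbil (f3_two_ne hF) W hdim hnd
  by_cases h01 : Q (v 0) = Q (v 1)
  · by_cases h02 : Q (v 0) = Q (v 2)
    · exact ⟨Q (v 0), hvq 0, same3 Q hF hsm hbil W hdim (v 0) (v 1) (v 2) (hvW 0) (hvW 1)
        (hvW 2) (hvo 0 1 (by decide)) (hvo 0 2 (by decide)) (hvo 1 2 (by decide)) (Q (v 0))
        (hvq 0) rfl h01.symm h02.symm⟩
    · have h := f3_ne_neg hF _ _ (hvq 0) (hvq 2) h02
      exact ⟨-Q (v 0), neg_ne_zero.mpr (hvq 0), adjust3 Q hF hsm hbil W hdim (v 0) (v 1) (v 2)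
        (hvW 0) (hvW 1) (hvW 2) (hvo 0 1 (by decide)) (hvo 0 2 (by decide))
        (hvo 1 2 (by decide)) (Q (v 0)) (hvq 0) rfl h01.symm h⟩
  · have h1 := f3_ne_neg hF _ _ (hvq 0) (hvq 1) h01
    by_cases h02 : Q (v 0) = Q (v 2)
    · exact ⟨-Q (v 0), neg_ne_zero.mpr (hvq 0), adjust3 Q hF hsm hbil W hdim (v 0) (v 2) (v 1)
        (hvW 0) (hvW 2) (hvW 1) (hvo 0 2 (by decide)) (hvo 0 1 (by decide))
        (hvo 2 1 (by decide)) (Q (v 0)) (hvq 0) rfl h02.symm h1⟩
    · have h2 := f3_ne_neg hF _ _ (hvq 0) (hvq 2) h02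
      exact ⟨-Q (v 1), neg_ne_zero.mpr (hvq 1), adjust3 Q hF hsm hbil W hdim (v 1) (v 2) (v 0)
        (hvW 1) (hvW 2) (hvW 0) (hvo 1 2 (by decide)) (hvo 1 0 (by decide))
        (hvo 2 0 (by decide)) (Q (v 1)) (hvq 1) rfl (by rw [h2, h1]) (by rw [h1, neg_neg])⟩

theorem frame2 (hF : Fintype.card F = 3)
    (hsm : ∀ (c : F) (v : κ → F), Q (c • v) = c ^ 2 * Q v)
    (hbil : Cfsg.Geo.IsBilinearForm (QuadraticMap.polar Q))
    (W : Submodule F (κ → F)) (hdim : Module.finrank F W = 2)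
    (hnd : Cfsg.Geo.IsNondegenerateOn (QuadraticMap.polar Q) W)
    (hnp : ¬ Cfsg.Geo.IsPlusTypeOn Q W) :
    ∃ ε : F, ε ≠ 0 ∧ HasFrame Q 2 W ε := by
  obtain ⟨v, hvW, hvo, hvq⟩ := exists_orth Q hsm hbil (f3_two_ne hF) W hdim hnd
  by_cases h01 : Q (v 0) = Q (v 1)
  · refine ⟨Q (v 0), hvq 0, basis_of_orth Q hsm hbil (f3_two_ne hF) (by norm_num) W hdim v hvW
      hvo (Q (v 0)) (hvq 0) ?_⟩
    intro l
    fin_cases l
    · rfl
    · exact h01.symm
  · exfalso
    have h1 := f3_ne_neg hF _ _ (hvq 0) (hvq 1) h01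
    apply hnp
    have hu0 : v 0 + v 1 ≠ 0 := by
      intro h0
      have h5 : QuadraticMap.polar Q (v 0) (v 0 + v 1) = 0 := by
        rw [h0, polar_zero_right Q hbil]
      rw [hbil.add_right, polar_self Q hsm, hvo 0 1 (by decide), add_zero] at h5
      rcases mul_eq_zero.mp h5 with h6 | h6
      · exact f3_two_ne hF h6
      · exact hvq 0 h6
    have hQu : Q (v 0 + v 1) = 0 := by
      rw [Q_add Q, h1, hvo 0 1 (by decide)]
      ring
    refine ⟨Submodule.span F {v 0 + v 1}, ?_, ?_, ?_⟩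
    · rw [Submodule.span_le]
      intro w hw
      rw [Set.mem_singleton_iff] at hw
      rw [hw]
      exact W.add_mem (hvW 0) (hvW 1)
    · intro w hw
      obtain ⟨c, rfl⟩ := Submodule.mem_span_singleton.mp hw
      rw [hsm, hQu, mul_zero]
    · rw [finrank_span_singleton hu0, hdim]

end frames

end Cfsg.Agent.Lib.Helper9.Frame3
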