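import Mathlib
import Cfsg.Prelude.Def_GeometricClasses
import Cfsg.Agent.Lib.Helper9.Frame3

set_option autoImplicit false

namespace Cfsg.Agent.Lib.Helper9.Refl

open Cfsg.Agent.Lib.Helper9.Frame3
open Cfsg.Agent.S5635 (tvG tvG_mulVec)
open scoped Matrix

section refl
variable {F : Type*} [Field F] [Fintype F] {κ : Type} [Fintype κ] [DecidableEq κ]
  (Q : (κ → F) → F)
  (hsm : ∀ (c : F) (v : κ → F), Q (c • v) = c ^ 2 * Q v)
  (hbil : Cfsg.Geo.IsBilinearForm (QuadraticMap.polar Q))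

/-- `v ↦ polar Q v u` as a linear functional -/
noncomputable def polarL (u : κ → F) : Module.Dual F (κ → F) where
  toFun := fun v => QuadraticMap.polar Q v u
  map_add' := fun x y => hbil.add_left x y u
  map_smul' := fun c x => by rw [hbil.smul_left, RingHom.id_apply, smul_eq_mul]

include hsm in
theorem refl_unit (u : κ → F) (hu : Q u ≠ 0) :
    1 + ((-(Q u)⁻¹) • polarL Q hbil u) u ≠ 0 := by
  have h1 : ((-(Q u)⁻¹) • polarL Q hbil u) u = -2 := by
    show -(Q u)⁻¹ * QuadraticMap.polar Q u u = -2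
    rw [polar_self Q hsm]
    field_simp
  rw [h1]
  intro h
  have h2 : (1 : F) = 0 := by linear_combination -h
  exact one_ne_zero h2

/-- the reflection in a non-singular vector -/
noncomputable def refl (u : κ → F) (hu : Q u ≠ 0) : Matrix.GeneralLinearGroup κ F :=
  tvG ((-(Q u)⁻¹) • polarL Q hbil u) u (refl_unit Q hsm hbil u hu)

theorem refl_mulVec (u : κ → F) (hu : Q u ≠ 0) (v : κ → F) :
    ((refl Q hsm hbil u hu : Matrix.GeneralLinearGroup κ F) : Matrix κ κ F) *ᵥ v
      = v + (-(Q u)⁻¹ * QuadraticMap.polar Q v u) • u := by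
  rw [refl, tvG_mulVec]
  rfl

theorem refl_isom (u : κ → F) (hu : Q u ≠ 0) :
    refl Q hsm hbil u hu ∈ Cfsg.isometryGroup F Q := by
  intro v w
  show Q (((refl Q hsm hbil u hu : Matrix.GeneralLinearGroup κ F) : Matrix κ κ F) *ᵥ v) = Q v
  rw [refl_mulVec, Q_add Q, hsm, hbil.smul_right]
  field_simp
  ring

theorem refl_fix (u : κ → F) (hu : Q u ≠ 0) (v : κ → F) (h : QuadraticMap.polar Q v u = 0) :
    ((refl Q hsm hbil u hu : Matrix.GeneralLinearGroup κ F) : Matrix κ κ F) *ᵥ v = v := by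
  rw [refl_mulVec, h, mul_zero, zero_smul, add_zero]

theorem refl_sq (u : κ → F) (hu : Q u ≠ 0) :
    refl Q hsm hbil u hu * refl Q hsm hbil u hu = 1 := by
  apply Units.ext
  rw [Units.val_mul, Units.val_one]
  apply Matrix.toLin'.injective
  apply LinearMap.ext
  intro v
  rw [Matrix.toLin'_apply, Matrix.toLin'_one, LinearMap.id_apply, ← Matrix.mulVec_mulVec,
    refl_mulVec, refl_mulVec, hbil.add_left, hbil.smul_left, polar_self Q hsm]
  have h1 : (-(Q u)⁻¹ * QuadraticMap.polar Q v u)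
      + (-(Q u)⁻¹ * (QuadraticMap.polar Q v u
        + (-(Q u)⁻¹ * QuadraticMap.polar Q v u) * (2 * Q u))) = 0 := by
    field_simp
    ring
  rw [add_assoc, ← add_smul, h1, zero_smul, add_zero]

theorem refl_inv (u : κ → F) (hu : Q u ≠ 0) :
    (refl Q hsm hbil u hu)⁻¹ = refl Q hsm hbil u hu :=
  inv_eq_of_mul_eq_one_left (refl_sq Q hsm hbil u hu)

theorem comm4_mem (a b : κ → F) (ha : Q a ≠ 0) (hb : Q b ≠ 0) :
    refl Q hsm hbil a ha * refl Q hsm hbil b hb * refl Q hsm hbil a ha * refl Q hsm hbil b hb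
      ∈ Cfsg.Geo.omegaGL Q := by
  have h := comm_mem_omega Q _ _ (refl_isom Q hsm hbil a ha) (refl_isom Q hsm hbil b hb)
  rw [refl_inv, refl_inv] at h
  exact h

theorem refl_swap (a b : κ → F) (hab : QuadraticMap.polar Q a b = 0) (c : F) (qa : Q a = c)
    (qb : Q b = c) (hc : Q (a + b) ≠ 0) :
    ((refl Q hsm hbil (a + b) hc : Matrix.GeneralLinearGroup κ F) : Matrix κ κ F) *ᵥ a = -b ∧
    ((refl Q hsm hbil (a + b) hc : Matrix.GeneralLinearGroup κ F) : Matrix κ κ F) *ᵥ b = -a := by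
  have hq : Q (a + b) = 2 * c := by
    rw [Q_add Q, qa, qb, hab]
    ring
  have h2c : 2 * c ≠ 0 := by
    rw [← hq]
    exact hc
  have hba : QuadraticMap.polar Q b a = 0 := by
    rw [QuadraticMap.polar_comm]
    exact hab
  have h1 : -(2 * c)⁻¹ * (2 * c) = -1 := by
    rw [neg_mul, inv_mul_cancel₀ h2c]
  constructor
  · rw [refl_mulVec, hbil.add_right, polar_self Q hsm, hab, add_zero, qa, hq, h1]
    module
  · rw [refl_mulVec, hbil.add_right, polar_self Q hsm, hba, zero_add, qb, hq, h1]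
    module

theorem comm_eval (a b c : κ → F) (hab : QuadraticMap.polar Q a b = 0)
    (hac : QuadraticMap.polar Q a c = 0) (hbc : QuadraticMap.polar Q b c = 0) (q₀ : F)
    (qa : Q a = q₀) (qb : Q b = q₀) (qc : Q c = q₀) (h1 : Q (a + b) ≠ 0) (h2 : Q (a + c) ≠ 0) :
    ((refl Q hsm hbil (a + b) h1 * refl Q hsm hbil (a + c) h2 * refl Q hsm hbil (a + b) h1
      * refl Q hsm hbil (a + c) h2 : Matrix.GeneralLinearGroup κ F) : Matrix κ κ F) *ᵥ a
      = -b := by
  have hcb : QuadraticMap.polar Q c b = 0 := by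
    rw [QuadraticMap.polar_comm]
    exact hbc
  have hca : QuadraticMap.polar Q c a = 0 := by
    rw [QuadraticMap.polar_comm]
    exact hac
  have sb := refl_swap Q hsm hbil a b hab q₀ qa qb h1
  have sc := refl_swap Q hsm hbil a c hac q₀ qa qc h2
  have fc : ((refl Q hsm hbil (a + b) h1 : Matrix.GeneralLinearGroup κ F) : Matrix κ κ F) *ᵥ c
      = c := by
    apply refl_fix
    rw [hbil.add_right, hca, hcb, add_zero]
  simp only [Units.val_mul, ← Matrix.mulVec_mulVec]
  rw [sc.1, Matrix.mulVec_neg, fc, Matrix.mulVec_neg, sc.2, neg_neg, sb.1]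

end refl

section stab
variable {F : Type*} [Field F] {κ : Type} [Fintype κ] [DecidableEq κ]

theorem gl_inj (g : Matrix.GeneralLinearGroup κ F) (v w : κ → F)
    (h : (g : Matrix κ κ F) *ᵥ v = (g : Matrix κ κ F) *ᵥ w) : v = w := by
  have h5 := congrArg (fun z => ((g⁻¹ : Matrix.GeneralLinearGroup κ F) : Matrix κ κ F) *ᵥ z) h
  simp only [Matrix.mulVec_mulVec, ← Units.val_mul, inv_mul_cancel, Units.val_one,
    Matrix.one_mulVec] at h5
  exact h5

theorem mem_stab_of_smul (x : κ → F) (g : Matrix.GeneralLinearGroup κ F) (a : F) (ha : a ≠ 0)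
    (hg : (g : Matrix κ κ F) *ᵥ x = a • x) :
    g ∈ Cfsg.Geo.subspaceStabilizer (Submodule.span F {x}) := by
  intro v
  show v ∈ Submodule.span F {x} ↔ (g : Matrix κ κ F) *ᵥ v ∈ Submodule.span F {x}
  constructor
  · intro hv
    obtain ⟨c, rfl⟩ := Submodule.mem_span_singleton.mp hv
    rw [Matrix.mulVec_smul, hg]
    exact Submodule.smul_mem _ _ (Submodule.smul_mem _ _ (Submodule.mem_span_singleton_self x))
  · intro hv
    obtain ⟨c, hc⟩ := Submodule.mem_span_singleton.mp hv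
    have h1 : (g : Matrix κ κ F) *ᵥ v = (g : Matrix κ κ F) *ᵥ ((c * a⁻¹) • x) := by
      rw [Matrix.mulVec_smul, hg, ← hc, smul_smul, mul_assoc, inv_mul_cancel₀ ha, mul_one]
    rw [gl_inj g _ _ h1]
    exact Submodule.smul_mem _ _ (Submodule.mem_span_singleton_self x)

theorem mem_stab_of_fix (x : κ → F) (g : Matrix.GeneralLinearGroup κ F)
    (hg : (g : Matrix κ κ F) *ᵥ x = x) :
    g ∈ Cfsg.Geo.subspaceStabilizer (Submodule.span F {x}) :=
  mem_stab_of_smul x g 1 one_ne_zero (by rw [hg, one_smul])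

end stab

section perp
variable {F : Type*} [Field F] [Fintype F] {κ : Type} [Fintype κ] [DecidableEq κ]
  (Q : (κ → F) → F)
  (hbil : Cfsg.Geo.IsBilinearForm (QuadraticMap.polar Q))

/-- the polar form as a bilinear form -/
noncomputable def Bf : LinearMap.BilinForm F (κ → F) :=
  LinearMap.mk₂ F (fun x y => QuadraticMap.polar Q x y)
    (fun _ _ _ => hbil.add_left _ _ _) (fun _ _ _ => hbil.smul_left _ _ _)
    (fun _ _ _ => hbil.add_right _ _ _) (fun _ _ _ => hbil.smul_right _ _ _)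

/-- the orthogonal complement -/
noncomputable def perp (W : Submodule F (κ → F)) : Submodule F (κ → F) :=
  (Bf Q hbil).orthogonal W

theorem mem_perp (W : Submodule F (κ → F)) (v : κ → F) :
    v ∈ perp Q hbil W ↔ ∀ w ∈ W, QuadraticMap.polar Q w v = 0 := Iff.rfl

theorem Bf_nondeg (hnd : Cfsg.Geo.IsNondegenerateForm (QuadraticMap.polar Q)) :
    (Bf Q hbil).Nondegenerate := by
  constructor
  · intro x hx
    by_contra hne
    obtain ⟨-, ⟨y, hy⟩⟩ := hnd x hne
    exact hy (hx y)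
  · intro y hy
    by_contra hne
    obtain ⟨⟨x, hx⟩, -⟩ := hnd y hne
    exact hx (hy x)

theorem finrank_perp (hnd : Cfsg.Geo.IsNondegenerateForm (QuadraticMap.polar Q))
    (W : Submodule F (κ → F)) :
    Module.finrank F (perp Q hbil W) = Fintype.card κ - Module.finrank F W := by
  have h := LinearMap.BilinForm.finrank_orthogonal (Bf_nondeg Q hbil hnd) W
  rw [Module.finrank_fintype_fun_eq_card] at h
  exact h

theorem perp_disj (W : Submodule F (κ → F))
    (hW : Cfsg.Geo.IsNondegenerateOn (QuadraticMap.polar Q) W) (v : κ → F) (hv : v ∈ W)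
    (hv' : v ∈ perp Q hbil W) : v = 0 := by
  by_contra hne
  obtain ⟨⟨x, hx, hxv⟩, -⟩ := hW v hv hne
  exact hxv ((mem_perp Q hbil W v).mp hv' x hx)

theorem perp_nondeg (hnd : Cfsg.Geo.IsNondegenerateForm (QuadraticMap.polar Q))
    (W : Submodule F (κ → F)) (hW : Cfsg.Geo.IsNondegenerateOn (QuadraticMap.polar Q) W) :
    Cfsg.Geo.IsNondegenerateOn (QuadraticMap.polar Q) (perp Q hbil W) := by
  have hdisj : W ⊓ perp Q hbil W = ⊥ := by
    rw [eq_bot_iff]
    intro v hv
    rw [Submodule.mem_bot]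
    exact perp_disj Q hbil W hW v hv.1 hv.2
  have hle : Module.finrank F W ≤ Fintype.card κ := by
    have h1 := Submodule.finrank_le W
    rw [Module.finrank_fintype_fun_eq_card] at h1
    exact h1
  have htop : W ⊔ perp Q hbil W = ⊤ := by
    apply Submodule.eq_top_of_finrank_eq
    have h1 := Submodule.finrank_sup_add_finrank_inf_eq W (perp Q hbil W)
    rw [hdisj, finrank_bot, add_zero, finrank_perp Q hbil hnd] at h1
    rw [h1, Module.finrank_fintype_fun_eq_card]
    omega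
  intro v hv hv0
  have key : ∃ p ∈ perp Q hbil W, QuadraticMap.polar Q p v ≠ 0 := by
    obtain ⟨⟨y, hy⟩, -⟩ := hnd v hv0
    have hy' : y ∈ W ⊔ perp Q hbil W := by
      rw [htop]
      exact Submodule.mem_top
    obtain ⟨w, hw, p, hp, rfl⟩ := Submodule.mem_sup.mp hy'
    refine ⟨p, hp, ?_⟩
    rw [hbil.add_left, (mem_perp Q hbil W v).mp hv w hw, zero_add] at hy
    exact hy
  obtain ⟨p, hp, hpv⟩ := key
  refine ⟨⟨p, hp, hpv⟩, ⟨p, hp, ?_⟩⟩
  rw [QuadraticMap.polar_comm]
  exact hpv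

end perp

section three
variable {F : Type*} [Field F] [Fintype F] {κ : Type} [Fintype κ] [DecidableEq κ]
  (Q : (κ → F) → F)

theorem sq_sum_zero (hF : Fintype.card F = 3) (a b : F) (h : a ^ 2 + b ^ 2 = 0) :
    a = 0 ∧ b = 0 := by
  have h2ne := f3_two_ne hF
  by_cases ha : a = 0
  · refine ⟨ha, ?_⟩
    rw [ha] at h
    have h1 : b ^ 2 = 0 := by linear_combination h
    exact pow_eq_zero_iff (by norm_num) |>.mp h1
  · exfalso
    have ha2 := f3_sq hF a ha
    by_cases hb : b = 0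
    · rw [ha2, hb] at h
      have h1 : (1 : F) = 0 := by linear_combination h
      exact one_ne_zero h1
    · have hb2 := f3_sq hF b hb
      rw [ha2, hb2] at h
      apply h2ne
      linear_combination h

theorem pair_of_pair (hF : Fintype.card F = 3)
    (hsm : ∀ (c : F) (v : κ → F), Q (c • v) = c ^ 2 * Q v)
    (hbil : Cfsg.Geo.IsBilinearForm (QuadraticMap.polar Q)) (a b : κ → F)
    (hab : QuadraticMap.polar Q a b = 0) (q : F) (qa : Q a = q) (qb : Q b = q) (hq : q ≠ 0)
    (c : F) (hc : c ≠ 0) :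
    ∃ e e' : κ → F, (∀ w, QuadraticMap.polar Q w a = 0 → QuadraticMap.polar Q w b = 0 →
        QuadraticMap.polar Q w e = 0 ∧ QuadraticMap.polar Q w e' = 0) ∧
      QuadraticMap.polar Q e e' = 0 ∧ Q e = c ∧ Q e' = c := by
  have h3 := f3_three hF
  by_cases hqc : q = c
  · exact ⟨a, b, fun w h1 h2 => ⟨h1, h2⟩, hab, by rw [qa, hqc], by rw [qb, hqc]⟩
  · have hc' := f3_ne_neg hF q c hq hc hqc
    have hba : QuadraticMap.polar Q b a = 0 := by
      rw [QuadraticMap.polar_comm]
      exact hab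
    refine ⟨a + b, a + (-1 : F) • b, ?_, ?_, ?_, ?_⟩
    · intro w h1 h2
      constructor
      · rw [hbil.add_right, h1, h2, add_zero]
      · rw [hbil.add_right, hbil.smul_right, h1, h2]
        ring
    · rw [hbil.add_left, hbil.add_right, hbil.add_right, hbil.smul_right, hbil.smul_right,
        polar_self Q hsm, polar_self Q hsm, hab, hba, qa, qb]
      ring
    · rw [Q_add Q, qa, qb, hab, hc']
      linear_combination q * h3
    · rw [Q_add Q, hsm, qa, qb, hbil.smul_right, hab, hc']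
      linear_combination q * h3

theorem pair_of_triple (hF : Fintype.card F = 3)
    (hsm : ∀ (c : F) (v : κ → F), Q (c • v) = c ^ 2 * Q v)
    (hbil : Cfsg.Geo.IsBilinearForm (QuadraticMap.polar Q)) (p₁ p₂ p₃ : κ → F)
    (h12 : QuadraticMap.polar Q p₁ p₂ = 0) (h13 : QuadraticMap.polar Q p₁ p₃ = 0)
    (h23 : QuadraticMap.polar Q p₂ p₃ = 0) (q1 : Q p₁ ≠ 0) (q2 : Q p₂ ≠ 0) (q3 : Q p₃ ≠ 0)
    (c : F) (hc : c ≠ 0) :
    ∃ e e' : κ → F, (∀ w, QuadraticMap.polar Q w p₁ = 0 → QuadraticMap.polar Q w p₂ = 0 →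
        QuadraticMap.polar Q w p₃ = 0 →
        QuadraticMap.polar Q w e = 0 ∧ QuadraticMap.polar Q w e' = 0) ∧
      QuadraticMap.polar Q e e' = 0 ∧ Q e = c ∧ Q e' = c := by
  by_cases e12 : Q p₁ = Q p₂
  · obtain ⟨e, e', h1, h2, h3, h4⟩ := pair_of_pair Q hF hsm hbil p₁ p₂ h12 (Q p₁) rfl e12.symm
      q1 c hc
    exact ⟨e, e', fun w a1 a2 _ => h1 w a1 a2, h2, h3, h4⟩
  · by_cases e13 : Q p₁ = Q p₃
    · obtain ⟨e, e', h1, h2, h3, h4⟩ := pair_of_pair Q hF hsm hbil p₁ p₃ h13 (Q p₁) rfl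
        e13.symm q1 c hc
      exact ⟨e, e', fun w a1 _ a3 => h1 w a1 a3, h2, h3, h4⟩
    · have e2 := f3_ne_neg hF _ _ q1 q2 e12
      have e3 := f3_ne_neg hF _ _ q1 q3 e13
      obtain ⟨e, e', h1, h2, h3, h4⟩ := pair_of_pair Q hF hsm hbil p₂ p₃ h23 (Q p₂) rfl
        (by rw [e3, e2]) q2 c hc
      exact ⟨e, e', fun w _ a2 a3 => h1 w a2 a3, h2, h3, h4⟩

end three

section plane3
variable {F : Type*} [Field F] [Fintype F] {κ : Type} [Fintype κ] [DecidableEq κ]
  (Q : (κ → F) → F)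

theorem plane3_basis (hF : Fintype.card F = 3)
    (hsm : ∀ (c : F) (v : κ → F), Q (c • v) = c ^ 2 * Q v)
    (hbil : Cfsg.Geo.IsBilinearForm (QuadraticMap.polar Q))
    (W : Submodule F (κ → F)) (hdim : Module.finrank F W = 2)
    (hW : Cfsg.Geo.IsNondegenerateOn (QuadraticMap.polar Q) W)
    (hplus : Cfsg.Geo.IsPlusTypeOn Q W) :
    ∃ x y : κ → F, x ∈ W ∧ y ∈ W ∧ QuadraticMap.polar Q x y = 0 ∧ Q x = 1 ∧ Q y = -1 ∧
      ∀ w ∈ W, ∃ a b : F, w = a • x + b • y := by
  have h2 := f3_two_ne hF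
  obtain ⟨v, hvW, hvo, hvq⟩ := exists_orth Q hsm hbil h2 W hdim hW
  have hli := orth_li Q hsm hbil h2 v hvo hvq
  have hspan : Submodule.span F (Set.range v) = W := by
    apply Submodule.eq_of_le_of_finrank_eq
    · rw [Submodule.span_le]
      rintro _ ⟨l, rfl⟩
      exact hvW l
    · rw [finrank_span_eq_card hli, Fintype.card_fin, hdim]
  have hrep : ∀ w ∈ W, ∃ a b : F, w = a • v 0 + b • v 1 := by
    intro w hw
    rw [← hspan] at hw
    obtain ⟨c, hc⟩ := (Submodule.mem_span_range_iff_exists_fun F).mp hw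
    rw [Fin.sum_univ_two] at hc
    exact ⟨c 0, c 1, hc.symm⟩
  have h01 : QuadraticMap.polar Q (v 0) (v 1) = 0 := hvo 0 1 (by decide)
  have hne : Q (v 0) ≠ Q (v 1) := by
    intro heq
    obtain ⟨U, hUW, hUs, hUd⟩ := hplus
    rw [hdim] at hUd
    have hU1 : Module.finrank F U = 1 := by omega
    have hUne : U ≠ ⊥ := by
      intro hbot
      rw [hbot, finrank_bot] at hU1
      exact absurd hU1 (by norm_num)
    obtain ⟨u, hu, hu0⟩ := Submodule.exists_mem_ne_zero_of_ne_bot hUne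
    obtain ⟨a, b, hab⟩ := hrep u (hUW hu)
    have hq := hUs u hu
    rw [hab, Q_add Q, hsm, hsm, hbil.smul_left, hbil.smul_right, h01, ← heq] at hq
    have h3 : Q (v 0) * (a ^ 2 + b ^ 2) = 0 := by linear_combination hq
    rcases mul_eq_zero.mp h3 with h4 | h4
    · exact hvq 0 h4
    · obtain ⟨ha, hb⟩ := sq_sum_zero hF a b h4
      apply hu0
      rw [hab, ha, hb, zero_smul, zero_smul, add_zero]
  rcases f3_cases hF (Q (v 0)) with h | h | h
  · exact absurd h (hvq 0)
  · have h1 := f3_ne_neg hF _ _ (hvq 0) (hvq 1) hne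
    rw [h] at h1
    exact ⟨v 0, v 1, hvW 0, hvW 1, h01, h, h1, hrep⟩
  · have h1 := f3_ne_neg hF _ _ (hvq 0) (hvq 1) hne
    rw [h, neg_neg] at h1
    refine ⟨v 1, v 0, hvW 1, hvW 0, ?_, h1, h, ?_⟩
    · rw [QuadraticMap.polar_comm]
      exact h01
    · intro w hw
      obtain ⟨a, b, hab⟩ := hrep w hw
      exact ⟨b, a, by rw [hab, add_comm]⟩

theorem plane3_core (hF : Fintype.card F = 3)
    (hsm : ∀ (c : F) (v : κ → F), Q (c • v) = c ^ 2 * Q v)
    (hbil : Cfsg.Geo.IsBilinearForm (QuadraticMap.polar Q))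
    (hnd : Cfsg.Geo.IsNondegenerateForm (QuadraticMap.polar Q))
    (hκ : 8 ≤ Fintype.card κ)
    (W : Submodule F (κ → F)) (hdim : Module.finrank F W = 2)
    (hW : Cfsg.Geo.IsNondegenerateOn (QuadraticMap.polar Q) W)
    (hplus : Cfsg.Geo.IsPlusTypeOn Q W) :
    ∃ K : Subgroup (Matrix.GeneralLinearGroup κ F),
      Cfsg.Geo.subspaceStabilizer W ⊓ Cfsg.Geo.omegaGL Q < K ∧ K < Cfsg.Geo.omegaGL Q := by
  have h2 := f3_two_ne hF
  have h3 := f3_three hF
  obtain ⟨x, y, hxW, hyW, hxy, qx, qy, hrep⟩ := plane3_basis Q hF hsm hbil W hdim hW hplus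
  have hPd := finrank_perp Q hbil hnd W
  rw [hdim] at hPd
  have hPnd := perp_nondeg Q hbil hnd W hW
  obtain ⟨p, hpP, hpo, hpq⟩ := exists_orth Q hsm hbil h2 (perp Q hbil W) rfl hPnd
  have h6 : 6 ≤ Module.finrank F (perp Q hbil W) := by omega
  have hne : ∀ (a b : ℕ) (ha : a < Module.finrank F (perp Q hbil W))
      (hb : b < Module.finrank F (perp Q hbil W)), a ≠ b →
      (⟨a, ha⟩ : Fin (Module.finrank F (perp Q hbil W))) ≠ ⟨b, hb⟩ :=
    fun a b ha hb h h' => h (congrArg Fin.val h')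
  have hpW : ∀ i, ∀ w ∈ W, QuadraticMap.polar Q w (p i) = 0 :=
    fun i w hw => (mem_perp Q hbil W (p i)).mp (hpP i) w hw
  obtain ⟨x₁, x₂, hxo, hx12, qx1, qx2⟩ := pair_of_triple Q hF hsm hbil
    (p ⟨0, by omega⟩) (p ⟨1, by omega⟩) (p ⟨2, by omega⟩)
    (hpo _ _ (hne 0 1 _ _ (by norm_num))) (hpo _ _ (hne 0 2 _ _ (by norm_num)))
    (hpo _ _ (hne 1 2 _ _ (by norm_num))) (hpq _) (hpq _) (hpq _) 1 one_ne_zero
  obtain ⟨z₁, z₂, hzo, hz12, qz1, qz2⟩ := pair_of_triple Q hF hsm hbil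
    (p ⟨3, by omega⟩) (p ⟨4, by omega⟩) (p ⟨5, by omega⟩)
    (hpo _ _ (hne 3 4 _ _ (by norm_num))) (hpo _ _ (hne 3 5 _ _ (by norm_num)))
    (hpo _ _ (hne 4 5 _ _ (by norm_num))) (hpq _) (hpq _) (hpq _) (-1)
    (neg_ne_zero.mpr one_ne_zero)
  have hWx : ∀ w ∈ W, QuadraticMap.polar Q w x₁ = 0 ∧ QuadraticMap.polar Q w x₂ = 0 :=
    fun w hw => hxo w (hpW _ w hw) (hpW _ w hw) (hpW _ w hw)
  have hWz : ∀ w ∈ W, QuadraticMap.polar Q w z₁ = 0 ∧ QuadraticMap.polar Q w z₂ = 0 :=
    fun w hw => hzo w (hpW _ w hw) (hpW _ w hw) (hpW _ w hw)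
  have hx1P : x₁ ∈ perp Q hbil W := (mem_perp Q hbil W x₁).mpr (fun w hw => (hWx w hw).1)
  have hz1P : z₁ ∈ perp Q hbil W := (mem_perp Q hbil W z₁).mpr (fun w hw => (hWz w hw).1)
  have hx1W : x₁ ∉ W := by
    intro h
    have h0 := perp_disj Q hbil W hW x₁ h hx1P
    rw [h0, Q_zero Q hsm] at qx1
    exact zero_ne_one qx1
  have hz1W : z₁ ∉ W := by
    intro h
    have h0 := perp_disj Q hbil W hW z₁ h hz1P
    rw [h0, Q_zero Q hsm] at qz1
    exact one_ne_zero (by linear_combination qz1)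
  -- the non-singular vectors used for reflections
  have hq1 : Q (y + z₁) ≠ 0 := by
    rw [Q_add Q, qy, qz1, (hWz y hyW).1]
    intro h
    exact one_ne_zero (by linear_combination h + h3)
  have hq2 : Q (y + z₂) ≠ 0 := by
    rw [Q_add Q, qy, qz2, (hWz y hyW).2]
    intro h
    exact one_ne_zero (by linear_combination h + h3)
  have hq3 : Q (x + x₁) ≠ 0 := by
    rw [Q_add Q, qx, qx1, (hWx x hxW).1]
    intro h
    exact h2 (by linear_combination h)
  have hq4 : Q (x + x₂) ≠ 0 := by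
    rw [Q_add Q, qx, qx2, (hWx x hxW).2]
    intro h
    exact h2 (by linear_combination h)
  have f1 : ((refl Q hsm hbil (y + z₁) hq1 : Matrix.GeneralLinearGroup κ F) : Matrix κ κ F)
      *ᵥ x = x := by
    apply refl_fix
    rw [hbil.add_right, hxy, (hWz x hxW).1, add_zero]
  have f2 : ((refl Q hsm hbil (y + z₂) hq2 : Matrix.GeneralLinearGroup κ F) : Matrix κ κ F)
      *ᵥ x = x := by
    apply refl_fix
    rw [hbil.add_right, hxy, (hWz x hxW).2, add_zero]
  have e1 := comm_eval Q hsm hbil y z₁ z₂ (hWz y hyW).1 (hWz y hyW).2 hz12 (-1) qy qz1 qz2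
    hq1 hq2
  have e2 := comm_eval Q hsm hbil x x₁ x₂ (hWx x hxW).1 (hWx x hxW).2 hx12 1 qx qx1 qx2
    hq3 hq4
  have m1 := comm4_mem Q hsm hbil (y + z₁) (y + z₂) hq1 hq2
  have m2 := comm4_mem Q hsm hbil (x + x₁) (x + x₂) hq3 hq4
  obtain ⟨g₁, hg₁⟩ : ∃ g : Matrix.GeneralLinearGroup κ F, g = refl Q hsm hbil (y + z₁) hq1
      * refl Q hsm hbil (y + z₂) hq2 * refl Q hsm hbil (y + z₁) hq1
      * refl Q hsm hbil (y + z₂) hq2 := ⟨_, rfl⟩
  obtain ⟨g₂, hg₂⟩ : ∃ g : Matrix.GeneralLinearGroup κ F, g = refl Q hsm hbil (x + x₁) hq3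
      * refl Q hsm hbil (x + x₂) hq4 * refl Q hsm hbil (x + x₁) hq3
      * refl Q hsm hbil (x + x₂) hq4 := ⟨_, rfl⟩
  rw [← hg₁] at e1 m1
  rw [← hg₂] at e2 m2
  refine ⟨Cfsg.Geo.subspaceStabilizer (Submodule.span F {x}) ⊓ Cfsg.Geo.omegaGL Q, ?_, ?_⟩
  · apply SetLike.lt_iff_le_and_exists.mpr
    refine ⟨?_, g₁, ⟨?_, m1⟩, ?_⟩
    · rintro g ⟨hgW, hgΩ⟩
      refine ⟨?_, hgΩ⟩
      have hgx : (g : Matrix κ κ F) *ᵥ x ∈ W := (hgW x).mp hxW
      obtain ⟨a, b, hab⟩ := hrep _ hgx
      have hq := omega_isom Q g hgΩ x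
      rw [hab, Q_add Q, hsm, hsm, hbil.smul_left, hbil.smul_right, hxy, qx, qy] at hq
      have hb : b = 0 := by
        by_contra hb
        have hb2 := f3_sq hF b hb
        rw [hb2] at hq
        have ha2 : a ^ 2 = -1 := by linear_combination hq + h3
        by_cases ha : a = 0
        · rw [ha] at ha2
          exact one_ne_zero (by linear_combination ha2)
        · rw [f3_sq hF a ha] at ha2
          exact h2 (by linear_combination ha2)
      have ha : a ≠ 0 := by
        rintro rfl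
        rw [hb] at hq
        exact one_ne_zero (by linear_combination -hq)
      exact mem_stab_of_smul x g a ha (by rw [hab, hb, zero_smul, add_zero])
    · apply mem_stab_of_fix
      rw [hg₁]
      simp only [Units.val_mul, ← Matrix.mulVec_mulVec]
      rw [f2, f1, f2, f1]
    · rintro ⟨hgW, -⟩
      have h5 : (g₁ : Matrix κ κ F) *ᵥ y ∈ W := (hgW y).mp hyW
      rw [e1] at h5
      exact hz1W (by simpa using W.neg_mem h5)
  · apply SetLike.lt_iff_le_and_exists.mpr
    refine ⟨inf_le_right, g₂, m2, ?_⟩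
    rintro ⟨hgx, -⟩
    have h5 : (g₂ : Matrix κ κ F) *ᵥ x ∈ Submodule.span F {x} :=
      (hgx x).mp (Submodule.mem_span_singleton_self x)
    rw [e2] at h5
    obtain ⟨c, hc⟩ := Submodule.mem_span_singleton.mp h5
    apply hx1W
    have h6 : x₁ = (-c) • x := by
      rw [neg_smul, hc, neg_neg]
    rw [h6]
    exact W.smul_mem _ hxW

end plane3

section plane2
variable {F : Type*} [Field F] [Fintype F] {κ : Type} [Fintype κ] [DecidableEq κ]
  (Q : (κ → F) → F)

theorem f2_two (hF : Fintype.card F = 2) : (2 : F) = 0 := by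
  have h := Nat.cast_card_eq_zero F
  rw [hF] at h
  exact_mod_cast h

theorem f2_one (hF : Fintype.card F = 2) (x : F) (hx : x ≠ 0) : x = 1 := by
  rcases Cfsg.Agent.S5635.f2_cases hF x with h | h
  · exact absurd h hx
  · exact h

theorem refl2 (hsm : ∀ (c : F) (v : κ → F), Q (c • v) = c ^ 2 * Q v)
    (hbil : Cfsg.Geo.IsBilinearForm (QuadraticMap.polar Q)) (h2 : (2 : F) = 0) (a : κ → F)
    (ha : Q a ≠ 0) (qa : Q a = 1) (v : κ → F) :
    ((refl Q hsm hbil a ha : Matrix.GeneralLinearGroup κ F) : Matrix κ κ F) *ᵥ v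
      = v + QuadraticMap.polar Q v a • a := by
  rw [refl_mulVec, qa, inv_one]
  have h1 : (-1 : F) = 1 := by linear_combination -h2
  rw [h1, one_mul]

theorem plane2_basis (hF : Fintype.card F = 2)
    (hsm : ∀ (c : F) (v : κ → F), Q (c • v) = c ^ 2 * Q v)
    (hbil : Cfsg.Geo.IsBilinearForm (QuadraticMap.polar Q))
    (W : Submodule F (κ → F)) (hdim : Module.finrank F W = 2)
    (hW : Cfsg.Geo.IsNondegenerateOn (QuadraticMap.polar Q) W)
    (hplus : Cfsg.Geo.IsPlusTypeOn Q W) :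
    ∃ u v : κ → F, u ∈ W ∧ v ∈ W ∧ QuadraticMap.polar Q u v = 1 ∧ Q u = 0 ∧ Q v = 0 ∧
      ∀ w ∈ W, ∃ a b : F, w = a • u + b • v := by
  have h2 := f2_two hF
  obtain ⟨U, hUW, hUs, hUd⟩ := hplus
  rw [hdim] at hUd
  have hU1 : Module.finrank F U = 1 := by omega
  have hUne : U ≠ ⊥ := by
    intro hbot
    rw [hbot, finrank_bot] at hU1
    exact absurd hU1 (by norm_num)
  obtain ⟨u, hu, hu0⟩ := Submodule.exists_mem_ne_zero_of_ne_bot hUne
  have qu := hUs u hu
  have huW := hUW hu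
  obtain ⟨-, ⟨v₀, hv₀W, hv₀⟩⟩ := hW u huW hu0
  have h1 := f2_one hF _ hv₀
  have hv : ∃ v ∈ W, Q v = 0 ∧ QuadraticMap.polar Q u v = 1 := by
    rcases Cfsg.Agent.S5635.f2_cases hF (Q v₀) with h | h
    · exact ⟨v₀, hv₀W, h, h1⟩
    · refine ⟨v₀ + u, W.add_mem hv₀W huW, ?_, ?_⟩
      · rw [Q_add Q, h, qu, QuadraticMap.polar_comm, h1]
        linear_combination h2
      · rw [hbil.add_right, h1, polar_self Q hsm, qu]
        ring
  obtain ⟨v, hvW, qv, huv⟩ := hv
  have hvu : QuadraticMap.polar Q v u = 1 := by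
    rw [QuadraticMap.polar_comm]
    exact huv
  have hli : LinearIndependent F ![u, v] := by
    rw [LinearIndependent.pair_iff]
    intro s t hst
    have e1 : QuadraticMap.polar Q (s • u + t • v) v = 0 := by
      rw [hst, polar_zero_left Q hbil]
    have e2 : QuadraticMap.polar Q (s • u + t • v) u = 0 := by
      rw [hst, polar_zero_left Q hbil]
    rw [hbil.add_left, hbil.smul_left, hbil.smul_left, huv, polar_self Q hsm, qv] at e1
    rw [hbil.add_left, hbil.smul_left, hbil.smul_left, hvu, polar_self Q hsm, qu] at e2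
    exact ⟨by linear_combination e1, by linear_combination e2⟩
  have hspan : Submodule.span F (Set.range ![u, v]) = W := by
    apply Submodule.eq_of_le_of_finrank_eq
    · rw [Submodule.span_le]
      rintro _ ⟨l, rfl⟩
      fin_cases l
      · exact huW
      · exact hvW
    · rw [finrank_span_eq_card hli, Fintype.card_fin, hdim]
  refine ⟨u, v, huW, hvW, huv, qu, qv, ?_⟩
  intro w hw
  rw [← hspan] at hw
  obtain ⟨c, hc⟩ := (Submodule.mem_span_range_iff_exists_fun F).mp hw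
  rw [Fin.sum_univ_two] at hc
  exact ⟨c 0, c 1, hc.symm⟩

theorem sing2 (hF : Fintype.card F = 2)
    (hsm : ∀ (c : F) (v : κ → F), Q (c • v) = c ^ 2 * Q v)
    (hbil : Cfsg.Geo.IsBilinearForm (QuadraticMap.polar Q))
    (P : Submodule F (κ → F)) (hP : 3 ≤ Module.finrank F P)
    (hPnd : Cfsg.Geo.IsNondegenerateOn (QuadraticMap.polar Q) P) :
    ∃ z ∈ P, ∃ p ∈ P, Q z = 0 ∧ Q p = 1 ∧ QuadraticMap.polar Q z p = 1 := by
  classical
  have h2 := f2_two hF
  have hA : ∃ z ∈ P, z ≠ 0 ∧ Q z = 0 := by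
    have hPne : P ≠ ⊥ := by
      intro hbot
      rw [hbot, finrank_bot] at hP
      omega
    obtain ⟨e, he, he0⟩ := Submodule.exists_mem_ne_zero_of_ne_bot hPne
    obtain ⟨-, ⟨f, hf, hef⟩⟩ := hPnd e he he0
    have hef1 := f2_one hF _ hef
    by_cases qe : Q e = 0
    · exact ⟨e, he, he0, qe⟩
    by_cases qf : Q f = 0
    · refine ⟨f, hf, ?_, qf⟩
      rintro rfl
      exact hef (polar_zero_right Q hbil e)
    have qe1 := f2_one hF _ qe
    have qf1 := f2_one hF _ qf
    have hfe1 : QuadraticMap.polar Q f e = 1 := by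
      rw [QuadraticMap.polar_comm]
      exact hef1
    have ht : ∃ t ∈ P, t ∉ Submodule.span F {e, f} := by
      by_contra hcon
      push_neg at hcon
      have hle : P ≤ Submodule.span F {e, f} := hcon
      have h5 := Submodule.finrank_mono hle
      have h6 : Module.finrank F (Submodule.span F
          ((({e, f} : Finset (κ → F)) : Set (κ → F)))) ≤ ({e, f} : Finset (κ → F)).card :=
        finrank_span_finset_le_card _
      have h7 : (({e, f} : Finset (κ → F)) : Set (κ → F)) = {e, f} := by simp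
      rw [h7] at h6
      have h8 := Finset.card_le_two (a := e) (b := f)
      omega
    obtain ⟨t, htP, htn⟩ := ht
    obtain ⟨c, hc⟩ : ∃ c, c = t + QuadraticMap.polar Q t f • e + QuadraticMap.polar Q t e • f :=
      ⟨_, rfl⟩
    have hcP : c ∈ P := by
      rw [hc]
      exact P.add_mem (P.add_mem htP (P.smul_mem _ he)) (P.smul_mem _ hf)
    have hc0 : c ≠ 0 := by
      intro h0
      apply htn
      rw [h0, add_assoc] at hc
      have h9 : t = -(QuadraticMap.polar Q t f • e + QuadraticMap.polar Q t e • f) := by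
        rw [eq_neg_iff_add_eq_zero]
        exact hc.symm
      rw [h9]
      exact Submodule.neg_mem _ (Submodule.add_mem _
        (Submodule.smul_mem _ _ (Submodule.subset_span (by simp)))
        (Submodule.smul_mem _ _ (Submodule.subset_span (by simp))))
    have hce : QuadraticMap.polar Q c e = 0 := by
      rw [hc, hbil.add_left, hbil.add_left, hbil.smul_left, hbil.smul_left, polar_self Q hsm,
        hfe1, qe1]
      linear_combination (QuadraticMap.polar Q t e + QuadraticMap.polar Q t f) * h2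
    have hcf : QuadraticMap.polar Q c f = 0 := by
      rw [hc, hbil.add_left, hbil.add_left, hbil.smul_left, hbil.smul_left, polar_self Q hsm,
        hef1, qf1]
      linear_combination (QuadraticMap.polar Q t e + QuadraticMap.polar Q t f) * h2
    by_cases qc : Q c = 0
    · exact ⟨c, hcP, hc0, qc⟩
    have qc1 := f2_one hF _ qc
    have hec : QuadraticMap.polar Q e c = 0 := by
      rw [QuadraticMap.polar_comm]
      exact hce
    refine ⟨e + c, P.add_mem he hcP, ?_, ?_⟩
    · intro h0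
      have h9 : QuadraticMap.polar Q (e + c) f = 0 := by
        rw [h0, polar_zero_left Q hbil]
      rw [hbil.add_left, hef1, hcf] at h9
      exact one_ne_zero (by linear_combination h9)
    · rw [Q_add Q, qe1, qc1, hec]
      linear_combination h2
  obtain ⟨z, hz, hz0, qz⟩ := hA
  obtain ⟨-, ⟨p₀, hp₀, hzp⟩⟩ := hPnd z hz hz0
  have hzp1 := f2_one hF _ hzp
  rcases Cfsg.Agent.S5635.f2_cases hF (Q p₀) with h | h
  · refine ⟨z, hz, p₀ + z, P.add_mem hp₀ hz, qz, ?_, ?_⟩
    · rw [Q_add Q, h, qz, QuadraticMap.polar_comm, hzp1]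
      ring
    · rw [hbil.add_right, hzp1, polar_self Q hsm, qz]
      ring
  · exact ⟨z, hz, p₀, hp₀, qz, h, hzp1⟩

theorem plane2_core (hF : Fintype.card F = 2)
    (hsm : ∀ (c : F) (v : κ → F), Q (c • v) = c ^ 2 * Q v)
    (hbil : Cfsg.Geo.IsBilinearForm (QuadraticMap.polar Q))
    (hnd : Cfsg.Geo.IsNondegenerateForm (QuadraticMap.polar Q))
    (hκ : 5 ≤ Fintype.card κ)
    (W : Submodule F (κ → F)) (hdim : Module.finrank F W = 2)
    (hW : Cfsg.Geo.IsNondegenerateOn (QuadraticMap.polar Q) W)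
    (hplus : Cfsg.Geo.IsPlusTypeOn Q W) :
    ∃ K : Subgroup (Matrix.GeneralLinearGroup κ F),
      Cfsg.Geo.subspaceStabilizer W ⊓ Cfsg.Geo.omegaGL Q < K ∧ K < Cfsg.Geo.omegaGL Q := by
  have h2 := f2_two hF
  obtain ⟨u, v, huW, hvW, puv, qu, qv, hrep⟩ := plane2_basis Q hF hsm hbil W hdim hW hplus
  have hPd := finrank_perp Q hbil hnd W
  rw [hdim] at hPd
  have hPnd := perp_nondeg Q hbil hnd W hW
  obtain ⟨z, hzP, p, hpP, qz, qp, pzp⟩ := sing2 Q hF hsm hbil (perp Q hbil W) (by omega) hPnd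
  have hWz : ∀ w ∈ W, QuadraticMap.polar Q w z = 0 :=
    fun w hw => (mem_perp Q hbil W z).mp hzP w hw
  have hWp : ∀ w ∈ W, QuadraticMap.polar Q w p = 0 :=
    fun w hw => (mem_perp Q hbil W p).mp hpP w hw
  have pvu : QuadraticMap.polar Q v u = 1 := by
    rw [QuadraticMap.polar_comm]
    exact puv
  have ppz : QuadraticMap.polar Q p z = 1 := by
    rw [QuadraticMap.polar_comm]
    exact pzp
  have puu : QuadraticMap.polar Q u u = 0 := by rw [polar_self Q hsm, qu, mul_zero]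
  have pvv : QuadraticMap.polar Q v v = 0 := by rw [polar_self Q hsm, qv, mul_zero]
  have pzz : QuadraticMap.polar Q z z = 0 := by rw [polar_self Q hsm, qz, mul_zero]
  have ppp : QuadraticMap.polar Q p p = 0 := by
    rw [polar_self Q hsm, qp, mul_one]
    exact h2
  have puz := hWz u huW
  have pvz := hWz v hvW
  have pup := hWp u huW
  have pvp := hWp v hvW
  have pzu : QuadraticMap.polar Q z u = 0 := by
    rw [QuadraticMap.polar_comm]
    exact puz
  have pzv : QuadraticMap.polar Q z v = 0 := by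
    rw [QuadraticMap.polar_comm]
    exact pvz
  have ppu : QuadraticMap.polar Q p u = 0 := by
    rw [QuadraticMap.polar_comm]
    exact pup
  have ppv : QuadraticMap.polar Q p v = 0 := by
    rw [QuadraticMap.polar_comm]
    exact pvp
  have hpW : p ∉ W := by
    intro h
    have h0 := perp_disj Q hbil W hW p h hpP
    rw [h0, Q_zero Q hsm] at qp
    exact zero_ne_one qp
  have hzpW : z + p ∉ W := by
    intro h
    have h0 := perp_disj Q hbil W hW (z + p) h ((perp Q hbil W).add_mem hzP hpP)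
    have h9 : QuadraticMap.polar Q (z + p) p = 0 := by rw [h0, polar_zero_left Q hbil]
    rw [hbil.add_left, pzp, ppp] at h9
    exact one_ne_zero (by linear_combination h9)
  have q0 : Q (u + v) = 1 := by
    rw [Q_add Q, qu, qv, puv]
    ring
  have q1 : Q (u + v + z) = 1 := by
    rw [Q_add Q, q0, qz, hbil.add_left, puz, pvz]
    ring
  have q3 : Q (u + p) = 1 := by
    rw [Q_add Q, qu, qp, pup]
    ring
  have q4 : Q (v + p) = 1 := by
    rw [Q_add Q, qv, qp, pvp]
    ring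
  have n1 : Q (u + v + z) ≠ 0 := by
    rw [q1]
    exact one_ne_zero
  have n2 : Q p ≠ 0 := by
    rw [qp]
    exact one_ne_zero
  have n3 : Q (u + p) ≠ 0 := by
    rw [q3]
    exact one_ne_zero
  have n4 : Q (v + p) ≠ 0 := by
    rw [q4]
    exact one_ne_zero
  have a1 : ((refl Q hsm hbil (u + v + z) n1 : Matrix.GeneralLinearGroup κ F) : Matrix κ κ F)
      *ᵥ (u + v) = u + v := by
    apply refl_fix
    simp only [hbil.add_left, hbil.add_right, puu, puv, pvu, pvv, puz, pvz]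
    linear_combination h2
  have a2 : ((refl Q hsm hbil p n2 : Matrix.GeneralLinearGroup κ F) : Matrix κ κ F)
      *ᵥ (u + v) = u + v := by
    apply refl_fix
    rw [hbil.add_left, pup, pvp, add_zero]
  have b1 : ((refl Q hsm hbil p n2 : Matrix.GeneralLinearGroup κ F) : Matrix κ κ F)
      *ᵥ u = u := refl_fix Q hsm hbil p n2 u pup
  have b2 : ((refl Q hsm hbil (u + v + z) n1 : Matrix.GeneralLinearGroup κ F) : Matrix κ κ F)
      *ᵥ u = v + z := by
    rw [refl2 Q hsm hbil h2 _ n1 q1]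
    simp only [hbil.add_right, puu, puv, puz]
    funext i
    simp only [Pi.add_apply, Pi.smul_apply, smul_eq_mul]
    linear_combination (u i) * h2
  have b3 : ((refl Q hsm hbil p n2 : Matrix.GeneralLinearGroup κ F) : Matrix κ κ F)
      *ᵥ (v + z) = v + z + p := by
    rw [refl2 Q hsm hbil h2 _ n2 qp]
    simp only [hbil.add_left, pvp, pzp]
    funext i
    simp only [Pi.add_apply, Pi.smul_apply, smul_eq_mul]
    ring
  have b4 : ((refl Q hsm hbil (u + v + z) n1 : Matrix.GeneralLinearGroup κ F) : Matrix κ κ F)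
      *ᵥ (v + z + p) = v + z + p := by
    apply refl_fix
    simp only [hbil.add_left, hbil.add_right, pvu, pvv, pvz, pzu, pzv, pzz, ppu, ppv, ppz]
    linear_combination h2
  have c1 : ((refl Q hsm hbil (v + p) n4 : Matrix.GeneralLinearGroup κ F) : Matrix κ κ F)
      *ᵥ (u + v) = u + p := by
    rw [refl2 Q hsm hbil h2 _ n4 q4]
    simp only [hbil.add_left, hbil.add_right, puv, pup, pvv, pvp]
    funext i
    simp only [Pi.add_apply, Pi.smul_apply, smul_eq_mul]
    linear_combination (v i) * h2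
  have c2 : ((refl Q hsm hbil (u + p) n3 : Matrix.GeneralLinearGroup κ F) : Matrix κ κ F)
      *ᵥ (u + p) = u + p := by
    apply refl_fix
    simp only [hbil.add_left, hbil.add_right, puu, pup, ppu, ppp]
    ring
  have c3 : ((refl Q hsm hbil (v + p) n4 : Matrix.GeneralLinearGroup κ F) : Matrix κ κ F)
      *ᵥ (u + p) = u + v := by
    rw [refl2 Q hsm hbil h2 _ n4 q4]
    simp only [hbil.add_left, hbil.add_right, puv, pup, ppv, ppp]
    funext i
    simp only [Pi.add_apply, Pi.smul_apply, smul_eq_mul]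
    linear_combination (p i) * h2
  have c4 : ((refl Q hsm hbil (u + p) n3 : Matrix.GeneralLinearGroup κ F) : Matrix κ κ F)
      *ᵥ (u + v) = v + p := by
    rw [refl2 Q hsm hbil h2 _ n3 q3]
    simp only [hbil.add_left, hbil.add_right, puu, pup, pvu, pvp]
    funext i
    simp only [Pi.add_apply, Pi.smul_apply, smul_eq_mul]
    linear_combination (u i) * h2
  have m1 := comm4_mem Q hsm hbil (u + v + z) p n1 n2
  have m2 := comm4_mem Q hsm hbil (u + p) (v + p) n3 n4
  obtain ⟨g₁, hg₁⟩ : ∃ g : Matrix.GeneralLinearGroup κ F, g = refl Q hsm hbil (u + v + z) n1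
      * refl Q hsm hbil p n2 * refl Q hsm hbil (u + v + z) n1
      * refl Q hsm hbil p n2 := ⟨_, rfl⟩
  obtain ⟨g₂, hg₂⟩ : ∃ g : Matrix.GeneralLinearGroup κ F, g = refl Q hsm hbil (u + p) n3
      * refl Q hsm hbil (v + p) n4 * refl Q hsm hbil (u + p) n3
      * refl Q hsm hbil (v + p) n4 := ⟨_, rfl⟩
  rw [← hg₁] at m1
  rw [← hg₂] at m2
  have e1 : (g₁ : Matrix κ κ F) *ᵥ (u + v) = u + v := by
    rw [hg₁]
    simp only [Units.val_mul, ← Matrix.mulVec_mulVec]
    rw [a2, a1, a2, a1]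
  have e1' : (g₁ : Matrix κ κ F) *ᵥ u = v + z + p := by
    rw [hg₁]
    simp only [Units.val_mul, ← Matrix.mulVec_mulVec]
    rw [b1, b2, b3, b4]
  have e2 : (g₂ : Matrix κ κ F) *ᵥ (u + v) = v + p := by
    rw [hg₂]
    simp only [Units.val_mul, ← Matrix.mulVec_mulVec]
    rw [c1, c2, c3, c4]
  refine ⟨Cfsg.Geo.subspaceStabilizer (Submodule.span F {u + v}) ⊓ Cfsg.Geo.omegaGL Q, ?_, ?_⟩
  · apply SetLike.lt_iff_le_and_exists.mpr
    refine ⟨?_, g₁, ⟨mem_stab_of_fix _ _ e1, m1⟩, ?_⟩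
    · rintro g ⟨hgW, hgΩ⟩
      refine ⟨?_, hgΩ⟩
      have hgx : (g : Matrix κ κ F) *ᵥ (u + v) ∈ W := (hgW (u + v)).mp (W.add_mem huW hvW)
      obtain ⟨a, b, hab⟩ := hrep _ hgx
      have hq := omega_isom Q g hgΩ (u + v)
      rw [q0, hab, Q_add Q, hsm, hsm, hbil.smul_left, hbil.smul_right, puv, qu, qv] at hq
      have hab1 : a * b = 1 := by linear_combination hq
      have ha : a = 1 := by
        apply f2_one hF
        rintro rfl
        rw [zero_mul] at hab1
        exact zero_ne_one hab1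
      have hb : b = 1 := by
        rw [ha, one_mul] at hab1
        exact hab1
      apply mem_stab_of_fix
      rw [hab, ha, hb, one_smul, one_smul]
    · rintro ⟨hgW, -⟩
      have h5 : (g₁ : Matrix κ κ F) *ᵥ u ∈ W := (hgW u).mp huW
      rw [e1'] at h5
      apply hzpW
      have h6 : z + p = (v + z + p) - v := by abel
      rw [h6]
      exact W.sub_mem h5 hvW
  · apply SetLike.lt_iff_le_and_exists.mpr
    refine ⟨inf_le_right, g₂, m2, ?_⟩
    rintro ⟨hgx, -⟩
    have h5 : (g₂ : Matrix κ κ F) *ᵥ (u + v) ∈ Submodule.span F {u + v} :=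
      (hgx (u + v)).mp (Submodule.mem_span_singleton_self _)
    rw [e2] at h5
    obtain ⟨c, hc⟩ := Submodule.mem_span_singleton.mp h5
    apply hpW
    have h6 : p = c • (u + v) - v := by
      rw [hc]
      abel
    rw [h6]
    exact W.sub_mem (W.smul_mem _ (W.add_mem huW hvW)) hvW

end plane2

end Cfsg.Agent.Lib.Helper9.Refl
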