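import Mathlib
import Cfsg.Prelude.Def_GeometricClasses
import Cfsg.Agent.Lib.Helper9.Refl

set_option autoImplicit false

namespace Cfsg.Agent.Lib.Helper9.Family

open Cfsg.Agent.Lib.Helper9.Frame3
open Cfsg.Agent.Lib.Helper9.Refl
open Cfsg.Agent.S5635 (tvG tvG_mulVec)
open scoped Matrix

section perp2
variable {F : Type*} [Field F] [Fintype F] {κ : Type} [Fintype κ] [DecidableEq κ]

theorem perp_perp (Q : (κ → F) → F) (hbil : Cfsg.Geo.IsBilinearForm (QuadraticMap.polar Q))
    (hnd : Cfsg.Geo.IsNondegenerateForm (QuadraticMap.polar Q))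
    (W : Submodule F (κ → F)) : perp Q hbil (perp Q hbil W) = W := by
  have hrefl : (Bf Q hbil).IsRefl := by
    intro x y h
    show QuadraticMap.polar Q y x = 0
    rw [QuadraticMap.polar_comm]
    exact h
  exact LinearMap.BilinForm.orthogonal_orthogonal (Bf_nondeg Q hbil hnd) hrefl W

theorem perp_sup (Q : (κ → F) → F) (hbil : Cfsg.Geo.IsBilinearForm (QuadraticMap.polar Q))
    (A B : Submodule F (κ → F)) :
    perp Q hbil (A ⊔ B) = perp Q hbil A ⊓ perp Q hbil B := by
  ext v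
  rw [Submodule.mem_inf, mem_perp, mem_perp, mem_perp]
  constructor
  · intro h
    exact ⟨fun w hw => h w (Submodule.mem_sup_left hw),
      fun w hw => h w (Submodule.mem_sup_right hw)⟩
  · rintro ⟨h1, h2⟩ w hw
    obtain ⟨a, ha, b, hb, rfl⟩ := Submodule.mem_sup.mp hw
    rw [hbil.add_left, h1 a ha, h2 b hb, add_zero]

theorem perp_anti (Q : (κ → F) → F) (hbil : Cfsg.Geo.IsBilinearForm (QuadraticMap.polar Q))
    {A B : Submodule F (κ → F)} (h : A ≤ B) : perp Q hbil B ≤ perp Q hbil A := by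
  intro v hv
  rw [mem_perp] at hv ⊢
  exact fun w hw => hv w (h hw)

theorem ts_polar (Q : (κ → F) → F) (U : Submodule F (κ → F))
    (hU : Cfsg.Geo.IsTotallySingularQuad Q U) (x y : κ → F) (hx : x ∈ U) (hy : y ∈ U) :
    QuadraticMap.polar Q x y = 0 := by
  unfold QuadraticMap.polar
  rw [hU _ (U.add_mem hx hy), hU x hx, hU y hy]
  ring

theorem ts_le_perp (Q : (κ → F) → F) (hbil : Cfsg.Geo.IsBilinearForm (QuadraticMap.polar Q))
    (U : Submodule F (κ → F)) (hU : Cfsg.Geo.IsTotallySingularQuad Q U) :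
    U ≤ perp Q hbil U := by
  intro v hv
  rw [mem_perp]
  exact fun w hw => ts_polar Q U hU w v hw hv

theorem finrank_le_card (W : Submodule F (κ → F)) :
    Module.finrank F W ≤ Fintype.card κ := by
  have h1 := Submodule.finrank_le W
  rw [Module.finrank_fintype_fun_eq_card] at h1
  exact h1

theorem ts_finrank_le (Q : (κ → F) → F)
    (hbil : Cfsg.Geo.IsBilinearForm (QuadraticMap.polar Q))
    (hnd : Cfsg.Geo.IsNondegenerateForm (QuadraticMap.polar Q))
    (U : Submodule F (κ → F)) (hU : Cfsg.Geo.IsTotallySingularQuad Q U) :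
    2 * Module.finrank F U ≤ Fintype.card κ := by
  have h1 := Submodule.finrank_mono (ts_le_perp Q hbil U hU)
  rw [finrank_perp Q hbil hnd] at h1
  have h2 := finrank_le_card U
  omega

theorem mts_perp (Q : (κ → F) → F)
    (hbil : Cfsg.Geo.IsBilinearForm (QuadraticMap.polar Q))
    (hnd : Cfsg.Geo.IsNondegenerateForm (QuadraticMap.polar Q))
    (U : Submodule F (κ → F)) (hU : Cfsg.Geo.IsTotallySingularQuad Q U)
    (hd : 2 * Module.finrank F U = Fintype.card κ) : perp Q hbil U = U := by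
  symm
  apply Submodule.eq_of_le_of_finrank_eq (ts_le_perp Q hbil U hU)
  rw [finrank_perp Q hbil hnd]
  omega

theorem finrank_inf_perp (Q : (κ → F) → F)
    (hbil : Cfsg.Geo.IsBilinearForm (QuadraticMap.polar Q))
    (hnd : Cfsg.Geo.IsNondegenerateForm (QuadraticMap.polar Q))
    (A B : Submodule F (κ → F)) :
    Module.finrank F ↥(A ⊓ perp Q hbil B) + Module.finrank F B
      = Module.finrank F A + Module.finrank F ↥(perp Q hbil A ⊓ B) := by
  have h1 : A ⊓ perp Q hbil B = perp Q hbil (perp Q hbil A ⊔ B) := by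
    rw [perp_sup, perp_perp Q hbil hnd]
  have h2 := finrank_perp Q hbil hnd (perp Q hbil A ⊔ B)
  have h3 := finrank_perp Q hbil hnd A
  have h4 := Submodule.finrank_sup_add_finrank_inf_eq (perp Q hbil A) B
  have h5 := finrank_le_card A
  have h6 := finrank_le_card B
  have h7 := finrank_le_card (perp Q hbil A ⊔ B)
  rw [h1, h2]
  omega

theorem mts_inf (m : ℕ) (W U₁ U₂ : Submodule F (κ → F))
    (hWd : Module.finrank F W + 1 = m)
    (hU₁d : Module.finrank F U₁ = m) (hU₂d : Module.finrank F U₂ = m) (hW₁ : W ≤ U₁)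
    (hW₂ : W ≤ U₂) (hne : U₁ ≠ U₂) : U₁ ⊓ U₂ = W := by
  symm
  apply Submodule.eq_of_le_of_finrank_le (le_inf hW₁ hW₂)
  have hlt : U₁ ⊓ U₂ < U₁ := by
    apply lt_of_le_of_ne inf_le_left
    intro h
    apply hne
    have h1 : U₁ ≤ U₂ := by
      rw [← h]
      exact inf_le_right
    exact Submodule.eq_of_le_of_finrank_eq h1 (by rw [hU₁d, hU₂d])
  have h2 := Submodule.finrank_lt_finrank_of_lt hlt
  omega

theorem nbr_aux (Q : (κ → F) → F)
    (hbil : Cfsg.Geo.IsBilinearForm (QuadraticMap.polar Q))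
    (hnd : Cfsg.Geo.IsNondegenerateForm (QuadraticMap.polar Q))
    (m : ℕ) (hm : Fintype.card κ = 2 * m) (W U₁ U₂ U : Submodule F (κ → F))
    (hWd : Module.finrank F W + 1 = m)
    (hU₁ : Cfsg.Geo.IsTotallySingularQuad Q U₁) (hU₁d : Module.finrank F U₁ = m)
    (hW₁ : W ≤ U₁)
    (hU₂ : Cfsg.Geo.IsTotallySingularQuad Q U₂) (hU₂d : Module.finrank F U₂ = m)
    (hW₂ : W ≤ U₂) (hne : U₁ ≠ U₂)
    (hU : Cfsg.Geo.IsTotallySingularQuad Q U) (hUd : Module.finrank F U = m)
    (hS : U ⊓ perp Q hbil W ≤ U₁) :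
    Module.finrank F ↥(U ⊓ U₁) = Module.finrank F ↥(U ⊓ U₂) + 1 := by
  have hinf := mts_inf m W U₁ U₂ hWd hU₁d hU₂d hW₁ hW₂ hne
  have hUp : perp Q hbil U = U := mts_perp Q hbil hnd U hU (by omega)
  have hf := finrank_inf_perp Q hbil hnd U W
  rw [hUp] at hf
  have e1 : U ⊓ U₁ = U ⊓ perp Q hbil W := by
    apply le_antisymm
    · exact inf_le_inf_left U ((ts_le_perp Q hbil U₁ hU₁).trans (perp_anti Q hbil hW₁))
    · exact le_inf inf_le_left hS
  have e2 : U ⊓ U₂ = U ⊓ W := by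
    apply le_antisymm
    · apply le_inf inf_le_left
      rw [← hinf]
      apply le_inf
      · refine le_trans ?_ hS
        exact inf_le_inf_left U ((ts_le_perp Q hbil U₂ hU₂).trans (perp_anti Q hbil hW₂))
      · exact inf_le_right
    · exact inf_le_inf_left U hW₂
  rw [e1, e2]
  omega

theorem nbr (Q : (κ → F) → F)
    (hbil : Cfsg.Geo.IsBilinearForm (QuadraticMap.polar Q))
    (hsm : ∀ (c : F) (v : κ → F), Q (c • v) = c ^ 2 * Q v)
    (hnd : Cfsg.Geo.IsNondegenerateForm (QuadraticMap.polar Q))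
    (m : ℕ) (hm : Fintype.card κ = 2 * m) (W U₁ U₂ U : Submodule F (κ → F))
    (hWd : Module.finrank F W + 1 = m)
    (hU₁ : Cfsg.Geo.IsTotallySingularQuad Q U₁) (hU₁d : Module.finrank F U₁ = m)
    (hW₁ : W ≤ U₁)
    (hU₂ : Cfsg.Geo.IsTotallySingularQuad Q U₂) (hU₂d : Module.finrank F U₂ = m)
    (hW₂ : W ≤ U₂) (hne : U₁ ≠ U₂)
    (hU : Cfsg.Geo.IsTotallySingularQuad Q U) (hUd : Module.finrank F U = m) :
    Module.finrank F ↥(U ⊓ U₁) = Module.finrank F ↥(U ⊓ U₂) + 1 ∨
    Module.finrank F ↥(U ⊓ U₂) = Module.finrank F ↥(U ⊓ U₁) + 1 := by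
  have hinf := mts_inf m W U₁ U₂ hWd hU₁d hU₂d hW₁ hW₂ hne
  have hlt1 : W < U₁ := lt_of_le_of_ne hW₁ (by
    intro h
    rw [h] at hWd
    omega)
  have hlt2 : W < U₂ := lt_of_le_of_ne hW₂ (by
    intro h
    rw [h] at hWd
    omega)
  obtain ⟨a, haU, haW⟩ := SetLike.exists_of_lt hlt1
  obtain ⟨b, hbU, hbW⟩ := SetLike.exists_of_lt hlt2
  have hbU₁ : b ∉ U₁ := by
    intro h
    apply hbW
    rw [← hinf]
    exact ⟨h, hbU⟩
  have hU1eq : W ⊔ Submodule.span F {a} = U₁ := by
    apply Submodule.eq_of_le_of_finrank_le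
      (sup_le hW₁ ((Submodule.span_singleton_le_iff_mem a U₁).mpr haU))
    have hlt : W < W ⊔ Submodule.span F {a} := by
      apply lt_of_le_of_ne le_sup_left
      intro h
      apply haW
      rw [h]
      exact Submodule.mem_sup_right (Submodule.mem_span_singleton_self a)
    have h1 := Submodule.finrank_lt_finrank_of_lt hlt
    omega
  have hU₁p : U₁ ≤ perp Q hbil W := (ts_le_perp Q hbil U₁ hU₁).trans (perp_anti Q hbil hW₁)
  have hU₂p : U₂ ≤ perp Q hbil W := (ts_le_perp Q hbil U₂ hU₂).trans (perp_anti Q hbil hW₂)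
  have hPeq : U₁ ⊔ Submodule.span F {b} = perp Q hbil W := by
    apply Submodule.eq_of_le_of_finrank_le
      (sup_le hU₁p ((Submodule.span_singleton_le_iff_mem b _).mpr (hU₂p hbU)))
    have hlt : U₁ < U₁ ⊔ Submodule.span F {b} := by
      apply lt_of_le_of_ne le_sup_left
      intro h
      apply hbU₁
      rw [h]
      exact Submodule.mem_sup_right (Submodule.mem_span_singleton_self b)
    have h1 := Submodule.finrank_lt_finrank_of_lt hlt
    have h2 := finrank_perp Q hbil hnd W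
    omega
  have hab : QuadraticMap.polar Q a b ≠ 0 := by
    intro h0
    apply hbU₁
    have hU₁pp : perp Q hbil U₁ = U₁ := mts_perp Q hbil hnd U₁ hU₁ (by omega)
    rw [← hU₁pp, mem_perp]
    intro u hu
    rw [← hU1eq] at hu
    obtain ⟨w, hw, a', ha', rfl⟩ := Submodule.mem_sup.mp hu
    obtain ⟨c, rfl⟩ := Submodule.mem_span_singleton.mp ha'
    rw [hbil.add_left, hbil.smul_left, h0, mul_zero, add_zero]
    exact ts_polar Q U₂ hU₂ w b (hW₂ hw) hbU
  have hsing : ∀ x ∈ perp Q hbil W, Q x = 0 → x ∈ U₁ ∨ x ∈ U₂ := by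
    intro x hx qx
    rw [← hPeq] at hx
    obtain ⟨u, hu, b', hb', rfl⟩ := Submodule.mem_sup.mp hx
    obtain ⟨β, rfl⟩ := Submodule.mem_span_singleton.mp hb'
    have hu' := hu
    rw [← hU1eq] at hu'
    obtain ⟨w, hw, a', ha', rfl⟩ := Submodule.mem_sup.mp hu'
    obtain ⟨α, rfl⟩ := Submodule.mem_span_singleton.mp ha'
    rw [Q_add Q, hU₁ _ hu, hsm, hU₂ b hbU, hbil.smul_right, hbil.add_left, hbil.smul_left,
      ts_polar Q U₂ hU₂ w b (hW₂ hw) hbU] at qx
    have h3 : β * α * QuadraticMap.polar Q a b = 0 := by linear_combination qx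
    rcases mul_eq_zero.mp h3 with h4 | h4
    · rcases mul_eq_zero.mp h4 with h5 | h5
      · left
        rw [h5, zero_smul, add_zero]
        exact hu
      · right
        rw [h5, zero_smul, add_zero]
        exact U₂.add_mem (hW₂ hw) (U₂.smul_mem _ hbU)
    · exact absurd h4 hab
  have hS : U ⊓ perp Q hbil W ≤ U₁ ∨ U ⊓ perp Q hbil W ≤ U₂ := by
    by_contra hcon
    rw [not_or] at hcon
    obtain ⟨h1, h2⟩ := hcon
    obtain ⟨x, hx, hx1⟩ := SetLike.not_le_iff_exists.mp h1
    obtain ⟨y, hy, hy2⟩ := SetLike.not_le_iff_exists.mp h2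
    have hx2 : x ∈ U₂ := (hsing x hx.2 (hU x hx.1)).resolve_left hx1
    have hy1 : y ∈ U₁ := (hsing y hy.2 (hU y hy.1)).resolve_right hy2
    have hxy := Submodule.add_mem _ hx hy
    rcases hsing (x + y) hxy.2 (hU _ hxy.1) with h | h
    · exact hx1 (by simpa using U₁.sub_mem h hy1)
    · exact hy2 (by simpa using U₂.sub_mem h hx2)
  rcases hS with hS | hS
  · left
    exact nbr_aux Q hbil hnd m hm W U₁ U₂ U hWd hU₁ hU₁d hW₁ hU₂ hU₂d hW₂ hne hU hUd hS
  · right
    exact nbr_aux Q hbil hnd m hm W U₂ U₁ U hWd hU₂ hU₂d hW₂ hU₁ hU₁d hW₁ (Ne.symm hne) hU hUd hS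

theorem parity (Q : (κ → F) → F)
    (hbil : Cfsg.Geo.IsBilinearForm (QuadraticMap.polar Q))
    (hsm : ∀ (c : F) (v : κ → F), Q (c • v) = c ^ 2 * Q v)
    (hnd : Cfsg.Geo.IsNondegenerateForm (QuadraticMap.polar Q))
    (m : ℕ) (hm : Fintype.card κ = 2 * m) :
    ∀ (d : ℕ) (U U' : Submodule F (κ → F)), Cfsg.Geo.IsTotallySingularQuad Q U →
      Module.finrank F U = m → Cfsg.Geo.IsTotallySingularQuad Q U' →
      Module.finrank F U' = m → Module.finrank F ↥(U ⊓ U') + d = m →
      ∀ U₀ : Submodule F (κ → F), Cfsg.Geo.IsTotallySingularQuad Q U₀ →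
        Module.finrank F U₀ = m →
        (Module.finrank F ↥(U ⊓ U₀) + Module.finrank F ↥(U' ⊓ U₀)
          + Module.finrank F ↥(U ⊓ U')) % 2 = m % 2 := by
  intro d
  induction d using Nat.strong_induction_on with
  | _ d ih =>
    intro U U' hU hUd hU' hU'd hd U₀ hU₀ hU₀d
    by_cases heq : U = U'
    · subst heq
      rw [inf_idem, hUd]
      omega
    · have hnle : ¬ U' ≤ U := by
        intro h
        exact heq (Submodule.eq_of_le_of_finrank_eq h (by rw [hU'd, hUd])).symm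
      obtain ⟨x, hxU', hxU⟩ := SetLike.not_le_iff_exists.mp hnle
      have hx0 : x ≠ 0 := by
        rintro rfl
        exact hxU U.zero_mem
      have hUp : perp Q hbil U = U := mts_perp Q hbil hnd U hU (by omega)
      obtain ⟨W, hWdef⟩ : ∃ W, W = U ⊓ perp Q hbil (Submodule.span F {x}) := ⟨_, rfl⟩
      have hWU : W ≤ U := by
        rw [hWdef]
        exact inf_le_left
      have hWx : ∀ w ∈ W, QuadraticMap.polar Q w x = 0 := by
        intro w hw
        rw [hWdef] at hw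
        have h1 := (mem_perp Q hbil _ w).mp hw.2 x (Submodule.mem_span_singleton_self x)
        rw [QuadraticMap.polar_comm]
        exact h1
      have hWd : Module.finrank F W + 1 = m := by
        have hf := finrank_inf_perp Q hbil hnd U (Submodule.span F {x})
        rw [hUp, finrank_span_singleton hx0] at hf
        have hbot : U ⊓ Submodule.span F {x} = ⊥ := by
          rw [eq_bot_iff]
          rintro y ⟨hy1, hy2⟩
          obtain ⟨c, rfl⟩ := Submodule.mem_span_singleton.mp hy2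
          by_cases hc : c = 0
          · rw [hc, zero_smul]
            exact Submodule.zero_mem _
          · exfalso
            apply hxU
            have h1 := U.smul_mem c⁻¹ hy1
            rwa [smul_smul, inv_mul_cancel₀ hc, one_smul] at h1
        rw [hbot, finrank_bot] at hf
        rw [hWdef]
        omega
      have hW : Cfsg.Geo.IsTotallySingularQuad Q W := fun w hw => hU w (hWU hw)
      obtain ⟨U'', hU''def⟩ : ∃ U'', U'' = W ⊔ Submodule.span F {x} := ⟨_, rfl⟩
      have hWU'' : W ≤ U'' := by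
        rw [hU''def]
        exact le_sup_left
      have hxU'' : x ∈ U'' := by
        rw [hU''def]
        exact Submodule.mem_sup_right (Submodule.mem_span_singleton_self x)
      have hU'' : Cfsg.Geo.IsTotallySingularQuad Q U'' := by
        intro y hy
        rw [hU''def] at hy
        obtain ⟨w, hw, x', hx', rfl⟩ := Submodule.mem_sup.mp hy
        obtain ⟨c, rfl⟩ := Submodule.mem_span_singleton.mp hx'
        rw [Q_add Q, hW w hw, hsm, hU' x hxU', hbil.smul_right, hWx w hw]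
        ring
      have hU''d : Module.finrank F U'' = m := by
        have hlt : W < U'' := by
          apply lt_of_le_of_ne hWU''
          intro h
          apply hxU
          apply hWU
          rw [h]
          exact hxU''
        have h1 := Submodule.finrank_lt_finrank_of_lt hlt
        have h2 := ts_finrank_le Q hbil hnd U'' hU''
        omega
      have hne : U ≠ U'' := by
        intro h
        apply hxU
        rw [h]
        exact hxU''
      have n1 := nbr Q hbil hsm hnd m hm W U U'' U₀ hWd hU hUd hWU hU'' hU''d hWU'' hne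
        hU₀ hU₀d
      have n2 := nbr Q hbil hsm hnd m hm W U U'' U' hWd hU hUd hWU hU'' hU''d hWU'' hne
        hU' hU'd
      have hgt : Module.finrank F ↥(U ⊓ U') < Module.finrank F ↥(U'' ⊓ U') := by
        apply Submodule.finrank_lt_finrank_of_lt
        apply lt_of_le_of_ne
        · apply le_inf _ inf_le_right
          intro y hy
          apply hWU''
          rw [hWdef]
          refine ⟨hy.1, ?_⟩
          apply (mem_perp Q hbil _ y).mpr
          intro z hz
          obtain ⟨c, rfl⟩ := Submodule.mem_span_singleton.mp hz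
          rw [hbil.smul_left, ts_polar Q U' hU' x y hxU' hy.2, mul_zero]
        · intro h
          apply hxU
          have h1 : x ∈ U'' ⊓ U' := ⟨hxU'', hxU'⟩
          rw [← h] at h1
          exact h1.1
      have hle : Module.finrank F ↥(U'' ⊓ U') ≤ m := by
        have h1 := Submodule.finrank_mono (inf_le_right : U'' ⊓ U' ≤ U')
        omega
      have ih' := ih (m - Module.finrank F ↥(U'' ⊓ U')) (by omega) U'' U' hU'' hU''d hU' hU'd
        (by omega) U₀ hU₀ hU₀d
      rw [inf_comm U₀ U, inf_comm U₀ U''] at n1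
      rw [inf_comm U' U, inf_comm U' U''] at n2
      omega

end perp2

section delta
variable {F : Type*} [Field F] [Fintype F] {κ : Type} [Fintype κ] [DecidableEq κ]

/-- image of a subspace under an invertible matrix -/
noncomputable def img (g : Matrix.GeneralLinearGroup κ F) (U : Submodule F (κ → F)) :
    Submodule F (κ → F) :=
  U.map (Matrix.toLin' (g : Matrix κ κ F))

theorem mem_img (g : Matrix.GeneralLinearGroup κ F) (U : Submodule F (κ → F)) (v : κ → F) :
    v ∈ img g U ↔ ∃ u ∈ U, (g : Matrix κ κ F) *ᵥ u = v := by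
  unfold img
  rw [Submodule.mem_map]
  simp only [Matrix.toLin'_apply]

theorem toLin_inj (g : Matrix.GeneralLinearGroup κ F) :
    Function.Injective (Matrix.toLin' (g : Matrix κ κ F)) := by
  intro v w h
  rw [Matrix.toLin'_apply, Matrix.toLin'_apply] at h
  exact gl_inj g v w h

theorem img_finrank (g : Matrix.GeneralLinearGroup κ F) (U : Submodule F (κ → F)) :
    Module.finrank F (img g U) = Module.finrank F U := by
  unfold img
  exact (Submodule.equivMapOfInjective _ (toLin_inj g) U).finrank_eq.symm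

theorem img_inf (g : Matrix.GeneralLinearGroup κ F) (U U' : Submodule F (κ → F)) :
    img g (U ⊓ U') = img g U ⊓ img g U' := by
  unfold img
  exact Submodule.map_inf _ (toLin_inj g)

theorem img_mul (g h : Matrix.GeneralLinearGroup κ F) (U : Submodule F (κ → F)) :
    img (g * h) U = img g (img h U) := by
  unfold img
  rw [Units.val_mul, Matrix.toLin'_mul, Submodule.map_comp]

theorem img_ts (Q : (κ → F) → F) (g : Matrix.GeneralLinearGroup κ F)
    (hg : g ∈ Cfsg.isometryGroup F Q) (U : Submodule F (κ → F))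
    (hU : Cfsg.Geo.IsTotallySingularQuad Q U) :
    Cfsg.Geo.IsTotallySingularQuad Q (img g U) := by
  intro v hv
  obtain ⟨u, hu, rfl⟩ := (mem_img g U v).mp hv
  have h : Q ((g : Matrix κ κ F) *ᵥ u) = Q u := hg u u
  rw [h]
  exact hU u hu

theorem neg_one_pow_congr (a b : ℕ) (h : a % 2 = b % 2) : (-1 : ℤˣ) ^ a = (-1 : ℤˣ) ^ b := by
  rw [Int.units_pow_eq_pow_mod_two (-1) a, h, ← Int.units_pow_eq_pow_mod_two (-1) b]

/-- the parity character of the isometry group -/
noncomputable def parityHom (Q : (κ → F) → F)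
    (hbil : Cfsg.Geo.IsBilinearForm (QuadraticMap.polar Q))
    (hsm : ∀ (c : F) (v : κ → F), Q (c • v) = c ^ 2 * Q v)
    (hnd : Cfsg.Geo.IsNondegenerateForm (QuadraticMap.polar Q))
    (m : ℕ) (hm : Fintype.card κ = 2 * m) (U₁ : Submodule F (κ → F))
    (hU₁ : Cfsg.Geo.IsTotallySingularQuad Q U₁) (hd : Module.finrank F U₁ = m) :
    Cfsg.isometryGroup F Q →* ℤˣ :=
  MonoidHom.mk' (fun g => (-1 : ℤˣ) ^ (m + Module.finrank F
      ↥(U₁ ⊓ img (g : Matrix.GeneralLinearGroup κ F) U₁))) (by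
    intro g h
    show (-1 : ℤˣ) ^ (m + Module.finrank F ↥(U₁ ⊓ img ((g : Matrix.GeneralLinearGroup κ F)
        * (h : Matrix.GeneralLinearGroup κ F)) U₁))
      = (-1 : ℤˣ) ^ (m + Module.finrank F ↥(U₁ ⊓ img (g : Matrix.GeneralLinearGroup κ F) U₁))
        * (-1 : ℤˣ) ^ (m + Module.finrank F
          ↥(U₁ ⊓ img (h : Matrix.GeneralLinearGroup κ F) U₁))
    have hle : Module.finrank F ↥(U₁ ⊓ img ((g : Matrix.GeneralLinearGroup κ F)
        * (h : Matrix.GeneralLinearGroup κ F)) U₁) ≤ m := by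
      have h1 := Submodule.finrank_mono (inf_le_left : U₁ ⊓ img
        ((g : Matrix.GeneralLinearGroup κ F) * (h : Matrix.GeneralLinearGroup κ F)) U₁ ≤ U₁)
      omega
    have p := parity Q hbil hsm hnd m hm
      (m - Module.finrank F ↥(U₁ ⊓ img ((g : Matrix.GeneralLinearGroup κ F)
        * (h : Matrix.GeneralLinearGroup κ F)) U₁))
      U₁ (img ((g : Matrix.GeneralLinearGroup κ F) * (h : Matrix.GeneralLinearGroup κ F)) U₁)
      hU₁ hd (img_ts Q _ (Subgroup.mul_mem _ g.2 h.2) U₁ hU₁) (by rw [img_finrank]; exact hd)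
      (by omega) (img (g : Matrix.GeneralLinearGroup κ F) U₁) (img_ts Q _ g.2 U₁ hU₁)
      (by rw [img_finrank]; exact hd)
    have e2 : Module.finrank F ↥(img ((g : Matrix.GeneralLinearGroup κ F)
        * (h : Matrix.GeneralLinearGroup κ F)) U₁ ⊓ img (g : Matrix.GeneralLinearGroup κ F) U₁)
        = Module.finrank F ↥(U₁ ⊓ img (h : Matrix.GeneralLinearGroup κ F) U₁) := by
      rw [img_mul, ← img_inf, img_finrank, inf_comm]
    rw [← pow_add]
    apply neg_one_pow_congr
    omega)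

theorem omega_parity (Q : (κ → F) → F)
    (hbil : Cfsg.Geo.IsBilinearForm (QuadraticMap.polar Q))
    (hsm : ∀ (c : F) (v : κ → F), Q (c • v) = c ^ 2 * Q v)
    (hnd : Cfsg.Geo.IsNondegenerateForm (QuadraticMap.polar Q))
    (m : ℕ) (hm : Fintype.card κ = 2 * m) (U₁ : Submodule F (κ → F))
    (hU₁ : Cfsg.Geo.IsTotallySingularQuad Q U₁) (hd : Module.finrank F U₁ = m)
    (g : Matrix.GeneralLinearGroup κ F) (hg : g ∈ Cfsg.Geo.omegaGL Q) :
    (m + Module.finrank F ↥(U₁ ⊓ img g U₁)) % 2 = 0 := by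
  obtain ⟨y, hy, rfl⟩ := hg
  have h1 := Abelianization.commutator_subset_ker (parityHom Q hbil hsm hnd m hm U₁ hU₁ hd) hy
  rw [MonoidHom.mem_ker] at h1
  have h2 : (-1 : ℤˣ) ^ (m + Module.finrank F
      ↥(U₁ ⊓ img (y : Matrix.GeneralLinearGroup κ F) U₁)) = 1 := h1
  by_contra hodd
  have h3 : (m + Module.finrank F ↥(U₁ ⊓ img (y : Matrix.GeneralLinearGroup κ F) U₁)) % 2
      = 1 := by
    have h4 : ¬ (m + Module.finrank F ↥(U₁ ⊓ img (y : Matrix.GeneralLinearGroup κ F) U₁)) % 2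
        = 0 := hodd
    omega
  rw [Int.units_pow_eq_pow_mod_two, h3, pow_one] at h2
  exact absurd h2 (by decide)

theorem stab_of_maps (U : Submodule F (κ → F)) (g : Matrix.GeneralLinearGroup κ F)
    (h : ∀ v ∈ U, (g : Matrix κ κ F) *ᵥ v ∈ U) : g ∈ Cfsg.Geo.subspaceStabilizer U := by
  intro v
  show v ∈ U ↔ (g : Matrix κ κ F) *ᵥ v ∈ U
  constructor
  · exact h v
  · intro hv
    have hmaps : ∀ x ∈ U, Matrix.toLin' (g : Matrix κ κ F) x ∈ U := by
      intro x hx
      rw [Matrix.toLin'_apply]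
      exact h x hx
    have hinj : Function.Injective ((Matrix.toLin' (g : Matrix κ κ F)).restrict hmaps) := by
      intro x y hxy
      apply Subtype.ext
      have h1 := congrArg Subtype.val hxy
      rw [LinearMap.restrict_coe_apply, LinearMap.restrict_coe_apply] at h1
      exact toLin_inj g h1
    have hsurj := LinearMap.injective_iff_surjective.mp hinj
    obtain ⟨u, hu⟩ := hsurj ⟨_, hv⟩
    have h1 := congrArg Subtype.val hu
    rw [LinearMap.restrict_coe_apply, Matrix.toLin'_apply] at h1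
    rw [← gl_inj g _ _ h1]
    exact u.2

theorem stab_of_img (U : Submodule F (κ → F)) (g : Matrix.GeneralLinearGroup κ F)
    (h : img g U = U) : g ∈ Cfsg.Geo.subspaceStabilizer U := by
  apply stab_of_maps
  intro v hv
  rw [← h]
  exact (mem_img g U _).mpr ⟨v, hv, rfl⟩

theorem stab_maps (U : Submodule F (κ → F)) (g : Matrix.GeneralLinearGroup κ F)
    (h : g ∈ Cfsg.Geo.subspaceStabilizer U) (v : κ → F) :
    v ∈ U ↔ (g : Matrix κ κ F) *ᵥ v ∈ U := h v

theorem img_of_stab (U : Submodule F (κ → F)) (g : Matrix.GeneralLinearGroup κ F)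
    (h : g ∈ Cfsg.Geo.subspaceStabilizer U) : img g U = U := by
  ext v
  rw [mem_img]
  constructor
  · rintro ⟨u, hu, rfl⟩
    exact (stab_maps U g h u).mp hu
  · intro hv
    have e : (g : Matrix κ κ F) *ᵥ (((g⁻¹ : Matrix.GeneralLinearGroup κ F) : Matrix κ κ F) *ᵥ v)
        = v := by
      rw [Matrix.mulVec_mulVec, ← Units.val_mul, mul_inv_cancel, Units.val_one,
        Matrix.one_mulVec]
    refine ⟨((g⁻¹ : Matrix.GeneralLinearGroup κ F) : Matrix κ κ F) *ᵥ v, ?_, e⟩
    apply (stab_maps U g h _).mpr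
    rw [e]
    exact hv

theorem inv_mulVec (g : Matrix.GeneralLinearGroup κ F) (x y : κ → F)
    (h : (g : Matrix κ κ F) *ᵥ y = x) :
    ((g⁻¹ : Matrix.GeneralLinearGroup κ F) : Matrix κ κ F) *ᵥ x = y := by
  rw [← h, Matrix.mulVec_mulVec, ← Units.val_mul, inv_mul_cancel, Units.val_one,
    Matrix.one_mulVec]

end delta

section elems
variable {F : Type*} [Field F] [Fintype F] {κ : Type} [Fintype κ] [DecidableEq κ]

theorem polar_sub_left (Q : (κ → F) → F)
    (hbil : Cfsg.Geo.IsBilinearForm (QuadraticMap.polar Q)) (x y v : κ → F) :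
    QuadraticMap.polar Q (x - y) v = QuadraticMap.polar Q x v - QuadraticMap.polar Q y v := by
  rw [sub_eq_add_neg, ← neg_one_smul F y, hbil.add_left, hbil.smul_left]
  ring

theorem polar_sub_right (Q : (κ → F) → F)
    (hbil : Cfsg.Geo.IsBilinearForm (QuadraticMap.polar Q)) (v x y : κ → F) :
    QuadraticMap.polar Q v (x - y) = QuadraticMap.polar Q v x - QuadraticMap.polar Q v y := by
  rw [sub_eq_add_neg, ← neg_one_smul F y, hbil.add_right, hbil.smul_right]
  ring

/-- the long root element attached to an orthogonal pair of singular vectors -/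
noncomputable def siegel (Q : (κ → F) → F)
    (hbil : Cfsg.Geo.IsBilinearForm (QuadraticMap.polar Q)) (a b : κ → F)
    (hab : QuadraticMap.polar Q a b = 0) : Matrix.GeneralLinearGroup κ F :=
  tvG (polarL Q hbil a) b (by
    show 1 + QuadraticMap.polar Q b a ≠ 0
    rw [QuadraticMap.polar_comm, hab, add_zero]
    exact one_ne_zero) *
  tvG (-(polarL Q hbil b)) a (by
    show 1 + -QuadraticMap.polar Q a b ≠ 0
    rw [hab, neg_zero, add_zero]
    exact one_ne_zero)

theorem siegel_mulVec (Q : (κ → F) → F)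
    (hsm : ∀ (c : F) (v : κ → F), Q (c • v) = c ^ 2 * Q v)
    (hbil : Cfsg.Geo.IsBilinearForm (QuadraticMap.polar Q)) (a b : κ → F)
    (hab : QuadraticMap.polar Q a b = 0) (qa : Q a = 0) (x : κ → F) :
    ((siegel Q hbil a b hab : Matrix.GeneralLinearGroup κ F) : Matrix κ κ F) *ᵥ x
      = x + QuadraticMap.polar Q x a • b - QuadraticMap.polar Q x b • a := by
  rw [siegel, Units.val_mul, ← Matrix.mulVec_mulVec, tvG_mulVec, tvG_mulVec]
  have h2 : ∀ (c y : κ → F), (polarL Q hbil c) y = QuadraticMap.polar Q y c := fun _ _ => rfl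
  simp only [LinearMap.neg_apply, h2]
  rw [hbil.add_left, hbil.smul_left, polar_self Q hsm, qa]
  module

theorem siegel_isom (Q : (κ → F) → F)
    (hsm : ∀ (c : F) (v : κ → F), Q (c • v) = c ^ 2 * Q v)
    (hbil : Cfsg.Geo.IsBilinearForm (QuadraticMap.polar Q)) (a b : κ → F)
    (hab : QuadraticMap.polar Q a b = 0) (qa : Q a = 0) (qb : Q b = 0) :
    siegel Q hbil a b hab ∈ Cfsg.isometryGroup F Q := by
  intro v w
  show Q (((siegel Q hbil a b hab : Matrix.GeneralLinearGroup κ F) : Matrix κ κ F) *ᵥ v) = Q v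
  have hba : QuadraticMap.polar Q b a = 0 := by
    rw [QuadraticMap.polar_comm]
    exact hab
  rw [siegel_mulVec Q hsm hbil a b hab qa, sub_eq_add_neg, ← neg_smul, Q_add Q, Q_add Q, hsm,
    hsm, qa, qb, hbil.smul_right, hbil.smul_right, hbil.add_left, hbil.smul_left, hba]
  ring

theorem fam_core (Q : (κ → F) → F)
    (hsm : ∀ (c : F) (v : κ → F), Q (c • v) = c ^ 2 * Q v)
    (hbil : Cfsg.Geo.IsBilinearForm (QuadraticMap.polar Q))
    (U₁ : Submodule F (κ → F)) (hU₁ : Cfsg.Geo.IsTotallySingularQuad Q U₁)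
    (e₁ e₂ e₃ f₁ f₂ : κ → F) (he₁ : e₁ ∈ U₁) (he₂ : e₂ ∈ U₁) (he₃ : e₃ ∈ U₁)
    (qf₁ : Q f₁ = 0) (qf₂ : Q f₂ = 0)
    (h11 : QuadraticMap.polar Q e₁ f₁ = 1) (h21 : QuadraticMap.polar Q e₂ f₁ = 0)
    (h31 : QuadraticMap.polar Q e₃ f₁ = 0) (h12 : QuadraticMap.polar Q e₁ f₂ = 0)
    (h22 : QuadraticMap.polar Q e₂ f₂ = 1) (h32 : QuadraticMap.polar Q e₃ f₂ = 0) :
    (∃ g : Matrix.GeneralLinearGroup κ F, g ∈ Cfsg.Geo.omegaGL Q ∧
        g ∈ Cfsg.Geo.subspaceStabilizer U₁ ∧ (g : Matrix κ κ F) *ᵥ e₁ = e₁ - e₃) ∧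
    (∃ g : Matrix.GeneralLinearGroup κ F, g ∈ Cfsg.Geo.omegaGL Q ∧
        g ∈ Cfsg.Geo.subspaceStabilizer U₁ ∧ (g : Matrix κ κ F) *ᵥ f₂ = f₂ + e₃) ∧
    (∃ g : Matrix.GeneralLinearGroup κ F, g ∈ Cfsg.Geo.omegaGL Q ∧
        g ∉ Cfsg.Geo.subspaceStabilizer U₁) := by
  have ee : ∀ x ∈ U₁, ∀ y ∈ U₁, QuadraticMap.polar Q x y = 0 :=
    fun x hx y hy => ts_polar Q U₁ hU₁ x y hx hy
  have p11 : QuadraticMap.polar Q e₁ e₁ = 0 := ee _ he₁ _ he₁
  have p12 : QuadraticMap.polar Q e₁ e₂ = 0 := ee _ he₁ _ he₂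
  have p13 : QuadraticMap.polar Q e₁ e₃ = 0 := ee _ he₁ _ he₃
  have p21 : QuadraticMap.polar Q e₂ e₁ = 0 := ee _ he₂ _ he₁
  have p22 : QuadraticMap.polar Q e₂ e₂ = 0 := ee _ he₂ _ he₂
  have p23 : QuadraticMap.polar Q e₂ e₃ = 0 := ee _ he₂ _ he₃
  have p31 : QuadraticMap.polar Q e₃ e₁ = 0 := ee _ he₃ _ he₁
  have p32 : QuadraticMap.polar Q e₃ e₂ = 0 := ee _ he₃ _ he₂
  have p33 : QuadraticMap.polar Q e₃ e₃ = 0 := ee _ he₃ _ he₃
  have g11 : QuadraticMap.polar Q f₁ e₁ = 1 := by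
    rw [QuadraticMap.polar_comm]
    exact h11
  have g12 : QuadraticMap.polar Q f₂ e₁ = 0 := by
    rw [QuadraticMap.polar_comm]
    exact h12
  have g21 : QuadraticMap.polar Q f₁ e₂ = 0 := by
    rw [QuadraticMap.polar_comm]
    exact h21
  have g22 : QuadraticMap.polar Q f₂ e₂ = 1 := by
    rw [QuadraticMap.polar_comm]
    exact h22
  have g31 : QuadraticMap.polar Q f₁ e₃ = 0 := by
    rw [QuadraticMap.polar_comm]
    exact h31
  have g32 : QuadraticMap.polar Q f₂ e₃ = 0 := by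
    rw [QuadraticMap.polar_comm]
    exact h32
  have pf11 : QuadraticMap.polar Q f₁ f₁ = 0 := by rw [polar_self Q hsm, qf₁, mul_zero]
  have pf22 : QuadraticMap.polar Q f₂ f₂ = 0 := by rw [polar_self Q hsm, qf₂, mul_zero]
  obtain ⟨p, hp⟩ : ∃ p, QuadraticMap.polar Q f₁ f₂ = p := ⟨_, rfl⟩
  have hp' : QuadraticMap.polar Q f₂ f₁ = p := by
    rw [QuadraticMap.polar_comm]
    exact hp
  have qe₁ := hU₁ e₁ he₁
  have qe₂ := hU₁ e₂ he₂
  have qe₃ := hU₁ e₃ he₃
  have qc : Q (e₁ - f₁) = -1 := by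
    rw [sub_eq_add_neg, ← neg_one_smul F f₁, Q_add Q, hsm, qe₁, qf₁, hbil.smul_right, h11]
    ring
  have nc : Q (e₁ - f₁) ≠ 0 := by
    rw [qc]
    exact neg_ne_zero.mpr one_ne_zero
  obtain ⟨A, hA⟩ : ∃ A : Matrix.GeneralLinearGroup κ F, A = siegel Q hbil f₁ e₂ g21 := ⟨_, rfl⟩
  obtain ⟨B, hB⟩ : ∃ B : Matrix.GeneralLinearGroup κ F, B = siegel Q hbil f₂ e₃ g32 := ⟨_, rfl⟩
  obtain ⟨C, hC⟩ : ∃ C : Matrix.GeneralLinearGroup κ F, C = siegel Q hbil e₁ e₃ p13 := ⟨_, rfl⟩
  obtain ⟨u, hu⟩ : ∃ u : Matrix.GeneralLinearGroup κ F, u = siegel Q hbil f₂ e₁ g12 := ⟨_, rfl⟩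
  obtain ⟨t, ht⟩ : ∃ t : Matrix.GeneralLinearGroup κ F, t = refl Q hsm hbil (e₁ - f₁) nc :=
    ⟨_, rfl⟩
  have sA : ∀ x, (A : Matrix κ κ F) *ᵥ x
      = x + QuadraticMap.polar Q x f₁ • e₂ - QuadraticMap.polar Q x e₂ • f₁ := by
    intro x
    rw [hA]
    exact siegel_mulVec Q hsm hbil f₁ e₂ g21 qf₁ x
  have sB : ∀ x, (B : Matrix κ κ F) *ᵥ x
      = x + QuadraticMap.polar Q x f₂ • e₃ - QuadraticMap.polar Q x e₃ • f₂ := by
    intro x
    rw [hB]
    exact siegel_mulVec Q hsm hbil f₂ e₃ g32 qf₂ x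
  have sC : ∀ x, (C : Matrix κ κ F) *ᵥ x
      = x + QuadraticMap.polar Q x e₁ • e₃ - QuadraticMap.polar Q x e₃ • e₁ := by
    intro x
    rw [hC]
    exact siegel_mulVec Q hsm hbil e₁ e₃ p13 qe₁ x
  have su : ∀ x, (u : Matrix κ κ F) *ᵥ x
      = x + QuadraticMap.polar Q x f₂ • e₁ - QuadraticMap.polar Q x e₁ • f₂ := by
    intro x
    rw [hu]
    exact siegel_mulVec Q hsm hbil f₂ e₁ g12 qf₂ x
  have st : ∀ x, (t : Matrix κ κ F) *ᵥ x
      = x + QuadraticMap.polar Q x (e₁ - f₁) • (e₁ - f₁) := by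
    intro x
    rw [ht, refl_mulVec, qc, inv_neg_one, neg_neg, one_mul]
  have iA : A ∈ Cfsg.isometryGroup F Q := by
    rw [hA]
    exact siegel_isom Q hsm hbil f₁ e₂ g21 qf₁ qe₂
  have iB : B ∈ Cfsg.isometryGroup F Q := by
    rw [hB]
    exact siegel_isom Q hsm hbil f₂ e₃ g32 qf₂ qe₃
  have iC : C ∈ Cfsg.isometryGroup F Q := by
    rw [hC]
    exact siegel_isom Q hsm hbil e₁ e₃ p13 qe₁ qe₃
  have iu : u ∈ Cfsg.isometryGroup F Q := by
    rw [hu]
    exact siegel_isom Q hsm hbil f₂ e₁ g12 qf₂ qe₁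
  have it : t ∈ Cfsg.isometryGroup F Q := by
    rw [ht]
    exact refl_isom Q hsm hbil (e₁ - f₁) nc
  have stA : A ∈ Cfsg.Geo.subspaceStabilizer U₁ := by
    apply stab_of_maps
    intro x hx
    rw [sA, ee x hx e₂ he₂, zero_smul, sub_zero]
    exact U₁.add_mem hx (U₁.smul_mem _ he₂)
  have stB : B ∈ Cfsg.Geo.subspaceStabilizer U₁ := by
    apply stab_of_maps
    intro x hx
    rw [sB, ee x hx e₃ he₃, zero_smul, sub_zero]
    exact U₁.add_mem hx (U₁.smul_mem _ he₃)
  have stC : C ∈ Cfsg.Geo.subspaceStabilizer U₁ := by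
    apply stab_of_maps
    intro x hx
    rw [sC, ee x hx e₃ he₃, zero_smul, sub_zero]
    exact U₁.add_mem hx (U₁.smul_mem _ he₃)
  have b1 : (B : Matrix κ κ F) *ᵥ (e₁) = e₁ := by
    rw [sB]
    simp only [hbil.add_left, hbil.add_right, hbil.smul_left, hbil.smul_right, polar_sub_left Q hbil,
      polar_sub_right Q hbil, p11, p12, p13, p21, p22, p23, p31, p32, p33, g11, h11, g12,
      h12, g21, h21, g22, h22, g31, h31, g32, h32, pf11, pf22, hp, hp']
    module
  have a1 : (A : Matrix κ κ F) *ᵥ (e₁ - e₂) = e₁ := by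
    rw [sA]
    simp only [hbil.add_left, hbil.add_right, hbil.smul_left, hbil.smul_right, polar_sub_left Q hbil,
      polar_sub_right Q hbil, p11, p12, p13, p21, p22, p23, p31, p32, p33, g11, h11, g12,
      h12, g21, h21, g22, h22, g31, h31, g32, h32, pf11, pf22, hp, hp']
    module
  have b2 : (B : Matrix κ κ F) *ᵥ (e₁ - e₂) = e₁ - e₂ - e₃ := by
    rw [sB]
    simp only [hbil.add_left, hbil.add_right, hbil.smul_left, hbil.smul_right, polar_sub_left Q hbil,
      polar_sub_right Q hbil, p11, p12, p13, p21, p22, p23, p31, p32, p33, g11, h11, g12,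
      h12, g21, h21, g22, h22, g31, h31, g32, h32, pf11, pf22, hp, hp']
    module
  have a2 : (A : Matrix κ κ F) *ᵥ (e₁ - e₂ - e₃) = e₁ - e₃ := by
    rw [sA]
    simp only [hbil.add_left, hbil.add_right, hbil.smul_left, hbil.smul_right, polar_sub_left Q hbil,
      polar_sub_right Q hbil, p11, p12, p13, p21, p22, p23, p31, p32, p33, g11, h11, g12,
      h12, g21, h21, g22, h22, g31, h31, g32, h32, pf11, pf22, hp, hp']
    module
  have c1 : (C : Matrix κ κ F) *ᵥ (f₂) = f₂ := by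
    rw [sC]
    simp only [hbil.add_left, hbil.add_right, hbil.smul_left, hbil.smul_right, polar_sub_left Q hbil,
      polar_sub_right Q hbil, p11, p12, p13, p21, p22, p23, p31, p32, p33, g11, h11, g12,
      h12, g21, h21, g22, h22, g31, h31, g32, h32, pf11, pf22, hp, hp']
    module
  have a3 : (A : Matrix κ κ F) *ᵥ (f₂ + f₁ - p • e₂) = f₂ := by
    rw [sA]
    simp only [hbil.add_left, hbil.add_right, hbil.smul_left, hbil.smul_right, polar_sub_left Q hbil,
      polar_sub_right Q hbil, p11, p12, p13, p21, p22, p23, p31, p32, p33, g11, h11, g12,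
      h12, g21, h21, g22, h22, g31, h31, g32, h32, pf11, pf22, hp, hp']
    module
  have c2 : (C : Matrix κ κ F) *ᵥ (f₂ + f₁ - p • e₂) = f₂ + f₁ - p • e₂ + e₃ := by
    rw [sC]
    simp only [hbil.add_left, hbil.add_right, hbil.smul_left, hbil.smul_right, polar_sub_left Q hbil,
      polar_sub_right Q hbil, p11, p12, p13, p21, p22, p23, p31, p32, p33, g11, h11, g12,
      h12, g21, h21, g22, h22, g31, h31, g32, h32, pf11, pf22, hp, hp']
    module
  have a4 : (A : Matrix κ κ F) *ᵥ (f₂ + f₁ - p • e₂ + e₃) = f₂ + e₃ := by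
    rw [sA]
    simp only [hbil.add_left, hbil.add_right, hbil.smul_left, hbil.smul_right, polar_sub_left Q hbil,
      polar_sub_right Q hbil, p11, p12, p13, p21, p22, p23, p31, p32, p33, g11, h11, g12,
      h12, g21, h21, g22, h22, g31, h31, g32, h32, pf11, pf22, hp, hp']
    module
  have u1 : (u : Matrix κ κ F) *ᵥ (e₂ - e₁) = e₂ := by
    rw [su]
    simp only [hbil.add_left, hbil.add_right, hbil.smul_left, hbil.smul_right, polar_sub_left Q hbil,
      polar_sub_right Q hbil, p11, p12, p13, p21, p22, p23, p31, p32, p33, g11, h11, g12,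
      h12, g21, h21, g22, h22, g31, h31, g32, h32, pf11, pf22, hp, hp']
    module
  have t1 : (t : Matrix κ κ F) *ᵥ (e₂ - f₁) = e₂ - e₁ := by
    rw [st]
    simp only [hbil.add_left, hbil.add_right, hbil.smul_left, hbil.smul_right, polar_sub_left Q hbil,
      polar_sub_right Q hbil, p11, p12, p13, p21, p22, p23, p31, p32, p33, g11, h11, g12,
      h12, g21, h21, g22, h22, g31, h31, g32, h32, pf11, pf22, hp, hp']
    module
  have u2 : (u : Matrix κ κ F) *ᵥ (e₂ - f₁) = e₂ - f₁ + (1 - p) • e₁ + f₂ := by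
    rw [su]
    simp only [hbil.add_left, hbil.add_right, hbil.smul_left, hbil.smul_right, polar_sub_left Q hbil,
      polar_sub_right Q hbil, p11, p12, p13, p21, p22, p23, p31, p32, p33, g11, h11, g12,
      h12, g21, h21, g22, h22, g31, h31, g32, h32, pf11, pf22, hp, hp']
    module
  have t2 : (t : Matrix κ κ F) *ᵥ (e₂ - f₁ + (1 - p) • e₁ + f₂) = e₂ + f₁ + (-1 - p) • e₁ + f₂ := by
    rw [st]
    simp only [hbil.add_left, hbil.add_right, hbil.smul_left, hbil.smul_right, polar_sub_left Q hbil,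
      polar_sub_right Q hbil, p11, p12, p13, p21, p22, p23, p31, p32, p33, g11, h11, g12,
      h12, g21, h21, g22, h22, g31, h31, g32, h32, pf11, pf22, hp, hp']
    module
  refine ⟨⟨A * B * A⁻¹ * B⁻¹, comm_mem_omega Q A B iA iB, ?_, ?_⟩,
    ⟨A * C * A⁻¹ * C⁻¹, comm_mem_omega Q A C iA iC, ?_, ?_⟩,
    ⟨t * u * t⁻¹ * u⁻¹, comm_mem_omega Q t u it iu, ?_⟩⟩
  · exact Subgroup.mul_mem _ (Subgroup.mul_mem _ (Subgroup.mul_mem _ stA stB)
      (Subgroup.inv_mem _ stA)) (Subgroup.inv_mem _ stB)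
  · simp only [Units.val_mul, ← Matrix.mulVec_mulVec]
    rw [inv_mulVec B e₁ e₁ b1, inv_mulVec A e₁ (e₁ - e₂) a1, b2, a2]
  · exact Subgroup.mul_mem _ (Subgroup.mul_mem _ (Subgroup.mul_mem _ stA stC)
      (Subgroup.inv_mem _ stA)) (Subgroup.inv_mem _ stC)
  · simp only [Units.val_mul, ← Matrix.mulVec_mulVec]
    rw [inv_mulVec C f₂ f₂ c1, inv_mulVec A f₂ (f₂ + f₁ - p • e₂) a3, c2, a4]
  · intro hs
    have h1 := (stab_maps U₁ _ hs e₂).mp he₂
    simp only [Units.val_mul, ← Matrix.mulVec_mulVec] at h1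
    rw [inv_mulVec u e₂ (e₂ - e₁) u1, inv_mulVec t (e₂ - e₁) (e₂ - f₁) t1, u2, t2] at h1
    have h0 := ee _ h1 e₁ he₁
    simp only [hbil.add_left, hbil.add_right, hbil.smul_left, hbil.smul_right, polar_sub_left Q hbil,
      polar_sub_right Q hbil, p11, p12, p13, p21, p22, p23, p31, p32, p33, g11, h11, g12,
      h12, g21, h21, g22, h22, g31, h31, g32, h32, pf11, pf22, hp, hp'] at h0
    exact one_ne_zero (by linear_combination h0)

theorem dual_exists (Q : (κ → F) → F)
    (hbil : Cfsg.Geo.IsBilinearForm (QuadraticMap.polar Q))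
    (hnd : Cfsg.Geo.IsNondegenerateForm (QuadraticMap.polar Q)) {k : ℕ} (e : Fin k → κ → F)
    (hli : LinearIndependent F e) (i : Fin k) :
    ∃ f : κ → F, QuadraticMap.polar Q (e i) f = 1 ∧
      ∀ j, j ≠ i → QuadraticMap.polar Q (e j) f = 0 := by
  classical
  have hni : e i ∉ Submodule.span F (e '' {j | j ≠ i}) :=
    hli.notMem_span_image (by simp)
  have hnle : ¬ perp Q hbil (Submodule.span F (e '' {j | j ≠ i}))
      ≤ perp Q hbil (Submodule.span F {e i}) := by
    intro hle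
    have h1 := perp_anti Q hbil hle
    rw [perp_perp Q hbil hnd, perp_perp Q hbil hnd] at h1
    exact hni (h1 (Submodule.mem_span_singleton_self _))
  obtain ⟨f, hfX, hfi⟩ := SetLike.not_le_iff_exists.mp hnle
  have hne : QuadraticMap.polar Q (e i) f ≠ 0 := by
    intro h0
    apply hfi
    apply (mem_perp Q hbil _ f).mpr
    intro w hw
    obtain ⟨c, rfl⟩ := Submodule.mem_span_singleton.mp hw
    rw [hbil.smul_left, h0, mul_zero]
  refine ⟨(QuadraticMap.polar Q (e i) f)⁻¹ • f, ?_, ?_⟩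
  · rw [hbil.smul_right, inv_mul_cancel₀ hne]
  · intro j hj
    rw [hbil.smul_right, (mem_perp Q hbil _ f).mp hfX (e j)
      (Submodule.subset_span ⟨j, hj, rfl⟩), mul_zero]

theorem singularize (Q : (κ → F) → F)
    (hsm : ∀ (c : F) (v : κ → F), Q (c • v) = c ^ 2 * Q v)
    (hbil : Cfsg.Geo.IsBilinearForm (QuadraticMap.polar Q)) (e f : κ → F) (qe : Q e = 0)
    (hef : QuadraticMap.polar Q e f = 1) : Q (f - Q f • e) = 0 := by
  rw [sub_eq_add_neg, ← neg_smul, Q_add Q, hsm, qe, hbil.smul_right, QuadraticMap.polar_comm,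
    hef]
  ring

end elems

section glue
variable {F : Type*} [Field F] [Fintype F] {κ : Type} [Fintype κ] [DecidableEq κ]

theorem omega_mem_isom (Q : (κ → F) → F) (g : Matrix.GeneralLinearGroup κ F)
    (hg : g ∈ Cfsg.Geo.omegaGL Q) : g ∈ Cfsg.isometryGroup F Q := by
  obtain ⟨y, -, rfl⟩ := hg
  exact y.2

theorem img_mono (g : Matrix.GeneralLinearGroup κ F) {U U' : Submodule F (κ → F)}
    (h : U ≤ U') : img g U ≤ img g U' :=
  Submodule.map_mono h

theorem img_eq (g : Matrix.GeneralLinearGroup κ F) (U : Submodule F (κ → F)) :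
    img g U = U.map (Matrix.toLin' (g : Matrix κ κ F)) := rfl

end glue

end Cfsg.Agent.Lib.Helper9.Family
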