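import Mathlib
import Cfsg.Prelude.Def_Sporadic_a
import Cfsg.Agent.Lib.Helper9.Leech
import Cfsg.Agent.Lib.Helper9.Golay2

set_option autoImplicit false

namespace Cfsg.Agent.Lib.Helper9

open Cfsg

theorem mem_leechLattice_iff (x : GolayPt → ℤ) : x ∈ leechLattice ↔ LeechCond x :=
  ⟨leechCond_of_mem_lattice, fun h => AddSubgroup.subset_closure (mem_of_leechCond h)⟩

/-- The 0/1 integer lift of a binary word. -/
def lift01 (c : GolayPt → ZMod 2) : GolayPt → ℤ := fun i => ((c i).val : ℤ)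

/-- Twice the 0/1 integer lift of a binary word. -/
def dbl (c : GolayPt → ZMod 2) : GolayPt → ℤ := fun i => 2 * ((c i).val : ℤ)

theorem zmod2_val_cases (a : ZMod 2) : (a = 0 ∧ a.val = 0) ∨ (a = 1 ∧ a.val = 1) := by
  revert a; decide

theorem sum_lift01 (c : GolayPt → ZMod 2) : ∑ i, lift01 c i = ((Gen.sp c).card : ℤ) := by
  unfold Gen.sp lift01
  rw [Finset.card_filter]
  push_cast
  apply Finset.sum_congr rfl
  intro i _
  rcases zmod2_val_cases (c i) with ⟨h, h'⟩ | ⟨h, h'⟩
  · rw [h', if_neg (by rw [h]; simp)]; simp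
  · rw [h', if_pos (by rw [h]; decide)]; simp

theorem hbit_dbl (c : GolayPt → ZMod 2) : hbit (dbl c) = c := by
  funext i
  unfold hbit dbl
  rw [Int.mul_ediv_cancel_left _ (by norm_num : (2 : ℤ) ≠ 0)]
  simp

theorem dbl_mem (c : GolayPt → ZMod 2) (hc : c ∈ golayCode) : dbl c ∈ leechLattice := by
  rw [mem_leechLattice_iff]
  refine ⟨0, fun i => ?_, ?_, ?_⟩
  · simp [Int.ModEq, dbl]
  · have h1 : ∑ i, dbl c i = 2 * ∑ i, lift01 c i := by
      unfold dbl lift01
      rw [Finset.mul_sum]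
    rw [h1, sum_lift01]
    obtain ⟨k, hk⟩ := golay_four_dvd c hc
    rw [Gen.hammingNorm_eq_card_sp] at hk
    rw [hk]
    push_cast
    simp only [Int.ModEq]
    omega
  · rw [hbit_dbl]; exact hc

/-- The vector `(-3, 1, ..., 1)` (with `-3` at the extra point). -/
def lam0 : GolayPt → ℤ := fun i => match i with
  | none => -3
  | some _ => 1

theorem lam0_mem : lam0 ∈ leechLattice := by
  rw [mem_leechLattice_iff]
  refine ⟨1, ?_, ?_, ?_⟩
  · intro i
    cases i with
    | none => show (-3 : ℤ) ≡ 1 [ZMOD 2]; decide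
    | some j => show (1 : ℤ) ≡ 1 [ZMOD 2]; rfl
  · decide
  · have : hbit lam0 = 0 := by
      funext i
      cases i with
      | none => show (((-3 : ℤ) / 2 : ℤ) : ZMod 2) = 0; decide
      | some j => show (((1 : ℤ) / 2 : ℤ) : ZMod 2) = 0; decide
    rw [this]; exact Submodule.zero_mem _

end Cfsg.Agent.Lib.Helper9
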