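import Mathlib
import Cfsg.Prelude.Def_Sporadic_a
import Cfsg.Agent.Lib.Helper9.Leech2

set_option autoImplicit false

namespace Cfsg.Agent.Lib.Helper9

open Cfsg

/-- Indices of the images of the generators under the inversion of the projective line. -/
def invCoef : List ℕ := [4012, 1146, 508, 683, 946, 2503, 2006, 2322, 1881, 565, 2652, 3808, 1607, 457, 2158, 3381, 1156, 2719, 1327, 2913, 3225, 3315, 3850]

theorem qrWord_projInv : ∀ t : ZMod 23, invCoef.getD t.val 0 < 4096 ∧
    (fun i => qrWord t (projInv i)) = wordOf (cw (invCoef.getD t.val 0)) := by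
  decide +kernel

theorem projInv_mem (w : GolayPt → ZMod 2) (hw : w ∈ golayCode) :
    (fun i => w (projInv i)) ∈ golayCode := by
  unfold golayCode at hw
  induction hw using Submodule.span_induction with
  | mem x hx =>
    rcases hx with ⟨t, rfl⟩ | hx
    · rw [(qrWord_projInv t).2]; exact wordOf_cw_mem _
    · rw [Set.mem_singleton_iff] at hx
      subst hx
      exact one_mem_golayCode
  | zero => exact Submodule.zero_mem _
  | add x y _ _ hx hy => exact Submodule.add_mem _ hx hy
  | smul a x _ hx => exact Submodule.smul_mem _ a hx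

theorem projInv_invol : ∀ i : GolayPt, projInv (projInv i) = i := by decide

theorem qr0_projInv : ∀ i : GolayPt, qrWord 0 (projInv i) = qrWord 0 i + 1 := by decide

theorem qr0_mem : qrWord 0 ∈ golayCode := Submodule.subset_span (Or.inl ⟨0, rfl⟩)

theorem leechCond_perm (π : Equiv.Perm GolayPt)
    (hπ : ∀ w ∈ golayCode, (fun i => w (π i)) ∈ golayCode) {x : GolayPt → ℤ}
    (hx : LeechCond x) : LeechCond (fun i => x (π i)) := by
  obtain ⟨m, hpar, hsum, hh⟩ := hx
  refine ⟨m, fun i => hpar (π i), ?_, hπ _ hh⟩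
  rw [Equiv.sum_comp π x]
  exact hsum

/-- Sign change on the support of a binary word. -/
def sgn (c : GolayPt → ZMod 2) (x : GolayPt → ℤ) : GolayPt → ℤ :=
  fun i => if c i = 0 then x i else - x i

theorem lift01_mul_sum (c h : GolayPt → ZMod 2) :
    ∑ i, lift01 c i * lift01 h i = ((Gen.sp c ∩ Gen.sp h).card : ℤ) := by
  have e : ∀ i, lift01 c i * lift01 h i = lift01 (c * h) i := by
    intro i
    unfold lift01
    simp only [Pi.mul_apply]
    rcases zmod2_val_cases (c i) with ⟨h1, h1'⟩ | ⟨h1, h1'⟩ <;>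
      rcases zmod2_val_cases (h i) with ⟨h2, h2'⟩ | ⟨h2, h2'⟩ <;>
      rw [h1', h2', h1, h2] <;> decide
  simp_rw [e]
  rw [sum_lift01]
  congr 2
  ext i
  rw [Finset.mem_inter, Gen.mem_sp, Gen.mem_sp, Gen.mem_sp, Pi.mul_apply]
  rcases zmod2_val_cases (c i) with ⟨h1, h1'⟩ | ⟨h1, h1'⟩ <;>
    rcases zmod2_val_cases (h i) with ⟨h2, h2'⟩ | ⟨h2, h2'⟩ <;>
    rw [h1, h2] <;> decide

theorem four_dvd_sum {x : GolayPt → ℤ} (hx : LeechCond x) {c : GolayPt → ZMod 2}
    (hc : c ∈ golayCode) : (4 : ℤ) ∣ ∑ i, lift01 c i * x i := by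
  obtain ⟨m, hpar, hsum, hh⟩ := hx
  have e : ∀ i, lift01 c i * x i = lift01 c i * (x i - m % 2 - 2 * lift01 (hbit x) i)
      + (m % 2) * lift01 c i + 2 * (lift01 c i * lift01 (hbit x) i) := by
    intro i; ring
  simp_rw [e]
  rw [Finset.sum_add_distrib, Finset.sum_add_distrib, ← Finset.mul_sum, ← Finset.mul_sum,
    sum_lift01, lift01_mul_sum]
  have h1 : (4 : ℤ) ∣ ∑ i, lift01 c i * (x i - m % 2 - 2 * lift01 (hbit x) i) := by
    apply Finset.dvd_sum
    intro i _
    apply Dvd.dvd.mul_left
    have h2 : lift01 (hbit x) i = (x i / 2) % 2 := by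
      unfold lift01 hbit
      rw [ZMod.val_intCast]
      rfl
    rw [h2]
    have := hpar i
    simp only [Int.ModEq] at this
    omega
  have h2 : (4 : ℤ) ∣ ((Gen.sp c).card : ℤ) := by
    have := golay_four_dvd c hc
    rw [Gen.hammingNorm_eq_card_sp] at this
    exact_mod_cast this
  have h3 : (2 : ℤ) ∣ ((Gen.sp c ∩ Gen.sp (hbit x)).card : ℤ) := by
    have := golay_orth c hc (hbit x) hh
    rw [Gen.dot_eq, ZMod.natCast_eq_zero_iff_even] at this
    exact_mod_cast this.two_dvd
  obtain ⟨a, ha⟩ := h1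
  obtain ⟨b, hb⟩ := h2
  obtain ⟨d, hd⟩ := h3
  rw [ha, hb, hd]
  exact ⟨a + m % 2 * b + d, by ring⟩

theorem zmod2_neg_sub : ∀ a : ZMod 2, -a - 1 = a + 1 := by decide

theorem zmod2_neg : ∀ a : ZMod 2, -a = a := by decide

theorem leechCond_sgn {c : GolayPt → ZMod 2} (hc : c ∈ golayCode) {x : GolayPt → ℤ}
    (hx : LeechCond x) : LeechCond (sgn c x) := by
  have h4 := four_dvd_sum hx hc
  obtain ⟨m, hpar, hsum, hh⟩ := hx
  refine ⟨m, fun i => ?_, ?_, ?_⟩
  · unfold sgn
    have := hpar i
    simp only [Int.ModEq] at this ⊢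
    split_ifs <;> omega
  · have e : ∀ i, sgn c x i = x i - 2 * (lift01 c i * x i) := by
      intro i
      unfold sgn lift01
      rcases zmod2_val_cases (c i) with ⟨h1, h1'⟩ | ⟨h1, h1'⟩
      · rw [if_pos h1, h1']; simp
      · rw [if_neg (by rw [h1]; decide), h1']; push_cast; ring
    simp_rw [e]
    rw [Finset.sum_sub_distrib, ← Finset.mul_sum]
    obtain ⟨a, ha⟩ := h4
    rw [ha]
    simp only [Int.ModEq] at hsum ⊢
    omega
  · by_cases hm : m % 2 = 1
    · have : hbit (sgn c x) = hbit x + c := by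
        funext i
        have h1 := hpar i
        simp only [Int.ModEq] at h1
        unfold hbit sgn
        rcases zmod2_val_cases (c i) with ⟨h2, _⟩ | ⟨h2, _⟩
        · simp only [Pi.add_apply, h2, if_true, add_zero]
        · have h3 : (-x i) / 2 = -(x i / 2) - 1 := by omega
          rw [if_neg (by rw [h2]; decide), h3]
          simp only [Pi.add_apply, h2]
          push_cast
          exact zmod2_neg_sub _
      rw [this]
      exact Submodule.add_mem _ hh hc
    · have : hbit (sgn c x) = hbit x := by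
        funext i
        have h1 := hpar i
        simp only [Int.ModEq] at h1
        unfold hbit sgn
        rcases zmod2_val_cases (c i) with ⟨h2, _⟩ | ⟨h2, _⟩
        · simp only [h2, if_true]
        · have h3 : (-x i) / 2 = -(x i / 2) := by omega
          rw [if_neg (by rw [h2]; decide), h3]
          push_cast
          exact zmod2_neg _
      rw [this]
      exact hh

/-- A monomial map squaring to negation. -/
def G0 (x : GolayPt → ℤ) : GolayPt → ℤ := sgn (qrWord 0) (fun i => x (projInv i))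

theorem G0_mem {x : GolayPt → ℤ} (hx : x ∈ leechLattice) : G0 x ∈ leechLattice := by
  rw [mem_leechLattice_iff] at hx ⊢
  exact leechCond_sgn qr0_mem (leechCond_perm projInv projInv_mem hx)

theorem G0_G0 (x : GolayPt → ℤ) : G0 (G0 x) = -x := by
  funext i
  unfold G0 sgn
  simp only [Pi.neg_apply]
  rw [projInv_invol, qr0_projInv]
  rcases zmod2_val_cases (qrWord 0 i) with ⟨h2, _⟩ | ⟨h2, _⟩
  · rw [h2]
    simp
  · rw [h2]
    have : ((1 : ZMod 2) + 1 = 0) := by decide
    simp [this]

theorem G0_add (x y : GolayPt → ℤ) : G0 (x + y) = G0 x + G0 y := by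
  funext i
  unfold G0 sgn
  simp only [Pi.add_apply]
  split_ifs <;> ring

theorem G0_sqNorm (x : GolayPt → ℤ) : sqNorm (G0 x) = sqNorm x := by
  unfold sqNorm
  have e : ∀ i, G0 x i ^ 2 = (fun j => x j ^ 2) (projInv i) := by
    intro i
    unfold G0 sgn
    split_ifs <;> ring
  simp_rw [e]
  exact Equiv.sum_comp projInv (fun j => x j ^ 2)

end Cfsg.Agent.Lib.Helper9
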