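import Mathlib
import Cfsg.Prelude.Def_Sporadic_a
import Cfsg.Prelude.Def_SporadicCombinatorics
import Cfsg.Agent.Lib.Helper9.M24Syl

set_option autoImplicit false

open scoped Pointwise

namespace Cfsg.Agent.Lib.Helper9

open Cfsg

/-- Decoding of an index list packed five bits per entry. -/
def unpackL (n : ℕ) : List ℕ := (List.range 24).map (fun i => (n >>> (5 * i)) &&& 31)

/-- Packing of an index list, five bits per entry. -/
def packL (l : List ℕ) : ℕ := l.foldr (fun v acc => v + 32 * acc) 0

/-- The list of index lists stored in a big number, 120 bits per list. -/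
def listOfBig (B N : ℕ) : List (List ℕ) := (List.range N).map (fun j => unpackL (ent B 120 j))

theorem length_listOfBig (B N : ℕ) : (listOfBig B N).length = N := by
  unfold listOfBig
  rw [List.length_map, List.length_range]

theorem mem_listOfBig {B N : ℕ} {l : List ℕ} :
    l ∈ listOfBig B N ↔ ∃ j < N, unpackL (ent B 120 j) = l := by
  unfold listOfBig
  rw [List.mem_map]
  constructor
  · rintro ⟨j, hj, rfl⟩; exact ⟨j, List.mem_range.mp hj, rfl⟩
  · rintro ⟨j, hj, rfl⟩; exact ⟨j, List.mem_range.mpr hj, rfl⟩

theorem listOfBig_all (B N : ℕ) (p : List ℕ → Bool)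
    (h : allBelow (fun j => p (unpackL (ent B 120 j))) N = true) :
    ∀ l ∈ listOfBig B N, p l = true := by
  intro l hl
  obtain ⟨j, hj, rfl⟩ := mem_listOfBig.mp hl
  exact allBelow_spec _ _ h j hj

theorem listOfBig_nodup (B N : ℕ)
    (h1 : allBelow (fun j => decide (ent B 120 j < ent B 120 (j + 1))) (N - 1) = true)
    (h2 : allBelow (fun j => packL (unpackL (ent B 120 j)) == ent B 120 j) N = true) :
    (listOfBig B N).Nodup := by
  unfold listOfBig
  apply List.Nodup.map_on _ List.nodup_range
  intro i hi j hj h
  rw [List.mem_range] at hi hj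
  have hm := allBelow_spec _ _ h1
  have hp := allBelow_spec _ _ h2
  have hi' := hp i hi
  have hj' := hp j hj
  rw [beq_iff_eq] at hi' hj'
  have e : ent B 120 i = ent B 120 j := by rw [← hi', ← hj', h]
  exact inj_of_mono (fun j => ent B 120 j) N
    (fun k hk => by simpa using hm k (by omega)) i hi j hj e

end Cfsg.Agent.Lib.Helper9
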