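import Mathlib
import Cfsg.Prelude.Def_Sporadic_a
import Cfsg.Prelude.Def_SporadicCombinatorics
import Cfsg.Agent.Lib.Helper9.M24Pack

set_option autoImplicit false

open scoped Pointwise

namespace Cfsg.Agent.Lib.Helper9

open Cfsg

/-- A permutation of the 24 points, regarded as a point acted on by conjugation. -/
structure CP where
  /-- the underlying permutation -/
  p : Equiv.Perm GolayPt

instance : MulAction (Equiv.Perm GolayPt) CP where
  smul g x := ⟨g * x.p * g⁻¹⟩
  one_smul x := by
    obtain ⟨t⟩ := x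
    show CP.mk (1 * t * 1⁻¹) = CP.mk t
    rw [one_mul, inv_one, mul_one]
  mul_smul g h x := by
    obtain ⟨t⟩ := x
    have e : g * h * t * (g * h)⁻¹ = g * (h * t * h⁻¹) * g⁻¹ := by group
    show CP.mk (g * h * t * (g * h)⁻¹) = CP.mk (g * (h * t * h⁻¹) * g⁻¹)
    rw [e]

theorem CP_smul (g t : Equiv.Perm GolayPt) : g • (⟨t⟩ : CP) = ⟨g * t * g⁻¹⟩ := rfl

theorem mem_stab_CP {g t : Equiv.Perm GolayPt} :
    g ∈ MulAction.stabilizer (Equiv.Perm GolayPt) (⟨t⟩ : CP) ↔ g * t = t * g := by
  rw [MulAction.mem_stabilizer_iff, CP_smul]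
  constructor
  · intro h
    have := congrArg CP.p h
    simp only at this
    calc g * t = g * t * g⁻¹ * g := by group
      _ = t * g := by rw [this]
  · intro h
    congr 1
    rw [h]
    group

/-- Schreier check for tables of packed permutations under conjugation. -/
def schrC (gens : List (List ℕ)) (X P D N r i : ℕ) : Bool :=
  isPermL (unpackL (ent X 120 i)) && (packL (unpackL (ent X 120 i)) == ent X 120 i) &&
  (i == r ||
    (decide (ent P 24 i &&& 65535 < N) && decide (ent P 24 i >>> 16 < gens.length) &&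
     decide (ent D 8 (ent P 24 i &&& 65535) < ent D 8 i) &&
     compL (gens.getD (ent P 24 i >>> 16) []) (unpackL (ent X 120 (ent P 24 i &&& 65535))) ==
       compL (unpackL (ent X 120 i)) (gens.getD (ent P 24 i >>> 16) [])))

def monoC (X i : ℕ) : Bool := decide (ent X 120 i < ent X 120 (i + 1))

theorem orbC_lb (K : Subgroup (Equiv.Perm GolayPt)) (gens : List (List ℕ))
    (hgens : ∀ l ∈ gens, isPermL l = true ∧ permL l ∈ K) (X P D N r : ℕ)
    (h1 : allBelow (schrC gens X P D N r) N = true)
    (h2 : allBelow (monoC X) (N - 1) = true) :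
    N ≤ (orbS K (⟨permL (unpackL (ent X 120 r))⟩ : CP)).ncard := by
  have h1' := allBelow_spec _ _ h1
  have h2' := allBelow_spec _ _ h2
  apply orbit_lb_core K (fun i => (⟨permL (unpackL (ent X 120 i))⟩ : CP)) (fun i => ent X 120 i) N r
    (fun j => permL (gens.getD j [])) (fun i => ent P 24 i &&& 65535) (fun i => ent P 24 i >>> 16)
    (fun i => ent D 8 i)
  · intro i hi
    have := h1' i hi
    unfold schrC at this
    simp only [Bool.and_eq_true, Bool.or_eq_true, beq_iff_eq, decide_eq_true_eq] at this
    rcases this.2 with h | ⟨⟨⟨hp, hg⟩, hd⟩, hs⟩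
    · exact Or.inl h
    · right
      have hmem := getD_mem_of_lt hg
      refine ⟨hp, hd, (hgens _ hmem).2, ?_⟩
      have hpp := h1' (ent P 24 i &&& 65535) hp
      unfold schrC at hpp
      simp only [Bool.and_eq_true, beq_iff_eq] at hpp
      rw [CP_smul, permL_conj (hgens _ hmem).1 hpp.1.1 this.1.1 hs]
  · intro i hi j hj hij
    have hi' := h1' i hi
    have hj' := h1' j hj
    unfold schrC at hi' hj'
    simp only [Bool.and_eq_true, beq_iff_eq] at hi' hj'
    have e := permL_inj hi'.1.1 hj'.1.1 (congrArg CP.p hij)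
    show ent X 120 i = ent X 120 j
    rw [← hi'.1.2, ← hj'.1.2, e]
  · intro i hi
    have := h2' i (by omega)
    unfold monoC at this
    simpa using this

/-- Exact size of a conjugation orbit and exact order of the centraliser, from certificates. -/
theorem orbC_exact (K : Subgroup (Equiv.Perm GolayPt)) (cardK : ℕ) (hcard : Nat.card K = cardK)
    (memK : List ℕ → Bool) (hmemK : ∀ l, isM24L l = true → memK l = true → permL l ∈ K)
    (gens : List (List ℕ)) (hgens : gens.all (fun l => isM24L l && memK l) = true)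
    (X P D N r : ℕ) (t : List ℕ) (ht : isPermL t = true) (hr : unpackL (ent X 120 r) = t)
    (h1 : allBelow (schrC gens X P D N r) N = true)
    (h2 : allBelow (monoC X) (N - 1) = true)
    (levels : List (ℕ × List (List ℕ)))
    (h3 : chainChk (fun l => memK l && compL l t == compL t l) levels [] = true)
    (h4 : N * chainProd levels = cardK) :
    (orbS K (⟨permL t⟩ : CP)).ncard = N ∧
      Nat.card ↥(K ⊓ MulAction.stabilizer (Equiv.Perm GolayPt) (⟨permL t⟩ : CP)) =
        chainProd levels := by
  have hgens' : ∀ l ∈ gens, isPermL l = true ∧ permL l ∈ K := by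
    intro l hl
    rw [List.all_eq_true] at hgens
    have := hgens l hl
    rw [Bool.and_eq_true] at this
    exact ⟨isPermL_of_isM24L this.1, hmemK l this.1 this.2⟩
  have ha := orbC_lb K gens hgens' X P D N r h1 h2
  rw [hr] at ha
  have hs := chain_lb (K ⊓ MulAction.stabilizer (Equiv.Perm GolayPt) (⟨permL t⟩ : CP))
    (fun l => memK l && compL l t == compL t l) (by
      intro l hl hm
      rw [Bool.and_eq_true, beq_iff_eq] at hm
      refine ⟨hmemK l hl hm.1, ?_⟩
      apply mem_stab_CP.mpr
      rw [permL_mul (isPermL_of_isM24L hl) ht, permL_mul ht (isPermL_of_isM24L hl), hm.2]) levels []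
    (by simp) h3
  rw [fixS_nil, inf_top_eq] at hs
  exact orbS_exact K (⟨permL t⟩ : CP) N (chainProd levels) ha hs (h4.trans hcard.symm)

/-- Membership in a centraliser descriptor. -/
theorem memCent (K : Subgroup (Equiv.Perm GolayPt)) (memK : List ℕ → Bool)
    (hmemK : ∀ l, isM24L l = true → memK l = true → permL l ∈ K) (t : List ℕ)
    (ht : isPermL t = true) (l : List ℕ) (hl : isM24L l = true)
    (h : (memK l && compL l t == compL t l) = true) :
    permL l ∈ K ⊓ MulAction.stabilizer (Equiv.Perm GolayPt) (⟨permL t⟩ : CP) := by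
  rw [Bool.and_eq_true, beq_iff_eq] at h
  refine ⟨hmemK l hl h.1, ?_⟩
  apply mem_stab_CP.mpr
  rw [permL_mul (isPermL_of_isM24L hl) ht, permL_mul ht (isPermL_of_isM24L hl), h.2]

end Cfsg.Agent.Lib.Helper9
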