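import Mathlib
import Cfsg.Prelude.Def_Sporadic_a
import Cfsg.Prelude.Def_SporadicCombinatorics
import Cfsg.Agent.Lib.Helper9.M24Dod
import Cfsg.Agent.Lib.Helper9.M24Syl

set_option autoImplicit false

open scoped Pointwise

namespace Cfsg.Agent.Lib.Helper9

open Cfsg

/-- Number of `n < k` satisfying a Boolean predicate. -/
def cntB (P : ℕ → Bool) : ℕ → ℕ
  | 0 => 0
  | k + 1 => (if P k = true then 1 else 0) + cntB P k

theorem cntB_eq (P : ℕ → Bool) (k : ℕ) :
    cntB P k = ((Finset.range k).filter (fun n => P n = true)).card := by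
  induction k with
  | zero => simp [cntB]
  | succ k ih =>
    rw [cntB, ih, Finset.range_add_one, Finset.filter_insert]
    by_cases h : P k = true
    · rw [if_pos h, if_pos h, Finset.card_insert_of_notMem (by simp)]; omega
    · rw [if_neg h, if_neg h]; omega

theorem actM_lt {l : List ℕ} (hl : isPermL l = true) (m : ℕ) : actM l 0 m < 2 ^ 24 := by
  apply Nat.lt_pow_two_of_testBit
  intro j hj
  by_contra hcon
  have h : (actM l 0 m).testBit j = true := by simpa using hcon
  rw [testBit_actM] at h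
  obtain ⟨k, hk, -, hkj⟩ := h
  rw [isPermL_length hl] at hk
  have := getD_lt_of_isPermL hl hk
  omega

theorem smul_mset_eq_iff {l : List ℕ} (hl : isPermL l = true) {m : ℕ} (hm : m < 2 ^ 24) :
    permL l • mset m = mset m ↔ actM l 0 m = m := by
  rw [permL_smul_mset hl]
  constructor
  · intro h; exact mset_injOn (actM_lt hl m) hm h
  · intro h; rw [h]

theorem sameSet_of_obj_eq {l1 l2 : List ℕ} (hb1 : ∀ a ∈ l1, a < 2 ^ 24)
    (hb2 : ∀ a ∈ l2, a < 2 ^ 24) (h : obj l1 = obj l2) : sameSet l1 l2 = true := by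
  unfold sameSet
  simp only [Bool.and_eq_true, List.all_eq_true, List.contains_iff_mem]
  constructor
  · intro a ha
    have : mset a ∈ obj l2 := by rw [← h]; exact mem_obj.mpr ⟨a, ha, rfl⟩
    exact (mset_mem_obj_iff hb2 (hb1 a ha)).mp this
  · intro a ha
    have : mset a ∈ obj l1 := by rw [h]; exact mem_obj.mpr ⟨a, ha, rfl⟩
    exact (mset_mem_obj_iff hb1 (hb2 a ha)).mp this

theorem smul_obj_eq_iff {l : List ℕ} (hl : isPermL l = true) {L : List ℕ}
    (hb : ∀ a ∈ L, a < 2 ^ 24) :
    permL l • obj L = obj L ↔ sameSet (L.map (actM l 0)) L = true := by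
  rw [smul_obj hl]
  constructor
  · intro h
    apply sameSet_of_obj_eq _ hb h
    intro a ha
    obtain ⟨b, -, rfl⟩ := List.mem_map.mp ha
    exact actM_lt hl b
  · exact obj_eq_of_sameSet

section Table

variable {A : Type*}

/-- Counting the members of a tabulated set that satisfy a property. -/
theorem ncard_filter_table (S : Set A) (N : ℕ) (dec : ℕ → A) (c : ℕ → Bool)
    (hS : ∀ s, s ∈ S ↔ ∃ i < N, c i = true ∧ dec i = s)
    (hinj : ∀ i < N, ∀ j < N, dec i = dec j → i = j)
    (P : A → Prop) (b : ℕ → Bool) (hb : ∀ i < N, c i = true → (b i = true ↔ P (dec i))) :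
    {s | s ∈ S ∧ P s}.ncard = cntB (fun i => c i && b i) N := by
  have e : {s | s ∈ S ∧ P s} =
      dec '' ((Finset.range N).filter (fun i => (c i && b i) = true) : Set ℕ) := by
    ext s
    simp only [Set.mem_setOf_eq, Set.mem_image, Finset.coe_filter, Finset.mem_range,
      Bool.and_eq_true]
    constructor
    · rintro ⟨hs, hp⟩
      obtain ⟨i, hi, hc, rfl⟩ := (hS s).mp hs
      exact ⟨i, ⟨hi, hc, (hb i hi hc).mpr hp⟩, rfl⟩
    · rintro ⟨i, ⟨hi, hc, hbi⟩, rfl⟩
      exact ⟨(hS _).mpr ⟨i, hi, hc, rfl⟩, (hb i hi hc).mp hbi⟩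
  rw [e, Set.ncard_image_of_injOn, Set.ncard_coe_finset, cntB_eq]
  intro i hi j hj hij
  simp only [Finset.coe_filter, Finset.mem_range, Set.mem_setOf_eq] at hi hj
  exact hinj i hi.1 j hj.1 hij

/-- A set that is the bijective image of a table. -/
theorem mem_iff_table (S : Set A) (hfin : S.Finite) (N : ℕ) (dec : ℕ → A)
    (hmem : ∀ i < N, dec i ∈ S) (hinj : ∀ i < N, ∀ j < N, dec i = dec j → i = j)
    (hcard : S.ncard ≤ N) : ∀ s, s ∈ S ↔ ∃ i < N, (fun _ : ℕ => true) i = true ∧ dec i = s := by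
  have hsub : dec '' ((Finset.range N : Finset ℕ) : Set ℕ) ⊆ S := by
    rintro _ ⟨i, hi, rfl⟩
    exact hmem i (by simpa using hi)
  have hn : (dec '' ((Finset.range N : Finset ℕ) : Set ℕ)).ncard = N := by
    rw [Set.ncard_image_of_injOn, Set.ncard_coe_finset, Finset.card_range]
    intro i hi j hj hij
    exact hinj i (by simpa using hi) j (by simpa using hj) hij
  have heq := Set.eq_of_subset_of_ncard_le hsub (by rw [hn]; exact hcard) hfin
  intro s
  rw [← heq]
  simp only [Set.mem_image, Finset.coe_range, Set.mem_Iio, true_and]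

end Table

/-! ### Octads and dodecads -/

theorem cw_chk : allBelow (fun n => decide (cw n < 2 ^ 24) && cw n >>> 12 == n) 4096 = true := by
  decide +kernel

theorem cw_lt' {n : ℕ} (hn : n < 4096) : cw n < 2 ^ 24 := by
  have := allBelow_spec _ _ cw_chk n hn
  simp only [Bool.and_eq_true, decide_eq_true_eq] at this
  exact this.1

theorem cw_inj' {i j : ℕ} (hi : i < 4096) (hj : j < 4096) (h : cw i = cw j) : i = j := by
  have h1 := allBelow_spec _ _ cw_chk i hi
  have h2 := allBelow_spec _ _ cw_chk j hj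
  simp only [Bool.and_eq_true, decide_eq_true_eq, beq_iff_eq] at h1 h2
  rw [← h1.2, ← h2.2, h]

theorem octads_count {l : List ℕ} (hl : isPermL l = true) :
    {o : Finset GolayPt | o ∈ octads ∧ permL l • o = o}.ncard =
      cntB (fun n => pc 24 (cw n) == 8 && actM l 0 (cw n) == cw n) 4096 := by
  apply ncard_filter_table octads 4096 (fun n => mset (cw n)) (fun n => pc 24 (cw n) == 8)
  · intro s
    rw [mem_octads_iff]
    constructor
    · rintro ⟨n, hn, hpc, rfl⟩; exact ⟨n, hn, by simpa using hpc, rfl⟩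
    · rintro ⟨n, hn, hpc, rfl⟩; exact ⟨n, hn, by simpa using hpc, rfl⟩
  · intro i hi j hj h
    exact cw_inj' hi hj (mset_injOn (cw_lt' hi) (cw_lt' hj) h)
  · intro i hi _
    rw [beq_iff_eq]
    exact (smul_mset_eq_iff hl (cw_lt' hi)).symm

theorem dodecads_count {l : List ℕ} (hl : isPermL l = true) :
    {o : Finset GolayPt | o ∈ dodecads ∧ permL l • o = o}.ncard =
      cntB (fun n => pc 24 (cw n) == 12 && actM l 0 (cw n) == cw n) 4096 := by
  apply ncard_filter_table dodecads 4096 (fun n => mset (cw n)) (fun n => pc 24 (cw n) == 12)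
  · intro s
    rw [mem_dodecads_iff]
    constructor
    · rintro ⟨n, hn, hpc, rfl⟩; exact ⟨n, hn, by simpa using hpc, rfl⟩
    · rintro ⟨n, hn, hpc, rfl⟩; exact ⟨n, hn, by simpa using hpc, rfl⟩
  · intro i hi j hj h
    exact cw_inj' hi hj (mset_injOn (cw_lt' hi) (cw_lt' hj) h)
  · intro i hi _
    rw [beq_iff_eq]
    exact (smul_mset_eq_iff hl (cw_lt' hi)).symm

/-! ### Trios and sextets -/

theorem tableK_inj (k X N r : ℕ) (gens : List (List ℕ)) (P D : ℕ)
    (h1 : allBelow (schrK k gens X P D N r) N = true)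
    (h2 : allBelow (monoK k X) (N - 1) = true) :
    ∀ i < N, ∀ j < N, obj (decK k X i) = obj (decK k X j) → i = j := by
  have h1' := allBelow_spec _ _ h1
  have h2' := allBelow_spec _ _ h2
  intro i hi j hj hij
  have hi' := h1' i hi
  have hj' := h1' j hj
  unfold schrK at hi' hj'
  rw [Bool.and_eq_true] at hi' hj'
  have e := obj_inj hi'.1 hj'.1 (decK_lt k X i) (decK_lt k X j) hij
  apply inj_of_mono (fun i => num (decK k X i)) N _ i hi j hj (by rw [e])
  intro t ht
  have := h2' t (by omega)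
  unfold monoK at this
  simpa using this

theorem trioA_mono : allBelow (monoK 3 trioA_X) 3794 = true := by decide +kernel

theorem sexA_mono : allBelow (monoK 6 sexA_X) 1770 = true := by decide +kernel

theorem sexA_mem : ∀ i < 1771, obj (decK 6 sexA_X i) ∈ orbS M24 (obj S0l) := by
  have h := orbK_mem M24 6 gensM
    (gens_ok_of_all (memK := fun _ => true) (fun l hl _ => permL_mem_M24 hl) gensM_ok)
    sexA_X sexA_P sexA_D 1771 776 sexA_schr
  rw [sexA_dec] at h
  exact h

theorem trios_count {l : List ℕ} (hl : isPermL l = true) :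
    {T : Finset (Finset GolayPt) | T ∈ trios ∧ permL l • T = T}.ncard =
      cntB (fun i => sameSet ((decK 3 trioA_X i).map (actM l 0)) (decK 3 trioA_X i)) 3795 := by
  have hinj := tableK_inj 3 trioA_X 3795 344 gensM trioA_P trioA_D trioA_schr trioA_mono
  have hS := mem_iff_table trios trios_finite 3795 (fun i => obj (decK 3 trioA_X i))
    (fun i hi => by rw [← trios_eq_orbit]; exact trioA_mem i hi) hinj (by rw [ncard_trios])
  have := ncard_filter_table trios 3795 (fun i => obj (decK 3 trioA_X i)) (fun _ => true) hS hinj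
    (fun T => permL l • T = T)
    (fun i => sameSet ((decK 3 trioA_X i).map (actM l 0)) (decK 3 trioA_X i))
    (fun i _ _ => (smul_obj_eq_iff hl (decK_lt 3 trioA_X i)).symm)
  simpa using this

theorem sextets_count {l : List ℕ} (hl : isPermL l = true) :
    {S : Finset (Finset GolayPt) | S ∈ sextets ∧ permL l • S = S}.ncard =
      cntB (fun i => sameSet ((decK 6 sexA_X i).map (actM l 0)) (decK 6 sexA_X i)) 1771 := by
  have hinj := tableK_inj 6 sexA_X 1771 776 gensM sexA_P sexA_D sexA_schr sexA_mono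
  have hS := mem_iff_table sextets sextets_finite 1771 (fun i => obj (decK 6 sexA_X i))
    (fun i hi => by rw [← sextets_eq_orbit]; exact sexA_mem i hi) hinj (by rw [ncard_sextets])
  have := ncard_filter_table sextets 1771 (fun i => obj (decK 6 sexA_X i)) (fun _ => true) hS hinj
    (fun T => permL l • T = T)
    (fun i => sameSet ((decK 6 sexA_X i).map (actM l 0)) (decK 6 sexA_X i))
    (fun i _ _ => (smul_obj_eq_iff hl (decK_lt 6 sexA_X i)).symm)
  simpa using this

/-! ### Conjugation invariance -/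

theorem ncard_fixed_conj {A : Type*} [MulAction (Equiv.Perm GolayPt) A] (S : Set A)
    (hS : ∀ k ∈ M24, ∀ s ∈ S, k • s ∈ S) (k : Equiv.Perm GolayPt) (hk : k ∈ M24)
    (g : Equiv.Perm GolayPt) :
    {s | s ∈ S ∧ (k * g * k⁻¹) • s = s}.ncard = {s | s ∈ S ∧ g • s = s}.ncard := by
  have e : {s | s ∈ S ∧ (k * g * k⁻¹) • s = s} = (fun s => k • s) '' {s | s ∈ S ∧ g • s = s} := by
    ext s
    constructor
    · rintro ⟨hs, hfix⟩
      refine ⟨k⁻¹ • s, ⟨hS _ (M24.inv_mem hk) s hs, ?_⟩, smul_inv_smul k s⟩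
      rw [mul_smul, mul_smul] at hfix
      show g • k⁻¹ • s = k⁻¹ • s
      rw [eq_inv_smul_iff]
      exact hfix
    · rintro ⟨t, ⟨ht, hfix⟩, rfl⟩
      exact ⟨hS k hk t ht, by rw [mul_smul, mul_smul, inv_smul_smul, hfix]⟩
  rw [e, Set.ncard_image_of_injective _ (MulAction.injective k)]

end Cfsg.Agent.Lib.Helper9
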