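import Mathlib
import Cfsg.Prelude.Def_Sporadic_a
import Cfsg.Prelude.Def_SporadicCombinatorics
import Cfsg.Agent.Lib.Helper9.M24Pack

set_option autoImplicit false

open scoped Pointwise

namespace Cfsg.Agent.Lib.Helper9

open Cfsg

/-- The elements of a Sylow 3-subgroup. -/
def L27 : List (List ℕ) :=
  [[20, 15, 16, 9, 11, 19, 13, 0, 6, 10, 3, 22, 21, 8, 12, 18, 23, 5, 1, 17, 7, 14, 4, 2],
   [7, 4, 12, 9, 15, 19, 22, 20, 13, 10, 3, 6, 23, 18, 17, 1, 5, 21, 8, 16, 0, 14, 11, 2],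
   [0, 11, 17, 9, 4, 19, 6, 7, 22, 10, 3, 13, 5, 1, 16, 8, 21, 23, 18, 12, 20, 14, 15, 2],
   [20, 8, 2, 3, 11, 21, 13, 0, 18, 9, 10, 15, 17, 22, 14, 4, 12, 16, 1, 19, 7, 23, 6, 5],
   [0, 11, 19, 3, 6, 21, 18, 7, 15, 9, 10, 13, 16, 1, 2, 22, 17, 12, 4, 14, 20, 23, 8, 5],
   [7, 6, 14, 3, 8, 21, 15, 20, 13, 9, 10, 18, 12, 4, 19, 1, 16, 17, 22, 2, 0, 23, 11, 5],
   [7, 6, 21, 10, 15, 16, 22, 20, 11, 3, 9, 18, 19, 4, 5, 13, 14, 2, 8, 23, 0, 17, 1, 12],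
   [20, 15, 23, 10, 1, 16, 11, 0, 18, 3, 9, 22, 2, 8, 21, 4, 19, 14, 13, 5, 7, 17, 6, 12],
   [0, 1, 5, 10, 6, 16, 18, 7, 22, 3, 9, 11, 14, 13, 23, 8, 2, 19, 4, 21, 20, 17, 15, 12],
   [7, 18, 17, 9, 8, 2, 15, 20, 11, 10, 3, 4, 21, 6, 16, 13, 23, 5, 22, 12, 0, 19, 1, 14],
   [0, 1, 16, 9, 18, 2, 4, 7, 15, 10, 3, 11, 23, 13, 12, 22, 5, 21, 6, 17, 20, 19, 8, 14],
   [20, 8, 12, 9, 1, 2, 11, 0, 4, 10, 3, 15, 5, 22, 17, 6, 21, 23, 13, 16, 7, 19, 18, 14],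
   [7, 18, 23, 10, 22, 17, 8, 20, 13, 3, 9, 4, 14, 6, 21, 1, 2, 19, 15, 5, 0, 12, 11, 16],
   [20, 22, 5, 10, 11, 17, 13, 0, 4, 3, 9, 8, 19, 15, 23, 6, 14, 2, 1, 21, 7, 12, 18, 16],
   [0, 11, 21, 10, 18, 17, 4, 7, 8, 3, 9, 13, 2, 1, 5, 15, 19, 14, 6, 23, 20, 12, 22, 16],
   [20, 8, 21, 10, 13, 12, 1, 0, 6, 3, 9, 15, 14, 22, 5, 18, 2, 19, 11, 23, 7, 16, 4, 17],
   [0, 13, 23, 10, 4, 12, 6, 7, 15, 3, 9, 1, 19, 11, 21, 22, 14, 2, 18, 5, 20, 16, 8, 17],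
   [7, 4, 5, 10, 8, 12, 15, 20, 1, 3, 9, 6, 2, 18, 23, 11, 19, 14, 22, 21, 0, 16, 13, 17],
   [20, 22, 17, 9, 13, 14, 1, 0, 18, 10, 3, 8, 23, 15, 16, 4, 5, 21, 11, 12, 7, 2, 6, 19],
   [7, 6, 16, 9, 22, 14, 8, 20, 1, 10, 3, 18, 5, 4, 12, 11, 21, 23, 15, 17, 0, 2, 13, 19],
   [0, 13, 12, 9, 6, 14, 18, 7, 8, 10, 3, 1, 21, 11, 17, 15, 23, 5, 4, 16, 20, 2, 22, 19],
   [7, 18, 2, 3, 15, 23, 22, 20, 1, 9, 10, 4, 16, 6, 14, 11, 17, 12, 8, 19, 0, 5, 13, 21],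
   [0, 13, 14, 3, 18, 23, 4, 7, 22, 9, 10, 1, 17, 11, 19, 8, 12, 16, 6, 2, 20, 5, 15, 21],
   [20, 15, 19, 3, 13, 23, 1, 0, 4, 9, 10, 22, 12, 8, 2, 6, 16, 17, 11, 14, 7, 5, 18, 21],
   [7, 4, 19, 3, 22, 5, 8, 20, 11, 9, 10, 6, 17, 18, 2, 13, 12, 16, 15, 14, 0, 21, 1, 23],
   [20, 22, 14, 3, 1, 5, 11, 0, 6, 9, 10, 8, 16, 15, 19, 18, 17, 12, 13, 2, 7, 21, 4, 23],
   [0, 1, 2, 3, 4, 5, 6, 7, 8, 9, 10, 11, 12, 13, 14, 15, 16, 17, 18, 19, 20, 21, 22, 23]]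

theorem L27_ok : listOK L27 = true := by decide +kernel

theorem L27_M24 : L27.all isM24L = true := by decide +kernel

/-- A Sylow 3-subgroup of the code's group. -/
def P3 : Subgroup (Equiv.Perm GolayPt) := listSub L27 L27_ok

theorem card_P3 : Nat.card P3 = 3 ^ 3 := by
  have h := card_listSub L27 L27_ok (by decide +kernel)
  exact h

theorem P3_le : P3 ≤ M24 := by
  rintro g ⟨l, hl, rfl⟩
  have h := L27_M24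
  rw [List.all_eq_true] at h
  exact permL_mem_M24 (h l hl)

def a3 : List ℕ := [0, 11, 17, 9, 4, 19, 6, 7, 22, 10, 3, 13, 5, 1, 16, 8, 21, 23, 18, 12, 20, 14, 15, 2]

def b3 : List ℕ := [20, 15, 16, 9, 11, 19, 13, 0, 6, 10, 3, 22, 21, 8, 12, 18, 23, 5, 1, 17, 7, 14, 4, 2]

def threeA : List (List ℕ × List ℕ) :=
  [([0, 11, 17, 9, 4, 19, 6, 7, 22, 10, 3, 13, 5, 1, 16, 8, 21, 23, 18, 12, 20, 14, 15, 2], [0, 1, 2, 3, 4, 5, 6, 7, 8, 9, 10, 11, 12, 13, 14, 15, 16, 17, 18, 19, 20, 21, 22, 23]),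
   ([20, 8, 2, 3, 11, 21, 13, 0, 18, 9, 10, 15, 17, 22, 14, 4, 12, 16, 1, 19, 7, 23, 6, 5], [13, 16, 18, 0, 23, 15, 12, 11, 21, 7, 20, 2, 10, 5, 6, 17, 9, 3, 14, 4, 1, 8, 19, 22]),
   ([0, 11, 19, 3, 6, 21, 18, 7, 15, 9, 10, 13, 16, 1, 2, 22, 17, 12, 4, 14, 20, 23, 8, 5], [7, 10, 14, 6, 19, 13, 12, 18, 22, 20, 4, 3, 2, 9, 21, 15, 17, 23, 5, 16, 0, 1, 8, 11]),
   ([7, 6, 14, 3, 8, 21, 15, 20, 13, 9, 10, 18, 12, 4, 19, 1, 16, 17, 22, 2, 0, 23, 11, 5], [19, 1, 3, 18, 14, 15, 11, 12, 16, 7, 0, 17, 6, 21, 9, 13, 4, 20, 23, 10, 5, 8, 2, 22]),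
   ([0, 1, 5, 10, 6, 16, 18, 7, 22, 3, 9, 11, 14, 13, 23, 8, 2, 19, 4, 21, 20, 17, 15, 12], [18, 4, 1, 19, 23, 11, 2, 7, 3, 5, 12, 0, 22, 20, 15, 10, 13, 14, 17, 16, 6, 21, 9, 8]),
   ([0, 1, 16, 9, 18, 2, 4, 7, 15, 10, 3, 11, 23, 13, 12, 22, 5, 21, 6, 17, 20, 19, 8, 14], [0, 20, 5, 8, 16, 12, 14, 6, 23, 22, 15, 7, 10, 18, 9, 2, 19, 1, 21, 13, 4, 11, 17, 3]),
   ([0, 11, 21, 10, 18, 17, 4, 7, 8, 3, 9, 13, 2, 1, 5, 15, 19, 14, 6, 23, 20, 12, 22, 16], [0, 3, 5, 14, 15, 17, 22, 7, 20, 21, 16, 9, 12, 10, 2, 6, 11, 23, 8, 13, 4, 19, 18, 1]),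
   ([0, 13, 23, 10, 4, 12, 6, 7, 15, 3, 9, 1, 19, 11, 21, 22, 14, 2, 18, 5, 20, 16, 8, 17], [20, 5, 3, 17, 4, 15, 7, 6, 1, 2, 23, 12, 8, 19, 14, 11, 21, 10, 0, 22, 18, 16, 13, 9]),
   ([0, 13, 12, 9, 6, 14, 18, 7, 8, 10, 3, 1, 21, 11, 17, 15, 23, 5, 4, 16, 20, 2, 22, 19], [20, 19, 17, 22, 11, 16, 13, 18, 7, 15, 8, 5, 23, 12, 21, 4, 3, 14, 1, 10, 0, 2, 6, 9]),
   ([7, 18, 2, 3, 15, 23, 22, 20, 1, 9, 10, 4, 16, 6, 14, 11, 17, 12, 8, 19, 0, 5, 13, 21], [22, 9, 4, 18, 11, 12, 14, 15, 3, 6, 0, 1, 23, 21, 20, 13, 2, 17, 10, 7, 8, 19, 16, 5]),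
   ([0, 13, 14, 3, 18, 23, 4, 7, 22, 9, 10, 1, 17, 11, 19, 8, 12, 16, 6, 2, 20, 5, 15, 21], [7, 9, 19, 0, 17, 1, 2, 6, 21, 20, 18, 3, 22, 10, 12, 16, 8, 15, 23, 5, 4, 13, 14, 11]),
   ([20, 15, 19, 3, 13, 23, 1, 0, 4, 9, 10, 22, 12, 8, 2, 6, 16, 17, 11, 14, 7, 5, 18, 21], [23, 14, 19, 6, 10, 13, 21, 17, 9, 18, 20, 22, 0, 3, 5, 16, 7, 4, 8, 12, 2, 11, 15, 1]),
   ([7, 4, 19, 3, 22, 5, 8, 20, 11, 9, 10, 6, 17, 18, 2, 13, 12, 16, 15, 14, 0, 21, 1, 23], [1, 12, 3, 7, 5, 0, 21, 11, 14, 20, 6, 16, 23, 15, 10, 22, 17, 2, 8, 9, 13, 18, 19, 4]),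
   ([20, 22, 14, 3, 1, 5, 11, 0, 6, 9, 10, 8, 16, 15, 19, 18, 17, 12, 13, 2, 7, 21, 4, 23], [13, 16, 17, 6, 14, 0, 10, 11, 9, 20, 18, 3, 19, 8, 23, 22, 12, 5, 15, 2, 1, 4, 21, 7])]

def threeB : List (List ℕ × List ℕ) :=
  [([20, 15, 16, 9, 11, 19, 13, 0, 6, 10, 3, 22, 21, 8, 12, 18, 23, 5, 1, 17, 7, 14, 4, 2], [0, 1, 2, 3, 4, 5, 6, 7, 8, 9, 10, 11, 12, 13, 14, 15, 16, 17, 18, 19, 20, 21, 22, 23]),
   ([7, 4, 12, 9, 15, 19, 22, 20, 13, 10, 3, 6, 23, 18, 17, 1, 5, 21, 8, 16, 0, 14, 11, 2], [11, 9, 1, 14, 10, 17, 8, 22, 16, 12, 21, 13, 15, 23, 0, 3, 19, 20, 2, 5, 4, 7, 6, 18]),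
   ([7, 6, 21, 10, 15, 16, 22, 20, 11, 3, 9, 18, 19, 4, 5, 13, 14, 2, 8, 23, 0, 17, 1, 12], [21, 13, 0, 16, 19, 15, 8, 14, 4, 2, 23, 11, 3, 5, 1, 17, 18, 7, 22, 9, 12, 20, 6, 10]),
   ([20, 15, 23, 10, 1, 16, 11, 0, 18, 3, 9, 22, 2, 8, 21, 4, 19, 14, 13, 5, 7, 17, 6, 12], [3, 16, 4, 8, 2, 21, 20, 10, 1, 13, 6, 7, 22, 18, 17, 23, 14, 19, 15, 12, 9, 5, 0, 11]),
   ([7, 18, 17, 9, 8, 2, 15, 20, 11, 10, 3, 4, 21, 6, 16, 13, 23, 5, 22, 12, 0, 19, 1, 14], [17, 3, 20, 6, 23, 0, 21, 5, 2, 13, 8, 16, 4, 12, 15, 14, 18, 7, 9, 22, 19, 11, 10, 1]),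
   ([20, 8, 12, 9, 1, 2, 11, 0, 4, 10, 3, 15, 5, 22, 17, 6, 21, 23, 13, 16, 7, 19, 18, 14], [9, 21, 17, 23, 12, 19, 18, 3, 14, 2, 16, 1, 5, 11, 6, 15, 0, 13, 4, 7, 10, 20, 22, 8]),
   ([7, 18, 23, 10, 22, 17, 8, 20, 13, 3, 9, 4, 14, 6, 21, 1, 2, 19, 15, 5, 0, 12, 11, 16], [0, 23, 6, 19, 10, 11, 15, 20, 18, 5, 17, 9, 14, 1, 12, 16, 8, 22, 2, 4, 7, 21, 3, 13]),
   ([20, 22, 5, 10, 11, 17, 13, 0, 4, 3, 9, 8, 19, 15, 23, 6, 14, 2, 1, 21, 7, 12, 18, 16], [11, 13, 10, 1, 12, 3, 17, 4, 14, 18, 15, 21, 23, 5, 20, 19, 0, 9, 6, 2, 22, 16, 8, 7]),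
   ([20, 8, 21, 10, 13, 12, 1, 0, 6, 3, 9, 15, 14, 22, 5, 18, 2, 19, 11, 23, 7, 16, 4, 17], [13, 23, 18, 20, 3, 5, 16, 6, 2, 0, 7, 11, 19, 9, 17, 22, 15, 14, 4, 12, 8, 1, 10, 21]),
   ([7, 4, 5, 10, 8, 12, 15, 20, 1, 3, 9, 6, 2, 18, 23, 11, 19, 14, 22, 21, 0, 16, 13, 17], [3, 7, 23, 18, 0, 2, 5, 9, 20, 15, 1, 17, 16, 4, 21, 19, 6, 12, 11, 13, 10, 8, 22, 14]),
   ([20, 22, 17, 9, 13, 14, 1, 0, 18, 10, 3, 8, 23, 15, 16, 4, 5, 21, 11, 12, 7, 2, 6, 19], [0, 11, 9, 15, 12, 6, 4, 7, 2, 18, 1, 23, 19, 21, 13, 14, 8, 10, 16, 5, 20, 3, 22, 17]),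
   ([7, 6, 16, 9, 22, 14, 8, 20, 1, 10, 3, 18, 5, 4, 12, 11, 21, 23, 15, 17, 0, 2, 13, 19], [20, 8, 17, 9, 18, 14, 6, 7, 13, 10, 3, 22, 21, 15, 12, 11, 5, 23, 4, 16, 0, 19, 1, 2])]

theorem threeA_ok : threeA.all (fun e => isM24L e.2 && isPermL e.1 &&
    compL e.2 e.1 == compL a3 e.2) = true := by decide +kernel

theorem threeB_ok : threeB.all (fun e => isM24L e.2 && isPermL e.1 &&
    compL e.2 e.1 == compL b3 e.2) = true := by decide +kernel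

theorem three_cover : L27.all (fun l => l == idL ||
    threeA.any (fun e => e.1 == l) || threeB.any (fun e => e.1 == l)) = true := by decide +kernel

theorem a3_M24 : isM24L a3 = true := by decide +kernel

theorem b3_M24 : isM24L b3 = true := by decide +kernel

/-- Every element of order 3 of the code's group is conjugate to one of two representatives. -/
theorem three_class (g : Equiv.Perm GolayPt) (hg : g ∈ M24) (h3 : orderOf g = 3) :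
    ∃ k ∈ M24, k * g * k⁻¹ = permL a3 ∨ k * g * k⁻¹ = permL b3 := by
  haveI : Fact (Nat.Prime 3) := ⟨Nat.prime_three⟩
  obtain ⟨k1, hk1, hmem⟩ := exists_conj_mem P3 P3_le 3 3 1 card_P3 fac3 g hg
    (by rw [h3]; norm_num)
  obtain ⟨l, hl, he⟩ := hmem
  have hne : g ≠ 1 := by
    intro h1
    rw [h1, orderOf_one] at h3
    norm_num at h3
  have h2' : l ≠ idL := by
    intro h
    rw [h, permL_idL] at he
    apply hne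
    have : g = k1⁻¹ * (k1 * g * k1⁻¹) * k1 := by group
    rw [this, he]; group
  have hc := three_cover
  rw [List.all_eq_true] at hc
  have hc' := hc l hl
  simp only [Bool.or_eq_true, beq_iff_eq, List.any_eq_true] at hc'
  rcases hc' with (h | ⟨e, hemem, rfl⟩) | ⟨e, hemem, rfl⟩
  · exact absurd h h2'
  · have ha := threeA_ok
    rw [List.all_eq_true] at ha
    have ha' := ha e hemem
    simp only [Bool.and_eq_true, beq_iff_eq] at ha'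
    have hcp := isPermL_of_isM24L ha'.1.1
    refine ⟨permL e.2 * k1, M24.mul_mem (permL_mem_M24 ha'.1.1) hk1, Or.inl ?_⟩
    rw [← permL_conj hcp ha'.1.2 (isPermL_of_isM24L a3_M24) ha'.2, ← he]
    group
  · have ha := threeB_ok
    rw [List.all_eq_true] at ha
    have ha' := ha e hemem
    simp only [Bool.and_eq_true, beq_iff_eq] at ha'
    have hcp := isPermL_of_isM24L ha'.1.1
    refine ⟨permL e.2 * k1, M24.mul_mem (permL_mem_M24 ha'.1.1) hk1, Or.inr ?_⟩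
    rw [← permL_conj hcp ha'.1.2 (isPermL_of_isM24L b3_M24) ha'.2, ← he]
    group

theorem a3_fix : (Finset.univ.filter fun p => permL a3 p = p) = mset 1310929 :=
  fix_eq_mset (isPermL_of_isM24L a3_M24) _ (by decide)

theorem b3_fix : (Finset.univ.filter fun p => permL b3 p = p) = mset 0 :=
  fix_eq_mset (isPermL_of_isM24L b3_M24) _ (by decide)

theorem b3_fpf : ∀ p, permL b3 p ≠ p := by
  intro p hp
  have : p ∈ (Finset.univ.filter fun p => permL b3 p = p) := by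
    rw [Finset.mem_filter]; exact ⟨Finset.mem_univ _, hp⟩
  rw [b3_fix, mset_zero] at this
  exact absurd this (Finset.notMem_empty _)

theorem orderOf_permL_three {l : List ℕ} (hl : isPermL l = true)
    (h1 : compL l (compL l l) = idL) (h2 : l ≠ idL) : orderOf (permL l) = 3 := by
  haveI : Fact (Nat.Prime 3) := ⟨Nat.prime_three⟩
  apply orderOf_eq_prime
  · rw [show (3 : ℕ) = 2 + 1 from rfl, pow_succ', pow_two, permL_mul hl hl,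
      permL_mul hl (isPermL_compL hl hl), h1, permL_idL]
  · intro h
    apply h2
    apply permL_inj hl isPermL_idL
    rw [h, permL_idL]

theorem orderOf_a3 : orderOf (permL a3) = 3 :=
  orderOf_permL_three (isPermL_of_isM24L a3_M24) (by decide) (by decide)

theorem orderOf_b3 : orderOf (permL b3) = 3 :=
  orderOf_permL_three (isPermL_of_isM24L b3_M24) (by decide) (by decide)

end Cfsg.Agent.Lib.Helper9
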