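import Mathlib
import Cfsg.Prelude.Def_Sporadic_a
import Cfsg.Agent.Lib.Helper9.Golay2

set_option autoImplicit false

namespace Cfsg.Agent.Lib.Helper9

open Cfsg

theorem card_golayPt24 : Fintype.card GolayPt = 24 := by decide

/-- The words of weight 4 in the coset of `a` modulo the code. -/
noncomputable def sextetOf (a : GolayPt → ZMod 2) : Finset (GolayPt → ZMod 2) := by
  classical
  exact Finset.univ.filter (fun u => u - a ∈ golayCode ∧ hammingNorm u = 4)

theorem mem_sextetOf (a u : GolayPt → ZMod 2) :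
    u ∈ sextetOf a ↔ u - a ∈ golayCode ∧ hammingNorm u = 4 := by
  classical
  simp [sextetOf]

theorem self_mem_sextetOf (a : GolayPt → ZMod 2) (ha : hammingNorm a = 4) : a ∈ sextetOf a := by
  rw [mem_sextetOf, sub_self]
  exact ⟨Submodule.zero_mem _, ha⟩

theorem card_sextetOf (a : GolayPt → ZMod 2) (ha : hammingNorm a = 4) : (sextetOf a).card = 6 := by
  classical
  have h := Gen.coset_count golayCode card_golayPt24 finrank_golayCode golay_min a (by
    intro u hu
    by_contra hlt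
    push Not at hlt
    have hne : u ≠ a := by
      rintro rfl
      omega
    have := Gen.leaders_disjoint golayCode golay_min hu hne (by omega) (by omega)
    omega)
  have e : {u : GolayPt → ZMod 2 | u - a ∈ golayCode ∧ hammingNorm u = 4} = ↑(sextetOf a) := by
    ext u
    rw [Set.mem_setOf_eq, Finset.mem_coe, mem_sextetOf]
  rw [e, Set.ncard_coe_finset] at h
  exact h

theorem sextet_sub_mem {a u u' : GolayPt → ZMod 2} (hu : u ∈ sextetOf a) (hu' : u' ∈ sextetOf a) :
    u - u' ∈ golayCode := by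
  rw [mem_sextetOf] at hu hu'
  have := Submodule.sub_mem _ hu.1 hu'.1
  simpa using this

theorem sextet_disjoint {a u u' : GolayPt → ZMod 2} (hu : u ∈ sextetOf a) (hu' : u' ∈ sextetOf a)
    (hne : u ≠ u') : Disjoint (Gen.sp u) (Gen.sp u') := by
  have h := sextet_sub_mem hu hu'
  rw [mem_sextetOf] at hu hu'
  exact (Gen.leaders_disjoint golayCode golay_min h hne (by omega) (by omega)).2.2

theorem sp_add_of_disjoint {u v : GolayPt → ZMod 2} (h : Disjoint (Gen.sp u) (Gen.sp v)) :
    Gen.sp (u + v) = Gen.sp u ∪ Gen.sp v := by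
  rw [Gen.sp_add]
  exact Disjoint.symmDiff_eq_sup h

theorem sp_add_subset (u v : GolayPt → ZMod 2) : Gen.sp (u + v) ⊆ Gen.sp u ∪ Gen.sp v := by
  rw [Gen.sp_add]
  exact symmDiff_le_sup

theorem sextet_sum {a u u' : GolayPt → ZMod 2} (hu : u ∈ sextetOf a) (hu' : u' ∈ sextetOf a)
    (hne : u ≠ u') : u + u' ∈ golayCode ∧ Gen.sp (u + u') = Gen.sp u ∪ Gen.sp u' ∧
      (Gen.sp (u + u')).card = 8 := by
  have h := sextet_sub_mem hu hu'
  have hd := sextet_disjoint hu hu' hne
  rw [Gen.sub_eq_add24] at h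
  refine ⟨h, sp_add_of_disjoint hd, ?_⟩
  rw [sp_add_of_disjoint hd, Finset.card_union_of_disjoint hd]
  rw [mem_sextetOf] at hu hu'
  have h1 := hu.2
  have h2 := hu'.2
  rw [Gen.hammingNorm_eq_card_sp] at h1 h2
  omega

theorem golay_weight_sp (w : GolayPt → ZMod 2) (hw : w ∈ golayCode) :
    (Gen.sp w).card = 0 ∨ (Gen.sp w).card = 8 ∨ (Gen.sp w).card = 12 ∨
      (Gen.sp w).card = 16 ∨ (Gen.sp w).card = 24 := by
  have := golay_weight w hw
  rw [Gen.support₂_eq_sp] at this
  exact this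

theorem octad_cases {c c' : GolayPt → ZMod 2} (hc : c ∈ golayCode) (hc' : c' ∈ golayCode)
    (h8 : (Gen.sp c).card = 8) (h8' : (Gen.sp c').card = 8) (hne : c ≠ c') :
    (Gen.sp c ∩ Gen.sp c').card = 0 ∨ (Gen.sp c ∩ Gen.sp c').card = 2 ∨
      (Gen.sp c ∩ Gen.sp c').card = 4 := by
  have h1 := golay_weight_sp (c + c') (Submodule.add_mem _ hc hc')
  have h2 := Gen.card_sp_add c c'
  have h3 : (Gen.sp (c + c')).card ≠ 0 := by
    intro h0
    rw [Finset.card_eq_zero, Gen.sp_eq_empty] at h0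
    apply hne
    have : c - c' = 0 := by rw [Gen.sub_eq_add24]; exact h0
    exact sub_eq_zero.1 this
  omega

theorem exists_disjoint_octad_of_four {c c' : GolayPt → ZMod 2} (hc : c ∈ golayCode)
    (hc' : c' ∈ golayCode) (h8 : (Gen.sp c).card = 8) (h8' : (Gen.sp c').card = 8)
    (h4 : (Gen.sp c ∩ Gen.sp c').card = 4) :
    ∃ d ∈ golayCode, (Gen.sp d).card = 8 ∧ Disjoint (Gen.sp d) (Gen.sp c) ∧
      Disjoint (Gen.sp d) (Gen.sp c') := by
  classical
  set a : GolayPt → ZMod 2 := Gen.indw (Gen.sp c ∩ Gen.sp c') with ha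
  have hspa : Gen.sp a = Gen.sp c ∩ Gen.sp c' := Gen.sp_indw _
  have hwa : hammingNorm a = 4 := by rw [Gen.hammingNorm_eq_card_sp, hspa, h4]
  have haS := self_mem_sextetOf a hwa
  have hb : ∀ e : GolayPt → ZMod 2, e ∈ golayCode → (Gen.sp e).card = 8 →
      Gen.sp a ⊆ Gen.sp e → e + a ∈ sextetOf a ∧ Gen.sp e ⊆ Gen.sp (e + a) ∪ Gen.sp a := by
    intro e he he8 hsub
    refine ⟨?_, ?_⟩
    · rw [mem_sextetOf]
      refine ⟨by simpa using he, ?_⟩
      have h := Gen.card_sp_add e a
      rw [Finset.inter_eq_right.2 hsub] at h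
      rw [Gen.hammingNorm_eq_card_sp] at hwa ⊢
      omega
    · have : e = (e + a) + a := by
        rw [add_assoc]
        have : a + a = 0 := by funext i; exact CharTwo.add_self_eq_zero _
        rw [this, add_zero]
      conv_lhs => rw [this]
      exact sp_add_subset _ _
  obtain ⟨hbS, hcsub⟩ := hb c hc h8 (by rw [hspa]; exact Finset.inter_subset_left)
  obtain ⟨hbS', hcsub'⟩ := hb c' hc' h8' (by rw [hspa]; exact Finset.inter_subset_right)
  have hcard := card_sextetOf a hwa
  have h3 : 1 < ((((sextetOf a).erase a).erase (c + a)).erase (c' + a)).card := by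
    have h1 := Finset.pred_card_le_card_erase (s := sextetOf a) (a := a)
    have h2 := Finset.pred_card_le_card_erase (s := (sextetOf a).erase a) (a := c + a)
    have h3 := Finset.pred_card_le_card_erase (s := ((sextetOf a).erase a).erase (c + a))
      (a := c' + a)
    omega
  obtain ⟨t1, ht1, t2, ht2, hne⟩ := Finset.one_lt_card.1 h3
  simp only [Finset.mem_erase] at ht1 ht2
  obtain ⟨h1c', h1c, h1a, h1S⟩ := ht1
  obtain ⟨h2c', h2c, h2a, h2S⟩ := ht2
  obtain ⟨hmem, hsp, hcard8⟩ := sextet_sum h1S h2S hne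
  refine ⟨t1 + t2, hmem, hcard8, ?_, ?_⟩
  · rw [hsp]
    refine Disjoint.mono_right hcsub ?_
    rw [Finset.disjoint_union_left, Finset.disjoint_union_right, Finset.disjoint_union_right]
    exact ⟨⟨sextet_disjoint h1S hbS h1c, sextet_disjoint h1S haS h1a⟩,
      ⟨sextet_disjoint h2S hbS h2c, sextet_disjoint h2S haS h2a⟩⟩
  · rw [hsp]
    refine Disjoint.mono_right hcsub' ?_
    rw [Finset.disjoint_union_left, Finset.disjoint_union_right, Finset.disjoint_union_right]
    exact ⟨⟨sextet_disjoint h1S hbS' h1c', sextet_disjoint h1S haS h1a⟩,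
      ⟨sextet_disjoint h2S hbS' h2c', sextet_disjoint h2S haS h2a⟩⟩

theorem no_common_of_two {c c' d : GolayPt → ZMod 2} (hc : c ∈ golayCode) (hc' : c' ∈ golayCode)
    (hd : d ∈ golayCode) (h8 : (Gen.sp c).card = 8) (h8' : (Gen.sp c').card = 8)
    (h8d : (Gen.sp d).card = 8) (h2 : (Gen.sp c ∩ Gen.sp c').card = 2)
    (h1 : Disjoint (Gen.sp d) (Gen.sp c)) (h1' : Disjoint (Gen.sp d) (Gen.sp c')) : False := by
  have hadd := Gen.card_sp_add c c'
  have hdis : Disjoint (Gen.sp d) (Gen.sp (c + c')) := by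
    refine Disjoint.mono_right (sp_add_subset c c') ?_
    rw [Finset.disjoint_union_right]
    exact ⟨h1, h1'⟩
  have hadd2 := Gen.card_sp_add d (c + c')
  rw [Finset.disjoint_iff_inter_eq_empty.1 hdis, Finset.card_empty] at hadd2
  have := golay_weight_sp (d + (c + c')) (Submodule.add_mem _ hd (Submodule.add_mem _ hc hc'))
  omega

theorem exists_path_of_two {c c' : GolayPt → ZMod 2} (hc : c ∈ golayCode) (hc' : c' ∈ golayCode)
    (h8 : (Gen.sp c).card = 8) (h8' : (Gen.sp c').card = 8)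
    (h2 : (Gen.sp c ∩ Gen.sp c').card = 2) :
    ∃ x ∈ golayCode, ∃ y ∈ golayCode, (Gen.sp x).card = 8 ∧ (Gen.sp y).card = 8 ∧
      Disjoint (Gen.sp c) (Gen.sp x) ∧ Disjoint (Gen.sp x) (Gen.sp y) ∧
      Disjoint (Gen.sp y) (Gen.sp c') := by
  classical
  have hcard6 : (Gen.sp c' \ Gen.sp c).card = 6 := by
    have := Finset.card_sdiff_add_card_inter (Gen.sp c') (Gen.sp c)
    rw [Finset.inter_comm] at this
    omega
  obtain ⟨A, hA, hA4⟩ := Finset.exists_subset_card_eq (show 4 ≤ (Gen.sp c' \ Gen.sp c).card by omega)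
  have hAc' : A ⊆ Gen.sp c' := hA.trans Finset.sdiff_subset
  have hAc : Disjoint A (Gen.sp c) := by
    rw [Finset.disjoint_left]
    intro i hi
    exact (Finset.mem_sdiff.1 (hA hi)).2
  set a : GolayPt → ZMod 2 := Gen.indw A with ha
  have hspa : Gen.sp a = A := Gen.sp_indw _
  have hwa : hammingNorm a = 4 := by rw [Gen.hammingNorm_eq_card_sp, hspa, hA4]
  have haS := self_mem_sextetOf a hwa
  set b : GolayPt → ZMod 2 := c' + a with hb
  have hbS : b ∈ sextetOf a := by
    rw [mem_sextetOf]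
    refine ⟨by simpa [hb] using hc', ?_⟩
    have h := Gen.card_sp_add c' a
    rw [hspa, Finset.inter_eq_right.2 hAc', ← hb] at h
    rw [Gen.hammingNorm_eq_card_sp]
    omega
  have hc'sub : Gen.sp c' ⊆ Gen.sp b ∪ Gen.sp a := by
    have : c' = b + a := by
      rw [hb, add_assoc]
      have : a + a = 0 := by funext i; exact CharTwo.add_self_eq_zero _
      rw [this, add_zero]
    conv_lhs => rw [this]
    exact sp_add_subset _ _
  have hcard := card_sextetOf a hwa
  have hab : a ≠ b := by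
    intro hab
    have h0 : c' = 0 := by
      have : b - a = 0 := by rw [← hab, sub_self]
      rw [hb] at this
      simpa using this
    rw [h0, Gen.sp_zero] at h8'
    simp at h8'
  set S' := ((sextetOf a).erase a).erase b with hS'
  have hS'card : S'.card = 4 := by
    rw [hS', Finset.card_erase_of_mem (Finset.mem_erase.2 ⟨hab.symm, hbS⟩),
      Finset.card_erase_of_mem haS, hcard]
  have hS'mem : ∀ t ∈ S', t ∈ sextetOf a ∧ t ≠ a ∧ t ≠ b := by
    intro t ht
    rw [hS', Finset.mem_erase, Finset.mem_erase] at ht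
    exact ⟨ht.2.2, ht.2.1, ht.1⟩
  -- supports of members of S' avoid c'
  have hdisc' : ∀ t ∈ S', Disjoint (Gen.sp t) (Gen.sp c') := by
    intro t ht
    obtain ⟨h1, h2, h3⟩ := hS'mem t ht
    refine Disjoint.mono_right hc'sub ?_
    rw [Finset.disjoint_union_right]
    exact ⟨sextet_disjoint h1 hbS h3, sextet_disjoint h1 haS h2⟩
  have heven : ∀ t ∈ S', Even (Gen.sp t ∩ Gen.sp c).card := by
    intro t ht
    obtain ⟨h1, h2, h3⟩ := hS'mem t ht
    have hta : t + a ∈ golayCode := by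
      have := sextet_sub_mem h1 haS
      rwa [Gen.sub_eq_add24] at this
    have horth := golay_orth (t + a) hta c hc
    rw [Gen.dot_eq, ZMod.natCast_eq_zero_iff_even,
      sp_add_of_disjoint (sextet_disjoint h1 haS h2), hspa, Finset.union_inter_distrib_right,
      Finset.disjoint_iff_inter_eq_empty.1 hAc, Finset.union_empty] at horth
    exact horth
  have hex : ∃ t0 ∈ S', Gen.sp t0 ∩ Gen.sp c = ∅ := by
    by_contra hall
    push Not at hall
    have hge : ∀ t ∈ S', 2 ≤ (Gen.sp t ∩ Gen.sp c).card := by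
      intro t ht
      have h0 : (Gen.sp t ∩ Gen.sp c).card ≠ 0 := by
        rw [Ne, Finset.card_eq_zero]
        exact Finset.nonempty_iff_ne_empty.1 (hall t ht)
      obtain ⟨k, hk⟩ := heven t ht
      omega
    have hbU : (S'.biUnion (fun t => Gen.sp t ∩ Gen.sp c)).card =
        ∑ t ∈ S', (Gen.sp t ∩ Gen.sp c).card := by
      apply Finset.card_biUnion
      intro t ht t' ht' hne
      have := sextet_disjoint (hS'mem t ht).1 (hS'mem t' ht').1 hne
      exact Disjoint.mono Finset.inter_subset_left Finset.inter_subset_left this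
    have hsum : 8 ≤ ∑ t ∈ S', (Gen.sp t ∩ Gen.sp c).card := by
      have := Finset.sum_le_sum hge
      rw [Finset.sum_const, smul_eq_mul, hS'card] at this
      omega
    have hsub : S'.biUnion (fun t => Gen.sp t ∩ Gen.sp c) ⊆ Gen.sp c \ Gen.sp c' := by
      intro i hi
      rw [Finset.mem_biUnion] at hi
      obtain ⟨t, ht, hit⟩ := hi
      rw [Finset.mem_inter] at hit
      rw [Finset.mem_sdiff]
      refine ⟨hit.2, fun hic' => ?_⟩
      exact Finset.disjoint_left.1 (hdisc' t ht) hit.1 hic'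
    have hle := Finset.card_le_card hsub
    have := Finset.card_sdiff_add_card_inter (Gen.sp c) (Gen.sp c')
    omega
  obtain ⟨t0, ht0, ht0c⟩ := hex
  obtain ⟨h0S, h0a, h0b⟩ := hS'mem t0 ht0
  obtain ⟨hxmem, hxsp, hx8⟩ := sextet_sum h0S haS h0a
  have h3 : 1 < (S'.erase t0).card := by
    rw [Finset.card_erase_of_mem ht0, hS'card]
    norm_num
  obtain ⟨t1, ht1, t2, ht2, hne⟩ := Finset.one_lt_card.1 h3
  rw [Finset.mem_erase] at ht1 ht2
  obtain ⟨h1S, h1a, h1b⟩ := hS'mem t1 ht1.2
  obtain ⟨h2S, h2a, h2b⟩ := hS'mem t2 ht2.2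
  obtain ⟨hymem, hysp, hy8⟩ := sextet_sum h1S h2S hne
  refine ⟨t0 + a, hxmem, t1 + t2, hymem, hx8, hy8, ?_, ?_, ?_⟩
  · rw [hxsp, Finset.disjoint_union_right, hspa]
    refine ⟨?_, hAc.symm⟩
    rw [Finset.disjoint_iff_inter_eq_empty, Finset.inter_comm]
    exact ht0c
  · rw [hxsp, hysp, Finset.disjoint_union_left, Finset.disjoint_union_right,
      Finset.disjoint_union_right]
    exact ⟨⟨sextet_disjoint h0S h1S ht1.1.symm, sextet_disjoint h0S h2S ht2.1.symm⟩,
      ⟨sextet_disjoint haS h1S h1a.symm, sextet_disjoint haS h2S h2a.symm⟩⟩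
  · rw [hysp, Finset.disjoint_union_left]
    exact ⟨hdisc' t1 ht1.2, hdisc' t2 ht2.2⟩

end Cfsg.Agent.Lib.Helper9
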