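import Mathlib
import Cfsg.Prelude.Def_GeometricClasses

set_option autoImplicit false

namespace Cfsg.Agent.Lib.Helper9

open Matrix

variable {ι : Type} [Fintype ι] [DecidableEq ι] {F : Type*} [Field F]

/-- A transvection fixing the subspace `p` pointwise and sending `u ∉ p` to `u + v`, `v ∈ p`. -/
theorem exists_transvection (p : Submodule F (ι → F)) (v u : ι → F) (hv : v ∈ p) (hu : u ∉ p) :
    ∃ g : Matrix.GeneralLinearGroup ι F, Matrix.GeneralLinearGroup.det g = 1 ∧
      (∀ x ∈ p, (g : Matrix ι ι F) *ᵥ x = x) ∧ (g : Matrix ι ι F) *ᵥ u = u + v := by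
  obtain ⟨f, hfu, hfp⟩ := Submodule.exists_dual_map_eq_bot_of_notMem hu inferInstance
  have hfp' : ∀ x ∈ p, f x = 0 := by
    intro x hx
    have : f x ∈ p.map f := Submodule.mem_map_of_mem hx
    rw [hfp] at this
    simpa using this
  let φ : ι → F := fun i => (f u)⁻¹ * f (Pi.single i 1)
  have hφ : ∀ x : ι → F, φ ⬝ᵥ x = (f u)⁻¹ * f x := by
    intro x
    have hx : x = ∑ i, x i • (Pi.single i (1 : F) : ι → F) := by
      ext j
      simp [Finset.sum_apply, Pi.single_apply]
    conv_rhs => rw [hx]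
    rw [map_sum, Finset.mul_sum]
    simp only [dotProduct, φ, map_smul, smul_eq_mul]
    apply Finset.sum_congr rfl
    intro i _
    ring
  have hdet : (1 + vecMulVec v φ).det = 1 := by
    rw [vecMulVec_eq (ι := Unit), det_one_add_replicateCol_mul_replicateRow, hφ, hfp' v hv]
    simp
  have hA : ∀ x, (1 + vecMulVec v φ) *ᵥ x = x + ((f u)⁻¹ * f x) • v := by
    intro x
    rw [add_mulVec, one_mulVec, vecMulVec_mulVec, hφ]
    congr 1
    ext i
    simp [mul_comm]
  refine ⟨Matrix.GeneralLinearGroup.mkOfDetNeZero (1 + vecMulVec v φ)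
    (by rw [hdet]; exact one_ne_zero), ?_, ?_, ?_⟩
  · ext
    simp [Matrix.GeneralLinearGroup.mkOfDetNeZero, hdet]
  · intro x hx
    show (1 + vecMulVec v φ) *ᵥ x = x
    rw [hA, hfp' x hx]
    simp
  · show (1 + vecMulVec v φ) *ᵥ u = u + v
    rw [hA, inv_mul_cancel₀ hfu, one_smul]

/-- An element of `GL` fixing a subspace pointwise stabilises it. -/
theorem mem_subspaceStabilizer_of_fix (W : Submodule F (ι → F)) (g : Matrix.GeneralLinearGroup ι F)
    (h : ∀ x ∈ W, (g : Matrix ι ι F) *ᵥ x = x) : g ∈ Cfsg.Geo.subspaceStabilizer W := by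
  intro x
  constructor
  · intro hx
    show (g : Matrix ι ι F) *ᵥ x ∈ W
    rw [h x hx]
    exact hx
  · intro hx
    have hx' : (g : Matrix ι ι F) *ᵥ x ∈ W := hx
    have hy : (g : Matrix ι ι F) *ᵥ ((g : Matrix ι ι F) *ᵥ x) = (g : Matrix ι ι F) *ᵥ x := h _ hx'
    have hinj : Function.Injective ((g : Matrix ι ι F).mulVec) :=
      Matrix.mulVec_injective_iff_isUnit.mpr g.isUnit
    have := hinj hy
    show x ∈ W
    rw [← this]
    exact hx'

theorem mulVec_mem_of_mem_subspaceStabilizer {W : Submodule F (ι → F)}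
    {g : Matrix.GeneralLinearGroup ι F} (hg : g ∈ Cfsg.Geo.subspaceStabilizer W) {x : ι → F}
    (hx : x ∈ W) : (g : Matrix ι ι F) *ᵥ x ∈ W :=
  (hg x).mp hx

/-- The stabiliser of a proper non-zero subspace in `SL` is a proper subgroup of `SL`. -/
theorem subspaceStabilizer_inf_specialLinear_lt (W : Submodule F (ι → F)) (hW0 : W ≠ ⊥)
    (hWtop : W ≠ ⊤) :
    Cfsg.Geo.subspaceStabilizer W ⊓ Cfsg.Geo.specialLinear ι F < Cfsg.Geo.specialLinear ι F := by
  obtain ⟨w, hwW, hw0⟩ : ∃ w ∈ W, w ≠ 0 := Submodule.exists_mem_ne_zero_of_ne_bot hW0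
  obtain ⟨v, hvW⟩ : ∃ v, v ∉ W := by
    by_contra h
    push Not at h
    exact hWtop (eq_top_iff.mpr fun x _ => h x)
  refine lt_of_le_of_ne inf_le_right ?_
  intro heq
  have hw : w ∉ Submodule.span F {v} := by
    intro hmem
    obtain ⟨c, hc⟩ := Submodule.mem_span_singleton.mp hmem
    have hc0 : c ≠ 0 := by
      rintro rfl
      apply hw0
      rw [← hc, zero_smul]
    apply hvW
    have : v = c⁻¹ • w := by rw [← hc, smul_smul, inv_mul_cancel₀ hc0, one_smul]
    rw [this]
    exact W.smul_mem _ hwW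
  obtain ⟨g, hgdet, -, hgw⟩ := exists_transvection (Submodule.span F {v}) v w
    (Submodule.subset_span rfl) hw
  have hg : g ∈ Cfsg.Geo.specialLinear ι F := hgdet
  rw [← heq] at hg
  have := mulVec_mem_of_mem_subspaceStabilizer hg.1 hwW
  rw [hgw] at this
  exact hvW ((W.add_mem_iff_right hwW).mp this)

end Cfsg.Agent.Lib.Helper9
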