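import Mathlib
import Cfsg.Agent.S5631

set_option autoImplicit false

namespace Cfsg.Agent.Lib.Helper9.SLGen

open Cfsg.Agent.S5635 (tvG tvG_mulVec tvG_det mem_sl_iff)
open Cfsg.Agent.S5631 (gl_ext mul_inv_mulVec)
open scoped Matrix

variable {F : Type*} [Field F] [Fintype F] {n : ℕ}

theorem g_inj (g : Matrix.GeneralLinearGroup (Fin n) F) (x y : Fin n → F)
    (h : (g : Matrix (Fin n) (Fin n) F) *ᵥ x = (g : Matrix (Fin n) (Fin n) F) *ᵥ y) : x = y := by
  have hx := mul_inv_mulVec g⁻¹ x
  have hy := mul_inv_mulVec g⁻¹ y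
  rw [inv_inv] at hx hy
  rw [← hx, ← hy, h]

theorem fix_of_support (g : Matrix.GeneralLinearGroup (Fin n) F) (k : ℕ)
    (hfix : ∀ i : Fin n, k ≤ i.val →
      (g : Matrix (Fin n) (Fin n) F) *ᵥ (Pi.single i 1 : Fin n → F) = Pi.single i 1)
    (x : Fin n → F) (hx : ∀ i : Fin n, i.val < k → x i = 0) :
    (g : Matrix (Fin n) (Fin n) F) *ᵥ x = x := by
  have hx' : x = ∑ i, x i • (Pi.single i 1 : Fin n → F) := pi_eq_sum_univ' x
  have key : Matrix.toLin' (g : Matrix (Fin n) (Fin n) F) x = x := by
    conv_lhs => rw [hx']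
    conv_rhs => rw [hx']
    rw [map_sum]
    refine Finset.sum_congr rfl fun i _ => ?_
    rw [map_smul, Matrix.toLin'_apply]
    by_cases hi : k ≤ i.val
    · rw [hfix i hi]
    · rw [hx i (by omega), zero_smul, zero_smul]
  rwa [Matrix.toLin'_apply] at key

theorem step (K : Subgroup (Matrix.GeneralLinearGroup (Fin n) F))
    (htv : ∀ (φ : Module.Dual F (Fin n → F)) (v : Fin n → F) (hu : 1 + φ v ≠ 0), φ v = 0 →
      tvG φ v hu ∈ K)
    (k : ℕ) (hk : k < n)
    (IH : ∀ g : Matrix.GeneralLinearGroup (Fin n) F, g ∈ Cfsg.Geo.specialLinear (Fin n) F →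
      (∀ i : Fin n, k ≤ i.val →
        (g : Matrix (Fin n) (Fin n) F) *ᵥ (Pi.single i 1 : Fin n → F) = Pi.single i 1) → g ∈ K)
    (g : Matrix.GeneralLinearGroup (Fin n) F) (hg : g ∈ Cfsg.Geo.specialLinear (Fin n) F)
    (hfix : ∀ i : Fin n, k + 1 ≤ i.val →
      (g : Matrix (Fin n) (Fin n) F) *ᵥ (Pi.single i 1 : Fin n → F) = Pi.single i 1)
    (s : Fin n) (hs : s.val < k)
    (hus : ((g : Matrix (Fin n) (Fin n) F) *ᵥ (Pi.single (⟨k, hk⟩ : Fin n) 1 : Fin n → F)) s ≠ 0) :
    g ∈ K := by
  obtain ⟨j, hj⟩ : ∃ j : Fin n, j = ⟨k, hk⟩ := ⟨_, rfl⟩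
  rw [← hj] at hus
  obtain ⟨u, hu⟩ : ∃ u : Fin n → F,
      u = (g : Matrix (Fin n) (Fin n) F) *ᵥ (Pi.single j 1 : Fin n → F) := ⟨_, rfl⟩
  rw [← hu] at hus
  have hjk : j.val = k := by rw [hj]
  have hsj : s ≠ j := fun h => by rw [h] at hs; omega
  obtain ⟨φ, hφ⟩ : ∃ φ : Module.Dual F (Fin n → F),
      φ = LinearMap.proj j + ((1 - u j) / u s) • LinearMap.proj s := ⟨_, rfl⟩
  have hφx : ∀ x : Fin n → F, φ x = x j + (1 - u j) / u s * x s := by
    intro x
    rw [hφ, LinearMap.add_apply, LinearMap.smul_apply, LinearMap.proj_apply,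
      LinearMap.proj_apply, smul_eq_mul]
  have hφu : φ u = 1 := by
    rw [hφx, div_mul_cancel₀ _ hus]
    ring
  have hφj : φ (Pi.single j 1) = 1 := by
    rw [hφx, Pi.single_eq_same, Pi.single_eq_of_ne hsj, mul_zero, add_zero]
  have hφw : φ (Pi.single j 1 - u) = 0 := by
    rw [map_sub, hφj, hφu, sub_self]
  have hφi : ∀ i : Fin n, k + 1 ≤ i.val → φ (Pi.single i 1) = 0 := by
    intro i hi
    have h1 : j ≠ i := fun h => by rw [← h] at hi; omega
    have h2 : s ≠ i := fun h => by rw [← h] at hi; omega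
    rw [hφx, Pi.single_eq_of_ne h1, Pi.single_eq_of_ne h2, mul_zero, add_zero]
  have hu1 : 1 + φ (Pi.single j 1 - u) ≠ 0 := by
    rw [hφw, add_zero]
    exact one_ne_zero
  obtain ⟨t, ht⟩ : ∃ t, t = tvG φ (Pi.single j 1 - u) hu1 := ⟨_, rfl⟩
  have htK : t ∈ K := by
    rw [ht]
    exact htv _ _ hu1 hφw
  have htS : t ∈ Cfsg.Geo.specialLinear (Fin n) F :=
    (mem_sl_iff _).mpr (by rw [ht, tvG_det, hφw, add_zero])
  have htu : (t : Matrix (Fin n) (Fin n) F) *ᵥ u = Pi.single j 1 := by
    rw [ht, tvG_mulVec, hφu, one_smul]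
    abel
  have hti : ∀ i : Fin n, k + 1 ≤ i.val →
      (t : Matrix (Fin n) (Fin n) F) *ᵥ (Pi.single i 1 : Fin n → F) = Pi.single i 1 := by
    intro i hi
    rw [ht, tvG_mulVec, hφi i hi, zero_smul, add_zero]
  have hgK : t * g ∈ K := by
    apply IH (t * g) (Subgroup.mul_mem _ htS hg)
    intro i hi
    rw [Units.val_mul, ← Matrix.mulVec_mulVec]
    by_cases hik : i = j
    · rw [hik, ← hu, htu]
    · have hi' : k + 1 ≤ i.val := by
        have hne : i.val ≠ k := fun h => hik (Fin.ext (by rw [h, hjk]))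
        omega
      rw [hfix i hi', hti i hi']
  have hgeq : g = t⁻¹ * (t * g) := by rw [inv_mul_cancel_left]
  rw [hgeq]
  exact K.mul_mem (K.inv_mem htK) hgK

theorem ind (K : Subgroup (Matrix.GeneralLinearGroup (Fin n) F))
    (htv : ∀ (φ : Module.Dual F (Fin n → F)) (v : Fin n → F) (hu : 1 + φ v ≠ 0), φ v = 0 →
      tvG φ v hu ∈ K) :
    ∀ (k : ℕ) (g : Matrix.GeneralLinearGroup (Fin n) F),
      g ∈ Cfsg.Geo.specialLinear (Fin n) F →
      (∀ i : Fin n, k ≤ i.val →
        (g : Matrix (Fin n) (Fin n) F) *ᵥ (Pi.single i 1 : Fin n → F) = Pi.single i 1) → g ∈ K := by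
  intro k
  induction k with
  | zero =>
    intro g _ hfix
    have hg1 : g = 1 := gl_ext g 1 (fun x => by
      rw [fix_of_support g 0 hfix x (fun i hi => absurd hi (Nat.not_lt_zero _)), Units.val_one,
        Matrix.one_mulVec])
    rw [hg1]
    exact K.one_mem
  | succ k IH =>
    intro g hg hfix
    by_cases hkn : k < n
    · obtain ⟨j, hj⟩ : ∃ j : Fin n, j = ⟨k, hkn⟩ := ⟨_, rfl⟩
      have hjk : j.val = k := by rw [hj]
      obtain ⟨u, hu⟩ : ∃ u : Fin n → F,
          u = (g : Matrix (Fin n) (Fin n) F) *ᵥ (Pi.single j 1 : Fin n → F) := ⟨_, rfl⟩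
      by_cases hk0 : k = 0
      · have hgx : ∀ x : Fin n → F,
            (g : Matrix (Fin n) (Fin n) F) *ᵥ x = x + x j • (u - Pi.single j 1) := by
          intro x
          have h1 := fix_of_support g (k + 1) hfix (x - x j • (Pi.single j 1 : Fin n → F))
            (fun i hi => by
              have hij : i = j := Fin.ext (by omega)
              rw [hij, Pi.sub_apply, Pi.smul_apply, Pi.single_eq_same, smul_eq_mul, mul_one,
                sub_self])
          rw [Matrix.mulVec_sub, Matrix.mulVec_smul, ← hu, sub_eq_iff_eq_add] at h1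
          rw [h1, smul_sub]
          abel
        have hlin : Matrix.toLin' (g : Matrix (Fin n) (Fin n) F) =
            LinearMap.transvection (LinearMap.proj j : Module.Dual F (Fin n → F))
              (u - Pi.single j 1) :=
          LinearMap.ext fun x => by
            rw [Matrix.toLin'_apply, hgx]
            rfl
        have hdet : (g : Matrix (Fin n) (Fin n) F).det =
            1 + (LinearMap.proj j : Module.Dual F (Fin n → F)) (u - Pi.single j 1) := by
          rw [← LinearMap.det_toLin', hlin, LinearMap.transvection.det]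
        have hg1 : (g : Matrix (Fin n) (Fin n) F).det = 1 := by
          rw [← Matrix.GeneralLinearGroup.val_det_apply]
          exact (mem_sl_iff g).mp hg
        have h0 : (LinearMap.proj j : Module.Dual F (Fin n → F)) (u - Pi.single j 1) = 0 := by
          rw [hg1] at hdet
          linear_combination -hdet
        have hu1 : 1 + (LinearMap.proj j : Module.Dual F (Fin n → F)) (u - Pi.single j 1) ≠ 0 := by
          rw [h0, add_zero]
          exact one_ne_zero
        have hgt : g = tvG (LinearMap.proj j) (u - Pi.single j 1) hu1 :=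
          gl_ext _ _ (fun x => by rw [hgx, tvG_mulVec, LinearMap.proj_apply])
        rw [hgt]
        exact htv _ _ hu1 h0
      · by_cases hex : ∃ s : Fin n, s.val < k ∧ u s ≠ 0
        · obtain ⟨s, hs, hus⟩ := hex
          exact step K htv k hkn IH g hg hfix s hs (by rw [← hj, ← hu]; exact hus)
        · push Not at hex
          have huj : u j ≠ 0 := by
            intro h0
            have hgu : (g : Matrix (Fin n) (Fin n) F) *ᵥ u = u :=
              fix_of_support g (k + 1) hfix u (fun i hi => by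
                by_cases hik : i.val < k
                · exact hex i hik
                · have hij : i = j := Fin.ext (by omega)
                  rw [hij]
                  exact h0)
            have hue : u = Pi.single j 1 := g_inj g _ _ (hgu.trans hu)
            rw [hue, Pi.single_eq_same] at h0
            exact one_ne_zero h0
          obtain ⟨s₀, hs₀⟩ : ∃ s₀ : Fin n, s₀ = ⟨0, by omega⟩ := ⟨_, rfl⟩
          have hs₀v : s₀.val = 0 := by rw [hs₀]
          have hs₀j : j ≠ s₀ := fun h => by rw [← h] at hs₀v; omega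
          obtain ⟨φ, hφ⟩ : ∃ φ : Module.Dual F (Fin n → F),
              φ = (u j)⁻¹ • LinearMap.proj j := ⟨_, rfl⟩
          have hφx : ∀ x : Fin n → F, φ x = (u j)⁻¹ * x j := fun x => by
            rw [hφ, LinearMap.smul_apply, LinearMap.proj_apply, smul_eq_mul]
          have hφ0 : φ (Pi.single s₀ 1) = 0 := by
            rw [hφx, Pi.single_eq_of_ne hs₀j, mul_zero]
          have hu1 : 1 + φ (Pi.single s₀ 1) ≠ 0 := by
            rw [hφ0, add_zero]
            exact one_ne_zero
          obtain ⟨t, ht⟩ : ∃ t, t = tvG φ (Pi.single s₀ 1) hu1 := ⟨_, rfl⟩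
          have htK : t ∈ K := by
            rw [ht]
            exact htv _ _ hu1 hφ0
          have htS : t ∈ Cfsg.Geo.specialLinear (Fin n) F :=
            (mem_sl_iff _).mpr (by rw [ht, tvG_det, hφ0, add_zero])
          have hgK : t * g ∈ K := by
            apply step K htv k hkn IH (t * g) (Subgroup.mul_mem _ htS hg) ?_ s₀ (by omega) ?_
            · intro i hi
              have hji : j ≠ i := fun h => by rw [← h] at hi; omega
              rw [Units.val_mul, ← Matrix.mulVec_mulVec, hfix i hi, ht, tvG_mulVec, hφx,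
                Pi.single_eq_of_ne hji, mul_zero, zero_smul, add_zero]
            · rw [← hj, Units.val_mul, ← Matrix.mulVec_mulVec, ← hu, ht, tvG_mulVec, hφx,
                inv_mul_cancel₀ huj, one_smul, Pi.add_apply, hex s₀ (by omega), zero_add,
                Pi.single_eq_same]
              exact one_ne_zero
          have hgeq : g = t⁻¹ * (t * g) := by rw [inv_mul_cancel_left]
          rw [hgeq]
          exact K.mul_mem (K.inv_mem htK) hgK
    · exact IH g hg (fun i hi => absurd i.isLt (by omega))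

/-- a subgroup containing all transvections contains the special linear group -/
theorem sl_le_of_tv (K : Subgroup (Matrix.GeneralLinearGroup (Fin n) F))
    (htv : ∀ (φ : Module.Dual F (Fin n → F)) (v : Fin n → F) (hu : 1 + φ v ≠ 0), φ v = 0 →
      tvG φ v hu ∈ K) :
    Cfsg.Geo.specialLinear (Fin n) F ≤ K := by
  intro g hg
  exact ind K htv n g hg (fun i hi => absurd i.isLt (by omega))

end Cfsg.Agent.Lib.Helper9.SLGen
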