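import Mathlib
import Cfsg.Agent.S5643

set_option autoImplicit false

namespace Cfsg.Agent.Lib.Helper9.SUa

open Cfsg
open Cfsg.Agent.S5635 (tvG tvG_mulVec tvG_det mem_sl_iff)
open Cfsg.Agent.S5631 (gl_ext mul_inv_mulVec tv_conj)
open Cfsg.Agent.S5643 (fl fl_apply herm' herm_self herm_ne herm_zero f_add_right f_smul_right
  f_zero_left f_zero_right f_sub_right f_sub_left f_neg_right exists_eps exists_moved tr_surj
  norm_surj iso_adjust ker_ne iso_ker)
open scoped Matrix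

variable {F : Type*} [Field F] [Fintype F] {n : ℕ} {σ : F ≃+* F}
  {f : (Fin n → F) → (Fin n → F) → F}

theorem sig_eps {e : F} (he : e + σ e = 0) : σ e = -e := eq_neg_of_add_eq_zero_right he

/-- the map `x ↦ x + c f(x,v) v` -/
noncomputable def rf (hf : Cfsg.Geo.IsUnitaryForm σ f) (v : Fin n → F) (c : F)
    (hu : 1 + c * f v v ≠ 0) : Matrix.GeneralLinearGroup (Fin n) F :=
  tvG (c • fl hf v) v (show 1 + (c • fl hf v) v ≠ 0 from hu)

theorem rf_mulVec (hf : Cfsg.Geo.IsUnitaryForm σ f) (v : Fin n → F) (c : F)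
    (hu : 1 + c * f v v ≠ 0) (x : Fin n → F) :
    ((rf hf v c hu : Matrix.GeneralLinearGroup (Fin n) F) : Matrix (Fin n) (Fin n) F) *ᵥ x
      = x + (c * f x v) • v := by
  rw [rf, tvG_mulVec]
  rfl

theorem rf_iso (hf : Cfsg.Geo.IsUnitaryForm σ f) (v : Fin n → F) (c : F)
    (hu : 1 + c * f v v ≠ 0) (hc : c + σ c + c * σ c * f v v = 0) (x y : Fin n → F) :
    f (((rf hf v c hu : Matrix.GeneralLinearGroup (Fin n) F) : Matrix (Fin n) (Fin n) F) *ᵥ x)
      (((rf hf v c hu : Matrix.GeneralLinearGroup (Fin n) F) : Matrix (Fin n) (Fin n) F) *ᵥ y)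
      = f x y := by
  rw [rf_mulVec, rf_mulVec]
  simp only [hf.add_left, hf.smul_left, f_add_right hf, f_smul_right hf, map_mul, herm' hf]
  linear_combination (f x v * f v y) * hc

theorem rf_det (hf : Cfsg.Geo.IsUnitaryForm σ f) (v : Fin n → F) (c : F)
    (hu : 1 + c * f v v ≠ 0) :
    ((Matrix.GeneralLinearGroup.det (rf hf v c hu) : Fˣ) : F) = 1 + c * f v v := by
  rw [rf, tvG_det]
  rfl

/-- the isometry group of `f` -/
abbrev GUf (f : (Fin n → F) → (Fin n → F) → F) : Subgroup (Matrix.GeneralLinearGroup (Fin n) F) :=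
  Cfsg.preserving (Units.coeHom (Matrix (Fin n) (Fin n) F)) f

theorem mem_GUf (g : Matrix.GeneralLinearGroup (Fin n) F) :
    g ∈ GUf f ↔ ∀ u v, f ((g : Matrix (Fin n) (Fin n) F) *ᵥ u)
      ((g : Matrix (Fin n) (Fin n) F) *ᵥ v) = f u v := Iff.rfl

theorem rf_mem_GU (hf : Cfsg.Geo.IsUnitaryForm σ f) (v : Fin n → F) (c : F)
    (hu : 1 + c * f v v ≠ 0) (hc : c + σ c + c * σ c * f v v = 0) : rf hf v c hu ∈ GUf f :=
  (mem_GUf _).mpr (fun x y => rf_iso hf v c hu hc x y)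

theorem rf_conj (hf : Cfsg.Geo.IsUnitaryForm σ f) (g : Matrix.GeneralLinearGroup (Fin n) F)
    (hg : g ∈ GUf f) (a : Fin n → F) (c : F) (hu : 1 + c * f a a ≠ 0)
    (hu' : 1 + c * f ((g : Matrix (Fin n) (Fin n) F) *ᵥ a)
      ((g : Matrix (Fin n) (Fin n) F) *ᵥ a) ≠ 0) :
    rf hf ((g : Matrix (Fin n) (Fin n) F) *ᵥ a) c hu' = g * rf hf a c hu * g⁻¹ := by
  unfold rf
  exact tv_conj g (c • fl hf a) (c • fl hf ((g : Matrix (Fin n) (Fin n) F) *ᵥ a)) a
    ((g : Matrix (Fin n) (Fin n) F) *ᵥ a) 1 (one_smul F _).symm (fun y => by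
      rw [one_mul]
      show c * f y a = c * f ((g : Matrix (Fin n) (Fin n) F) *ᵥ y)
        ((g : Matrix (Fin n) (Fin n) F) *ᵥ a)
      rw [(mem_GUf g).mp hg y a]) _ _

/-- the orthogonal complement of a list of vectors -/
def Yp (hf : Cfsg.Geo.IsUnitaryForm σ f) (X : List (Fin n → F)) : Submodule F (Fin n → F) where
  carrier := {y | ∀ v ∈ X, f y v = 0}
  add_mem' := by
    intro a b ha hb v hv
    rw [hf.add_left, ha v hv, hb v hv, add_zero]
  zero_mem' := fun v _ => f_zero_left hf v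
  smul_mem' := by
    intro c x hx v hv
    rw [hf.smul_left, hx v hv, mul_zero]

theorem mem_Yp (hf : Cfsg.Geo.IsUnitaryForm σ f) (X : List (Fin n → F)) (y : Fin n → F) :
    y ∈ Yp hf X ↔ ∀ v ∈ X, f y v = 0 := Iff.rfl

theorem mem_Yp_cons (hf : Cfsg.Geo.IsUnitaryForm σ f) (u : Fin n → F) (X : List (Fin n → F))
    (y : Fin n → F) : y ∈ Yp hf (u :: X) ↔ f y u = 0 ∧ y ∈ Yp hf X := by
  rw [mem_Yp, mem_Yp, List.forall_mem_cons]

theorem iso_in (hf : Cfsg.Geo.IsUnitaryForm σ f) (X : List (Fin n → F)) (hk : X.length + 1 < n) :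
    ∃ y : Fin n → F, y ≠ 0 ∧ f y y = 0 ∧ y ∈ Yp hf X := by
  obtain ⟨y, hy0, hyy, hyL⟩ := iso_ker hf (X.map (fl hf)) (by rw [List.length_map]; exact hk)
  exact ⟨y, hy0, hyy, fun v hv => hyL (fl hf v) (List.mem_map_of_mem hv)⟩

/-- orthogonal projections onto the span of `X` exist -/
def Proj (hf : Cfsg.Geo.IsUnitaryForm σ f) (X : List (Fin n → F)) : Prop :=
  ∀ x : Fin n → F, ∃ p : Fin n → F, x - p ∈ Yp hf X ∧ ∀ y ∈ Yp hf X, f p y = 0

theorem Proj_nil (hf : Cfsg.Geo.IsUnitaryForm σ f) : Proj hf ([] : List (Fin n → F)) :=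
  fun x => ⟨0, fun v hv => absurd hv List.not_mem_nil, fun y _ => f_zero_left hf y⟩

theorem Proj_cons_aniso (hf : Cfsg.Geo.IsUnitaryForm σ f) {X : List (Fin n → F)}
    (hX : Proj hf X) {u : Fin n → F} (hu : u ∈ Yp hf X) (huu : f u u ≠ 0) :
    Proj hf (u :: X) := by
  intro x
  obtain ⟨p, hp1, hp2⟩ := hX x
  refine ⟨p + (f (x - p) u / f u u) • u, ?_, ?_⟩
  · rw [mem_Yp_cons]
    have e1 : x - (p + (f (x - p) u / f u u) • u) = (x - p) - (f (x - p) u / f u u) • u := by abel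
    rw [e1]
    refine ⟨?_, Submodule.sub_mem _ hp1 (Submodule.smul_mem _ _ hu)⟩
    rw [f_sub_left hf, hf.smul_left, div_mul_cancel₀ _ huu, sub_self]
  · intro y hy
    rw [mem_Yp_cons] at hy
    rw [hf.add_left, hf.smul_left, hp2 y hy.2, herm_zero hf hy.1, mul_zero, add_zero]

theorem Proj_cons_hyp (hf : Cfsg.Geo.IsUnitaryForm σ f) {X : List (Fin n → F)}
    (hX : Proj hf X) {e e' : Fin n → F} (he : e ∈ Yp hf X) (he' : e' ∈ Yp hf X)
    (hee : f e e = 0) (he'e' : f e' e' = 0) (h1 : f e' e = 1) : Proj hf (e :: e' :: X) := by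
  have h1' : f e e' = 1 := by rw [hf.herm e e', h1, map_one]
  intro x
  obtain ⟨p, hp1, hp2⟩ := hX x
  refine ⟨p + (f (x - p) e' • e + f (x - p) e • e'), ?_, ?_⟩
  · rw [mem_Yp_cons, mem_Yp_cons]
    have e1 : x - (p + (f (x - p) e' • e + f (x - p) e • e'))
        = (x - p) - (f (x - p) e' • e + f (x - p) e • e') := by abel
    rw [e1]
    refine ⟨?_, ?_, Submodule.sub_mem _ hp1 (Submodule.add_mem _ (Submodule.smul_mem _ _ he)
      (Submodule.smul_mem _ _ he'))⟩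
    · rw [f_sub_left hf, hf.add_left, hf.smul_left, hf.smul_left, hee, h1]
      ring
    · rw [f_sub_left hf, hf.add_left, hf.smul_left, hf.smul_left, he'e', h1']
      ring
  · intro y hy
    rw [mem_Yp_cons, mem_Yp_cons] at hy
    rw [hf.add_left, hf.add_left, hf.smul_left, hf.smul_left, hp2 y hy.2.2, herm_zero hf hy.1,
      herm_zero hf hy.2.1, mul_zero, mul_zero, add_zero, add_zero]

theorem nd_of_proj (hf : Cfsg.Geo.IsUnitaryForm σ f) {X : List (Fin n → F)} (hX : Proj hf X)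
    {y : Fin n → F} (hy : y ∈ Yp hf X) (hy0 : y ≠ 0) : ∃ x ∈ Yp hf X, f x y ≠ 0 := by
  obtain ⟨x, hx⟩ := (hf.nondegenerate y hy0).1
  obtain ⟨p, hp1, hp2⟩ := hX x
  refine ⟨x - p, hp1, ?_⟩
  rw [f_sub_left hf, hp2 y hy, sub_zero]
  exact hx

theorem hyp_partner (hf : Cfsg.Geo.IsUnitaryForm σ f) {X : List (Fin n → F)} (hX : Proj hf X)
    {e : Fin n → F} (he : e ∈ Yp hf X) (he0 : e ≠ 0) (hee : f e e = 0) :
    ∃ e' : Fin n → F, e' ∈ Yp hf X ∧ f e' e' = 0 ∧ f e' e = 1 := by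
  obtain ⟨x, hx, hxe⟩ := nd_of_proj hf hX he he0
  obtain ⟨t, ht⟩ := iso_adjust hf hee (herm_ne hf hxe)
  have h1 : f (x + t • e) e = f x e := by
    rw [hf.add_left, hf.smul_left, hee, mul_zero, add_zero]
  refine ⟨(f x e)⁻¹ • (x + t • e),
    Submodule.smul_mem _ _ (Submodule.add_mem _ hx (Submodule.smul_mem _ _ he)), ?_, ?_⟩
  · rw [hf.smul_left, f_smul_right hf, ht, mul_zero, mul_zero]
  · rw [hf.smul_left, h1, inv_mul_cancel₀ hxe]

theorem hyp_pair (hf : Cfsg.Geo.IsUnitaryForm σ f) {X : List (Fin n → F)} (hX : Proj hf X)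
    (hk : X.length + 1 < n) :
    ∃ e e' : Fin n → F, e ∈ Yp hf X ∧ e' ∈ Yp hf X ∧ f e e = 0 ∧ f e' e' = 0 ∧ f e' e = 1 := by
  obtain ⟨e, he0, hee, he⟩ := iso_in hf X hk
  obtain ⟨e', he', he'e', h1⟩ := hyp_partner hf hX he he0 hee
  exact ⟨e, e', he, he', hee, he'e', h1⟩

theorem norm_vec (hf : Cfsg.Geo.IsUnitaryForm σ f) {X : List (Fin n → F)} (hX : Proj hf X)
    (hk : X.length + 1 < n) (c : F) (hc : σ c = c) :
    ∃ y : Fin n → F, y ∈ Yp hf X ∧ f y y = c ∧ y ≠ 0 := by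
  obtain ⟨e, e', he, he', hee, he'e', h1⟩ := hyp_pair hf hX hk
  have h1' : f e e' = 1 := by rw [hf.herm e e', h1, map_one]
  obtain ⟨γ, hγ⟩ := tr_surj hf c hc
  refine ⟨e + γ • e', Submodule.add_mem _ he (Submodule.smul_mem _ _ he'), ?_, ?_⟩
  · simp only [hf.add_left, hf.smul_left, f_add_right hf, f_smul_right hf, hee, he'e', h1, h1',
      mul_zero, mul_one, add_zero, zero_add]
    linear_combination hγ
  · intro h0
    have h2 : f e' (e + γ • e') = 1 := by
      rw [f_add_right hf, f_smul_right hf, h1, he'e', mul_zero, add_zero]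
    rw [h0, f_zero_right hf] at h2
    exact zero_ne_one h2

theorem iso_ne (hf : Cfsg.Geo.IsUnitaryForm σ f) {X : List (Fin n → F)} (hX : Proj hf X)
    (hk : X.length + 1 < n) (ν : Module.Dual F (Fin n → F)) {x₀ : Fin n → F}
    (hx₀ : x₀ ∈ Yp hf X) (hν : ν x₀ ≠ 0) :
    ∃ z : Fin n → F, z ∈ Yp hf X ∧ f z z = 0 ∧ ν z ≠ 0 := by
  obtain ⟨e, e', he, he', hee, he'e', h1⟩ := hyp_pair hf hX hk
  have h1' : f e e' = 1 := by rw [hf.herm e e', h1, map_one]
  by_cases hνe : ν e = 0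
  swap
  · exact ⟨e, he, hee, hνe⟩
  by_cases hνe' : ν e' = 0
  swap
  · exact ⟨e', he', he'e', hνe'⟩
  obtain ⟨u₀, hu₀⟩ : ∃ u₀ : Fin n → F, u₀ = x₀ - f x₀ e' • e - f x₀ e • e' := ⟨_, rfl⟩
  have hu₀Y : u₀ ∈ Yp hf X := by
    rw [hu₀]
    exact Submodule.sub_mem _ (Submodule.sub_mem _ hx₀ (Submodule.smul_mem _ _ he))
      (Submodule.smul_mem _ _ he')
  have hu₀e : f u₀ e = 0 := by
    rw [hu₀, f_sub_left hf, f_sub_left hf, hf.smul_left, hf.smul_left, hee, h1]
    ring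
  have hu₀e' : f u₀ e' = 0 := by
    rw [hu₀, f_sub_left hf, f_sub_left hf, hf.smul_left, hf.smul_left, he'e', h1']
    ring
  have heu₀ : f e u₀ = 0 := herm_zero hf hu₀e
  have he'u₀ : f e' u₀ = 0 := herm_zero hf hu₀e'
  obtain ⟨μ, hμ⟩ := tr_surj hf (-(f u₀ u₀)) (by rw [map_neg, herm_self hf])
  refine ⟨u₀ + (e + μ • e'), Submodule.add_mem _ hu₀Y
    (Submodule.add_mem _ he (Submodule.smul_mem _ _ he')), ?_, ?_⟩
  · simp only [hf.add_left, hf.smul_left, f_add_right hf, f_smul_right hf, hu₀e, hu₀e', heu₀,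
      he'u₀, hee, he'e', h1, h1', mul_zero, mul_one, add_zero, zero_add]
    linear_combination hμ
  · rw [map_add, map_add, map_smul, hνe, hνe', smul_zero, add_zero, add_zero, hu₀, map_sub,
      map_sub, map_smul, map_smul, hνe, hνe', smul_zero, smul_zero, sub_zero, sub_zero]
    exact hν

theorem sep (hf : Cfsg.Geo.IsUnitaryForm σ f) {X : List (Fin n → F)} (hX : Proj hf X)
    {z z' : Fin n → F} (hz : z ∈ Yp hf X) (hz' : z' ∈ Yp hf X) (hind : ∀ c : F, z ≠ c • z') :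
    ∃ u : Fin n → F, u ∈ Yp hf X ∧ f u z = 1 ∧ f u z' = 0 := by
  have key : ∃ u : Fin n → F, u ∈ Yp hf X ∧ f u z' = 0 ∧ f u z ≠ 0 := by
    by_contra hcon
    push Not at hcon
    by_cases hA : ∀ y ∈ Yp hf X, f y z' = 0
    · have hz0 : z = 0 := by
        by_contra hz0
        obtain ⟨x, hx, hxz⟩ := nd_of_proj hf hX hz hz0
        exact hxz (hcon x hx (hA x hx))
      have hz'0 : z' = 0 := by
        by_contra hz'0
        obtain ⟨x, hx, hxz⟩ := nd_of_proj hf hX hz' hz'0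
        exact hxz (hA x hx)
      exact hind 0 (by rw [hz0, zero_smul])
    · push Not at hA
      obtain ⟨y₀, hy₀, hy₀z'⟩ := hA
      have h2 : ∀ y ∈ Yp hf X, f y z = f y z' / f y₀ z' * f y₀ z := by
        intro y hy
        have h3 := hcon (y - (f y z' / f y₀ z') • y₀)
          (Submodule.sub_mem _ hy (Submodule.smul_mem _ _ hy₀))
          (by rw [f_sub_left hf, hf.smul_left, div_mul_cancel₀ _ hy₀z', sub_self])
        rw [f_sub_left hf, hf.smul_left, sub_eq_zero] at h3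
        exact h3
      have h4 : z - σ (f y₀ z / f y₀ z') • z' = 0 := by
        by_contra hne
        obtain ⟨x, hx, hxz⟩ := nd_of_proj hf hX
          (Submodule.sub_mem _ hz (Submodule.smul_mem _ _ hz')) hne
        apply hxz
        rw [f_sub_right hf, f_smul_right hf, hf.involutive, h2 x hx]
        ring
      exact hind _ (sub_eq_zero.mp h4)
  obtain ⟨u, hu, huz', huz⟩ := key
  refine ⟨(f u z)⁻¹ • u, Submodule.smul_mem _ _ hu, ?_, ?_⟩
  · rw [hf.smul_left, inv_mul_cancel₀ huz]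
  · rw [hf.smul_left, huz', mul_zero]

theorem ex_iso (hf : Cfsg.Geo.IsUnitaryForm σ f) {X : List (Fin n → F)} (hX : Proj hf X)
    (hk : X.length + 5 < n) {z z' : Fin n → F} (hz : z ∈ Yp hf X) (hz' : z' ∈ Yp hf X)
    (h1 : ∀ c : F, z ≠ c • z') (h2 : ∀ c : F, z' ≠ c • z) (α β : F) :
    ∃ d : Fin n → F, d ∈ Yp hf X ∧ f d d = 0 ∧ f d z = α ∧ f d z' = β := by
  obtain ⟨u₁, hu₁, hu₁z, hu₁z'⟩ := sep hf hX hz hz' h1
  obtain ⟨u₂, hu₂, hu₂z', hu₂z⟩ := sep hf hX hz' hz h2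
  obtain ⟨e, he0, hee, heY⟩ := iso_in hf (z :: z' :: u₁ :: u₂ :: X) (by
    simp only [List.length_cons]
    omega)
  rw [mem_Yp_cons, mem_Yp_cons, mem_Yp_cons, mem_Yp_cons] at heY
  obtain ⟨hez, hez', heu₁, heu₂, he⟩ := heY
  obtain ⟨x', hx', hx'e⟩ := nd_of_proj hf hX he he0
  obtain ⟨d₁, hd₁, hd₁z, hd₁z', hed₁⟩ : ∃ d₁ : Fin n → F, d₁ ∈ Yp hf X ∧ f d₁ z = α ∧
      f d₁ z' = β ∧ f e d₁ ≠ 0 := by
    have hd₀ : α • u₁ + β • u₂ ∈ Yp hf X :=
      Submodule.add_mem _ (Submodule.smul_mem _ _ hu₁) (Submodule.smul_mem _ _ hu₂)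
    have hd₀z : f (α • u₁ + β • u₂) z = α := by
      rw [hf.add_left, hf.smul_left, hf.smul_left, hu₁z, hu₂z, mul_one, mul_zero, add_zero]
    have hd₀z' : f (α • u₁ + β • u₂) z' = β := by
      rw [hf.add_left, hf.smul_left, hf.smul_left, hu₁z', hu₂z', mul_one, mul_zero, zero_add]
    by_cases hd : f e (α • u₁ + β • u₂) = 0
    · have hxY : x' - f x' z • u₁ - f x' z' • u₂ ∈ Yp hf X :=
        Submodule.sub_mem _ (Submodule.sub_mem _ hx' (Submodule.smul_mem _ _ hu₁))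
          (Submodule.smul_mem _ _ hu₂)
      have hxz : f (x' - f x' z • u₁ - f x' z' • u₂) z = 0 := by
        rw [f_sub_left hf, f_sub_left hf, hf.smul_left, hf.smul_left, hu₁z, hu₂z]
        ring
      have hxz' : f (x' - f x' z • u₁ - f x' z' • u₂) z' = 0 := by
        rw [f_sub_left hf, f_sub_left hf, hf.smul_left, hf.smul_left, hu₁z', hu₂z']
        ring
      have hxe : f (x' - f x' z • u₁ - f x' z' • u₂) e = f x' e := by
        rw [f_sub_left hf, f_sub_left hf, hf.smul_left, hf.smul_left, herm_zero hf heu₁,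
          herm_zero hf heu₂]
        ring
      refine ⟨α • u₁ + β • u₂ + (x' - f x' z • u₁ - f x' z' • u₂), Submodule.add_mem _ hd₀ hxY,
        ?_, ?_, ?_⟩
      · rw [hf.add_left, hd₀z, hxz, add_zero]
      · rw [hf.add_left, hd₀z', hxz', add_zero]
      · rw [f_add_right hf, hd, zero_add]
        exact herm_ne hf (by rw [hxe]; exact hx'e)
    · exact ⟨α • u₁ + β • u₂, hd₀, hd₀z, hd₀z', hd⟩
  obtain ⟨t, ht⟩ := iso_adjust hf hee hed₁
  refine ⟨d₁ + t • e, Submodule.add_mem _ hd₁ (Submodule.smul_mem _ _ he), ht, ?_, ?_⟩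
  · rw [hf.add_left, hf.smul_left, hez, mul_zero, add_zero, hd₁z]
  · rw [hf.add_left, hf.smul_left, hez', mul_zero, add_zero, hd₁z']

/-- `z` can be moved to `z'` by an element of `K` fixing `X` pointwise -/
def Rel (K : Subgroup (Matrix.GeneralLinearGroup (Fin n) F)) (X : List (Fin n → F))
    (z z' : Fin n → F) : Prop :=
  ∃ t ∈ K, (∀ v ∈ X, (t : Matrix (Fin n) (Fin n) F) *ᵥ v = v) ∧
    (t : Matrix (Fin n) (Fin n) F) *ᵥ z = z'

theorem Rel_trans {K : Subgroup (Matrix.GeneralLinearGroup (Fin n) F)} {X : List (Fin n → F)}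
    {a b c : Fin n → F} (h1 : Rel K X a b) (h2 : Rel K X b c) : Rel K X a c := by
  obtain ⟨t₁, ht₁, hf₁, hm₁⟩ := h1
  obtain ⟨t₂, ht₂, hf₂, hm₂⟩ := h2
  refine ⟨t₂ * t₁, K.mul_mem ht₂ ht₁, fun v hv => ?_, ?_⟩
  · rw [Units.val_mul, ← Matrix.mulVec_mulVec, hf₁ v hv, hf₂ v hv]
  · rw [Units.val_mul, ← Matrix.mulVec_mulVec, hm₁, hm₂]

/-- `K` contains the unitary transvections with centres orthogonal to `X` -/
def HasTv (hf : Cfsg.Geo.IsUnitaryForm σ f) (K : Subgroup (Matrix.GeneralLinearGroup (Fin n) F))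
    (X : List (Fin n → F)) : Prop :=
  ∀ (a : Fin n → F) (κ : F) (hu : 1 + κ * f a a ≠ 0), a ∈ Yp hf X → f a a = 0 → κ + σ κ = 0 →
    rf hf a κ hu ∈ K

theorem one_step (hf : Cfsg.Geo.IsUnitaryForm σ f)
    {K : Subgroup (Matrix.GeneralLinearGroup (Fin n) F)} {X : List (Fin n → F)}
    (hK : HasTv hf K X) {z d : Fin n → F} (hd : d ∈ Yp hf X) (hdd : f d d = 0)
    (hs : f z d + f d z = 0) (hne : f z d ≠ 0) : Rel K X z (z + d) := by
  have hκ : (f z d)⁻¹ + σ (f z d)⁻¹ = 0 := by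
    rw [map_inv₀, herm' hf, eq_neg_of_add_eq_zero_right hs, inv_neg, add_neg_cancel]
  have hu : 1 + (f z d)⁻¹ * f d d ≠ 0 := by
    rw [hdd, mul_zero, add_zero]
    exact one_ne_zero
  refine ⟨rf hf d (f z d)⁻¹ hu, hK d _ hu hd hdd hκ, fun v hv => ?_, ?_⟩
  · rw [rf_mulVec, herm_zero hf (hd v hv), mul_zero, zero_smul, add_zero]
  · rw [rf_mulVec, inv_mul_cancel₀ hne, one_smul]

theorem two_step (hf : Cfsg.Geo.IsUnitaryForm σ f)
    {K : Subgroup (Matrix.GeneralLinearGroup (Fin n) F)} {X : List (Fin n → F)}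
    (hX : Proj hf X) (hk : X.length + 5 < n) (hK : HasTv hf K X) {z z' : Fin n → F}
    (hz : z ∈ Yp hf X) (hz' : z' ∈ Yp hf X) (hN : f z z = f z' z')
    (h1 : ∀ c : F, z ≠ c • z') (h2 : ∀ c : F, z' ≠ c • z) : Rel K X z z' := by
  obtain ⟨ε, hε0, hε⟩ := exists_eps hf
  have hσε : σ ε = -ε := sig_eps hε
  obtain ⟨d, hd, hdd, hdz, hdz'⟩ := ex_iso hf hX hk hz hz' h1 h2 ε (ε - f z z' + f z z)
  have hzd : f z d = -ε := by rw [hf.herm z d, hdz, hσε]
  have hz'd : f z' d = -ε - f z' z + f z z := by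
    rw [hf.herm z' d, hdz', map_add, map_sub, hσε, herm' hf, herm_self hf]
  have s1 : Rel K X z (z + d) := one_step hf hK hd hdd (by rw [hzd, hdz]; ring)
    (by rw [hzd]; exact neg_ne_zero.mpr hε0)
  have hd2Y : z' - (z + d) ∈ Yp hf X := Submodule.sub_mem _ hz' (Submodule.add_mem _ hz hd)
  have e1 : f (z + d) (z' - (z + d)) = ε := by
    simp only [hf.add_left, f_sub_right hf, f_add_right hf, hdz, hdz', hdd, hzd]
    ring
  have e2 : f (z' - (z + d)) (z + d) = -ε := by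
    rw [hf.herm, e1, hσε]
  have e3 : f (z' - (z + d)) (z' - (z + d)) = 0 := by
    simp only [f_sub_left hf, hf.add_left, f_sub_right hf, f_add_right hf, hdz, hdz', hdd, hzd,
      hz'd, ← hN]
    ring
  have s2 : Rel K X (z + d) (z + d + (z' - (z + d))) := one_step hf hK hd2Y e3
    (by rw [e1, e2]; ring) (by rw [e1]; exact hε0)
  rw [add_sub_cancel] at s2
  exact Rel_trans s1 s2

theorem TR (hf : Cfsg.Geo.IsUnitaryForm σ f)
    {K : Subgroup (Matrix.GeneralLinearGroup (Fin n) F)} {X : List (Fin n → F)}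
    (hX : Proj hf X) (hk : X.length + 6 < n) (hK : HasTv hf K X) {z z' : Fin n → F}
    (hz : z ∈ Yp hf X) (hz' : z' ∈ Yp hf X) (hz0 : z ≠ 0) (hz'0 : z' ≠ 0)
    (hN : f z z = f z' z') : Rel K X z z' := by
  by_cases hdep : ∃ c : F, z' = c • z
  · obtain ⟨l, hl⟩ := hdep
    have hl0 : l ≠ 0 := by
      intro h
      rw [h, zero_smul] at hl
      exact hz'0 hl
    obtain ⟨u, hu, huz⟩ := nd_of_proj hf hX hz hz0
    obtain ⟨v, hv0, hvv, hvY⟩ := iso_in hf (z :: u :: X) (by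
      simp only [List.length_cons]
      omega)
    rw [mem_Yp_cons, mem_Yp_cons] at hvY
    obtain ⟨hvz, hvu, hv⟩ := hvY
    have hzv : f z v = 0 := herm_zero hf hvz
    have hN1 : f z z = f (z + v) (z + v) := by
      simp only [hf.add_left, f_add_right hf, hvz, hzv, hvv, add_zero]
    have hind : ∀ c : F, z + v ≠ c • z := by
      intro c hc
      have h3 : v = (c - 1) • z := by
        rw [sub_smul, one_smul, ← hc]
        abel
      have h4 : (c - 1) * f z u = 0 := by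
        rw [← hf.smul_left, ← h3]
        exact hvu
      rcases mul_eq_zero.mp h4 with h5 | h5
      · rw [h5, zero_smul] at h3
        exact hv0 h3
      · exact herm_ne hf huz h5
    have hsY : z + v ∈ Yp hf X := Submodule.add_mem _ hz hv
    have hind2 : ∀ c : F, z ≠ c • (z + v) := by
      intro c hc
      have hc0 : c ≠ 0 := by
        intro h
        rw [h, zero_smul] at hc
        exact hz0 hc
      apply hind c⁻¹
      conv_rhs => rw [hc, smul_smul, inv_mul_cancel₀ hc0, one_smul]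
    have s1 : Rel K X z (z + v) := two_step hf hX (by omega) hK hz hsY hN1 hind2 hind
    have hind3 : ∀ c : F, z + v ≠ c • z' := by
      intro c hc
      rw [hl, smul_smul] at hc
      exact hind _ hc
    have hind4 : ∀ c : F, z' ≠ c • (z + v) := by
      intro c hc
      have hc0 : c ≠ 0 := by
        intro h
        rw [h, zero_smul] at hc
        exact hz'0 hc
      apply hind (c⁻¹ * l)
      rw [← smul_smul, ← hl, hc, smul_smul, inv_mul_cancel₀ hc0, one_smul]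
    have s2 : Rel K X (z + v) z' := two_step hf hX (by omega) hK hsY hz' (by rw [← hN1, hN])
      hind3 hind4
    exact Rel_trans s1 s2
  · push Not at hdep
    have hind : ∀ c : F, z ≠ c • z' := by
      intro c hc
      have hc0 : c ≠ 0 := by
        intro h
        rw [h, zero_smul] at hc
        exact hz0 hc
      apply hdep c⁻¹
      rw [hc, smul_smul, inv_mul_cancel₀ hc0, one_smul]
    exact two_step hf hX (by omega) hK hz hz' hN hind hdep

end Cfsg.Agent.Lib.Helper9.SUa
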