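import Mathlib
import Cfsg.Agent.Lib.Helper9.SUa
import Cfsg.Agent.Lib.Helper9.Transvection

set_option autoImplicit false

namespace Cfsg.Agent.Lib.Helper9.SUb

open Cfsg
open Cfsg.Agent.S5635 (tvG tvG_mulVec tvG_det mem_sl_iff)
open Cfsg.Agent.S5631 (gl_ext mul_inv_mulVec tv_conj)
open Cfsg.Agent.S5643 (fl fl_apply herm' herm_self herm_ne herm_zero f_add_right f_smul_right
  f_zero_left f_zero_right f_sub_right f_sub_left f_neg_right exists_eps exists_moved tr_surj
  norm_surj iso_adjust ker_ne iso_ker)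
open Cfsg.Agent.Lib.Helper9.SUa
open scoped Matrix

variable {F : Type*} [Field F] [Fintype F] {n : ℕ} {σ : F ≃+* F}
  {f : (Fin n → F) → (Fin n → F) → F}

/-- isotropic vectors all of whose unitary transvections lie in `M` -/
def Cn (hf : Cfsg.Geo.IsUnitaryForm σ f) (M : Subgroup (Matrix.GeneralLinearGroup (Fin n) F))
    (a : Fin n → F) : Prop :=
  f a a = 0 ∧ ∀ (κ : F) (hu : 1 + κ * f a a ≠ 0), κ + σ κ = 0 → rf hf a κ hu ∈ M

theorem Cn_map (hf : Cfsg.Geo.IsUnitaryForm σ f)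
    {M : Subgroup (Matrix.GeneralLinearGroup (Fin n) F)} {h : Matrix.GeneralLinearGroup (Fin n) F}
    (hM : h ∈ M) (hG : h ∈ GUf f) {a : Fin n → F} (ha : Cn hf M a) :
    Cn hf M ((h : Matrix (Fin n) (Fin n) F) *ᵥ a) := by
  have hN : f ((h : Matrix (Fin n) (Fin n) F) *ᵥ a) ((h : Matrix (Fin n) (Fin n) F) *ᵥ a) = 0 := by
    rw [(mem_GUf h).mp hG a a]
    exact ha.1
  refine ⟨hN, fun κ hu hκ => ?_⟩
  have hu0 : 1 + κ * f a a ≠ 0 := by
    rw [ha.1, mul_zero, add_zero]
    exact one_ne_zero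
  rw [rf_conj hf h hG a κ hu0 hu]
  exact M.mul_mem (M.mul_mem hM (ha.2 κ hu0 hκ)) (M.inv_mem hM)

theorem Cn_line (hf : Cfsg.Geo.IsUnitaryForm σ f)
    {M : Subgroup (Matrix.GeneralLinearGroup (Fin n) F)} {a b : Fin n → F} (ha : Cn hf M a)
    (hb : Cn hf M b) (hba : f b a ≠ 0) {μ : F} (hiso : f (b + μ • a) (b + μ • a) = 0) :
    Cn hf M (b + μ • a) := by
  have hab : f a b ≠ 0 := herm_ne hf hba
  have hiso' : σ μ * f b a + μ * f a b = 0 := by
    have h1 := hiso
    simp only [hf.add_left, hf.smul_left, f_add_right hf, f_smul_right hf, ha.1, hb.1, mul_zero,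
      add_zero, zero_add] at h1
    linear_combination h1
  have hκ : μ / f b a + σ (μ / f b a) = 0 := by
    rw [map_div₀, herm' hf b a, div_add_div _ _ hba hab, div_eq_zero_iff]
    left
    linear_combination hiso'
  have hu0 : 1 + μ / f b a * f a a ≠ 0 := by
    rw [ha.1, mul_zero, add_zero]
    exact one_ne_zero
  have hmem : rf hf a (μ / f b a) hu0 ∈ M := ha.2 _ hu0 hκ
  have hG : rf hf a (μ / f b a) hu0 ∈ GUf f :=
    rf_mem_GU hf a _ hu0 (by rw [ha.1, mul_zero, add_zero]; exact hκ)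
  have h2 := Cn_map hf hmem hG hb
  rw [rf_mulVec, div_mul_cancel₀ _ hba] at h2
  exact h2

theorem stab_of_le (W : Submodule F (Fin n → F)) (g : Matrix.GeneralLinearGroup (Fin n) F)
    (h : ∀ x ∈ W, (g : Matrix (Fin n) (Fin n) F) *ᵥ x ∈ W) :
    g ∈ Cfsg.Geo.subspaceStabilizer W := by
  intro x
  constructor
  · intro hx
    exact h x hx
  · intro hx
    have hx' : (g : Matrix (Fin n) (Fin n) F) *ᵥ x ∈ W := hx
    have hinj0 : Function.Injective ((g : Matrix (Fin n) (Fin n) F).mulVec) :=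
      Matrix.mulVec_injective_iff_isUnit.mpr g.isUnit
    obtain ⟨L, hL⟩ : ∃ L : ↥W →ₗ[F] ↥W, ∀ w : ↥W,
        ((L w : ↥W) : Fin n → F) = (g : Matrix (Fin n) (Fin n) F) *ᵥ (w : Fin n → F) :=
      ⟨LinearMap.codRestrict W ((Matrix.toLin' (g : Matrix (Fin n) (Fin n) F)).comp W.subtype)
        (fun w => by
          show Matrix.toLin' (g : Matrix (Fin n) (Fin n) F) (w : Fin n → F) ∈ W
          rw [Matrix.toLin'_apply]
          exact h w w.2), fun w => by
          show Matrix.toLin' (g : Matrix (Fin n) (Fin n) F) (w : Fin n → F) = _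
          rw [Matrix.toLin'_apply]⟩
    have hinj : Function.Injective L := by
      intro a b hab
      have h1 : (g : Matrix (Fin n) (Fin n) F) *ᵥ (a : Fin n → F)
          = (g : Matrix (Fin n) (Fin n) F) *ᵥ (b : Fin n → F) := by
        rw [← hL a, ← hL b, hab]
      exact Subtype.ext (hinj0 h1)
    have hsurj : Function.Surjective L := LinearMap.injective_iff_surjective.mp hinj
    obtain ⟨w, hw⟩ := hsurj ⟨(g : Matrix (Fin n) (Fin n) F) *ᵥ x, hx'⟩
    have h2 : (g : Matrix (Fin n) (Fin n) F) *ᵥ (w : Fin n → F)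
        = (g : Matrix (Fin n) (Fin n) F) *ᵥ x := by
      rw [← hL w, hw]
    have h3 : (w : Fin n → F) = x := hinj0 h2
    show x ∈ W
    rw [← h3]
    exact w.2

/-- a pair of quasi-reflections of determinant one -/
theorem qr_exists (hf : Cfsg.Geo.IsUnitaryForm σ f) {v a' : Fin n → F} (hv : f v v ≠ 0)
    (ha' : f a' a' = 1) {l : F} (hl : l * σ l = 1) :
    ∃ ρ : Matrix.GeneralLinearGroup (Fin n) F,
      ρ ∈ GUf f ⊓ Cfsg.Geo.specialLinear (Fin n) F ∧
      ∀ x : Fin n → F, f x a' = 0 →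
        (ρ : Matrix (Fin n) (Fin n) F) *ᵥ x = x + ((l - 1) / f v v * f x v) • v := by
  have hl0 : l ≠ 0 := by
    intro h
    rw [h, zero_mul] at hl
    exact zero_ne_one hl
  have hσl : σ l = l⁻¹ := eq_inv_of_mul_eq_one_right hl
  have e1 : 1 + (l - 1) / f v v * f v v = l := by
    rw [div_mul_cancel₀ _ hv]
    ring
  have e2 : 1 + (l⁻¹ - 1) * f a' a' = l⁻¹ := by
    rw [ha', mul_one]
    ring
  have hu₁ : 1 + (l - 1) / f v v * f v v ≠ 0 := by
    rw [e1]
    exact hl0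
  have hu₂ : 1 + (l⁻¹ - 1) * f a' a' ≠ 0 := by
    rw [e2]
    exact inv_ne_zero hl0
  have hc₁ : (l - 1) / f v v + σ ((l - 1) / f v v)
      + (l - 1) / f v v * σ ((l - 1) / f v v) * f v v = 0 := by
    rw [map_div₀, map_sub, map_one, herm_self hf, hσl]
    field_simp
    ring
  have hc₂ : (l⁻¹ - 1) + σ (l⁻¹ - 1) + (l⁻¹ - 1) * σ (l⁻¹ - 1) * f a' a' = 0 := by
    rw [map_sub, map_inv₀, map_one, hσl, inv_inv, ha']
    field_simp
    ring
  refine ⟨rf hf v ((l - 1) / f v v) hu₁ * rf hf a' (l⁻¹ - 1) hu₂,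
    ⟨Subgroup.mul_mem _ (rf_mem_GU hf v _ hu₁ hc₁) (rf_mem_GU hf a' _ hu₂ hc₂),
      (mem_sl_iff _).mpr ?_⟩, ?_⟩
  · rw [map_mul, Units.val_mul, rf_det, rf_det, e1, e2, mul_inv_cancel₀ hl0]
  · intro x hx
    have h2 : ((rf hf a' (l⁻¹ - 1) hu₂ : Matrix.GeneralLinearGroup (Fin n) F) :
        Matrix (Fin n) (Fin n) F) *ᵥ x = x := by
      rw [rf_mulVec, hx, mul_zero, zero_smul, add_zero]
    rw [Units.val_mul, ← Matrix.mulVec_mulVec, h2, rf_mulVec]

theorem proj_of_on (hf : Cfsg.Geo.IsUnitaryForm σ f) :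
    ∀ X : List (Fin n → F), X.Pairwise (fun u v => f u v = 0) → (∀ u ∈ X, f u u = 1) →
      Proj hf X := by
  intro X
  induction X with
  | nil =>
    intro _ _
    exact Proj_nil hf
  | cons u X' ih =>
    intro hpw hnorm
    rw [List.pairwise_cons] at hpw
    exact Proj_cons_aniso hf (ih hpw.2 (fun v hv => hnorm v (List.mem_cons_of_mem _ hv)))
      (fun v hv => hpw.1 v hv) (by
        rw [hnorm u (List.mem_cons.mpr (Or.inl rfl))]
        exact one_ne_zero)

theorem fix_list (hf : Cfsg.Geo.IsUnitaryForm σ f)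
    (M : Subgroup (Matrix.GeneralLinearGroup (Fin n) F)) (hMGU : M ≤ GUf f)
    (hHas : HasTv hf M []) :
    ∀ X : List (Fin n → F), X.Pairwise (fun u v => f u v = 0) → (∀ u ∈ X, f u u = 1) →
      X.length + 6 ≤ n → ∀ g : Matrix.GeneralLinearGroup (Fin n) F, g ∈ GUf f →
        ∃ t ∈ M, ∀ v ∈ X,
          ((t * g : Matrix.GeneralLinearGroup (Fin n) F) : Matrix (Fin n) (Fin n) F) *ᵥ v = v := by
  intro X
  induction X with
  | nil =>
    intro _ _ _ g _
    exact ⟨1, M.one_mem, fun v hv => absurd hv List.not_mem_nil⟩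
  | cons u X' ih =>
    intro hpw hnorm hlen g hg
    rw [List.pairwise_cons] at hpw
    obtain ⟨hu, hpw'⟩ := hpw
    have hlen' : X'.length + 6 < n := by
      simp only [List.length_cons] at hlen
      omega
    have hnorm' : ∀ v ∈ X', f v v = 1 := fun v hv => hnorm v (List.mem_cons_of_mem _ hv)
    obtain ⟨t', ht'M, ht'fix⟩ := ih hpw' hnorm' (by omega) g hg
    have htg : t' * g ∈ GUf f := Subgroup.mul_mem _ (hMGU ht'M) hg
    have hXproj : Proj hf X' := proj_of_on hf X' hpw' hnorm'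
    have huY : u ∈ Yp hf X' := fun v hv => hu v hv
    have hzY : ((t' * g : Matrix.GeneralLinearGroup (Fin n) F) : Matrix (Fin n) (Fin n) F) *ᵥ u
        ∈ Yp hf X' := by
      intro v hv
      have h1 := (mem_GUf _).mp htg u v
      rw [ht'fix v hv] at h1
      rw [h1]
      exact hu v hv
    have huu : f u u = 1 := hnorm u (List.mem_cons.mpr (Or.inl rfl))
    have hzN : f (((t' * g : Matrix.GeneralLinearGroup (Fin n) F) : Matrix (Fin n) (Fin n) F) *ᵥ u)
        (((t' * g : Matrix.GeneralLinearGroup (Fin n) F) : Matrix (Fin n) (Fin n) F) *ᵥ u)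
        = f u u := (mem_GUf _).mp htg u u
    have hu0 : u ≠ 0 := by
      intro h
      rw [h, f_zero_left hf] at huu
      exact zero_ne_one huu
    have hz0 : ((t' * g : Matrix.GeneralLinearGroup (Fin n) F) : Matrix (Fin n) (Fin n) F) *ᵥ u
        ≠ 0 := by
      intro h
      rw [h, f_zero_left hf, huu] at hzN
      exact zero_ne_one hzN
    have hHas' : HasTv hf M X' := fun a κ hu' _ haa hκ =>
      hHas a κ hu' (fun v hv => absurd hv List.not_mem_nil) haa hκ
    obtain ⟨t, htM, htfix, htz⟩ := TR hf hXproj hlen' hHas' hzY huY hz0 hu0 hzN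
    refine ⟨t * t', M.mul_mem htM ht'M, fun v hv => ?_⟩
    rw [mul_assoc, Units.val_mul, ← Matrix.mulVec_mulVec]
    rcases List.mem_cons.mp hv with hvu | hv'
    · rw [hvu]
      exact htz
    · rw [ht'fix v hv', htfix v hv']

end Cfsg.Agent.Lib.Helper9.SUb
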