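import Mathlib
import Cfsg.Agent.Lib.Helper9.SUb

set_option autoImplicit false

namespace Cfsg.Agent.Lib.Helper9.SUc

open Cfsg
open Cfsg.Agent.S5635 (tvG tvG_mulVec tvG_det mem_sl_iff)
open Cfsg.Agent.S5631 (gl_ext mul_inv_mulVec tv_conj)
open Cfsg.Agent.S5643 (fl fl_apply herm' herm_self herm_ne herm_zero f_add_right f_smul_right
  f_zero_left f_zero_right f_sub_right f_sub_left f_neg_right exists_eps exists_moved tr_surj
  norm_surj iso_adjust ker_ne iso_ker fl_add fl_smul fl_inj_u)
open Cfsg.Agent.Lib.Helper9.SUa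
open Cfsg.Agent.Lib.Helper9.SUb
open scoped Matrix

variable {F : Type*} [Field F] [Fintype F] {n : ℕ} {σ : F ≃+* F}
  {f : (Fin n → F) → (Fin n → F) → F}

/-- a vector outside the span of a finite family is separated from it by the form -/
theorem perp_sep (hf : Cfsg.Geo.IsUnitaryForm σ f) {ι : Type*} [Fintype ι]
    (s : ι → Fin n → F) (u : Fin n → F) (hu : u ∉ Submodule.span F (Set.range s)) :
    ∃ z : Fin n → F, (∀ i, f z (s i) = 0) ∧ f z u ≠ 0 := by
  classical
  by_contra hcon
  push Not at hcon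
  apply hu
  have h1 : ⨅ i, LinearMap.ker (fl hf (s i)) ≤ LinearMap.ker (fl hf u) := by
    intro z hz
    rw [Submodule.mem_iInf] at hz
    exact LinearMap.mem_ker.mpr (hcon z (fun i => LinearMap.mem_ker.mp (hz i)))
  have h2 := mem_span_of_iInf_ker_le_ker h1
  obtain ⟨c, hc⟩ := (Submodule.mem_span_range_iff_exists_fun F).mp h2
  have hsum : ∀ (t : Finset ι),
      fl hf (∑ i ∈ t, σ (c i) • s i) = ∑ i ∈ t, c i • fl hf (s i) := by
    intro t
    induction t using Finset.induction_on with
    | empty =>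
      rw [Finset.sum_empty, Finset.sum_empty]
      exact LinearMap.ext (fun x => f_zero_right hf x)
    | insert a t ha ih =>
      rw [Finset.sum_insert ha, Finset.sum_insert ha, fl_add hf, ih, fl_smul hf, hf.involutive]
  have h3 : fl hf (∑ i, σ (c i) • s i) = fl hf u := by
    rw [← hc]
    exact hsum Finset.univ
  rw [← fl_inj_u hf h3]
  exact Submodule.sum_mem _ (fun i _ => Submodule.smul_mem _ _ (Submodule.subset_span ⟨i, rfl⟩))

/-- Eichler transformations -/
theorem eich_exists (hf : Cfsg.Geo.IsUnitaryForm σ f) {u v : Fin n → F} (huu : f u u = 0)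
    (huv : f u v = 0) {c : F} (hc : c + σ c = f v v) :
    ∃ E : Matrix.GeneralLinearGroup (Fin n) F,
      E ∈ GUf f ⊓ Cfsg.Geo.specialLinear (Fin n) F ∧
      ∀ x : Fin n → F, (E : Matrix (Fin n) (Fin n) F) *ᵥ x
        = x + f x v • u - f x u • (v + c • u) := by
  have hvu : f v u = 0 := herm_zero hf huv
  have hu₁ : 1 + (fl hf v) u ≠ 0 := by
    show 1 + f u v ≠ 0
    rw [huv, add_zero]
    exact one_ne_zero
  have hu₂ : 1 + (-(fl hf u)) (v + c • u) ≠ 0 := by
    show 1 + -(f (v + c • u) u) ≠ 0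
    rw [hf.add_left, hf.smul_left, hvu, huu, mul_zero, add_zero, neg_zero, add_zero]
    exact one_ne_zero
  have hform : ∀ x : Fin n → F,
      ((tvG (-(fl hf u)) (v + c • u) hu₂ * tvG (fl hf v) u hu₁ :
        Matrix.GeneralLinearGroup (Fin n) F) : Matrix (Fin n) (Fin n) F) *ᵥ x
        = x + f x v • u - f x u • (v + c • u) := by
    intro x
    rw [Units.val_mul, ← Matrix.mulVec_mulVec, tvG_mulVec, tvG_mulVec]
    show x + f x v • u + (-(f (x + f x v • u) u)) • (v + c • u) = _
    rw [hf.add_left, hf.smul_left, huu, mul_zero, add_zero, neg_smul, ← sub_eq_add_neg]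
  refine ⟨_, ⟨(mem_GUf _).mpr (fun x y => ?_), (mem_sl_iff _).mpr ?_⟩, hform⟩
  · rw [hform, hform]
    simp only [hf.add_left, f_sub_left hf, hf.smul_left, f_add_right hf, f_sub_right hf,
      f_smul_right hf, huu, huv, hvu, map_mul, herm' hf, mul_zero, zero_mul, add_zero, sub_zero,
      zero_add]
    linear_combination (-(f x u * f u y)) * hc
  · rw [map_mul, Units.val_mul, tvG_det, tvG_det]
    show (1 + -(f (v + c • u) u)) * (1 + f u v) = 1
    rw [hf.add_left, hf.smul_left, hvu, huu, huv, mul_zero, add_zero, neg_zero, add_zero, mul_one]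

theorem Cn_smul (hf : Cfsg.Geo.IsUnitaryForm σ f)
    {M : Subgroup (Matrix.GeneralLinearGroup (Fin n) F)} {a : Fin n → F} (ha : Cn hf M a)
    (c : F) : Cn hf M (c • a) := by
  have hN : f (c • a) (c • a) = 0 := by
    rw [hf.smul_left, f_smul_right hf, ha.1, mul_zero, mul_zero]
  refine ⟨hN, fun κ hu hκ => ?_⟩
  have hu0 : 1 + (c * σ c * κ) * f a a ≠ 0 := by
    rw [ha.1, mul_zero, add_zero]
    exact one_ne_zero
  have h1 : rf hf (c • a) κ hu = rf hf a (c * σ c * κ) hu0 := by
    apply gl_ext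
    intro x
    rw [rf_mulVec, rf_mulVec, f_smul_right hf, smul_smul]
    congr 2
    ring
  rw [h1]
  apply ha.2
  rw [map_mul, map_mul, hf.involutive]
  linear_combination (c * σ c) * hκ

end Cfsg.Agent.Lib.Helper9.SUc
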