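import Mathlib
import Cfsg.Agent.S5648

set_option autoImplicit false

namespace Cfsg.Agent.Lib.Helper9.Symp

open Cfsg.Agent.S5648 (Bl Bl_apply Bl_self Bl_skew symp_formula)
open scoped Matrix

section general
variable {F : Type*} [Field F] {V : Type*} [AddCommGroup V] [Module F V]
  (B : V →ₗ[F] V →ₗ[F] F)

theorem skew (hB : ∀ v, B v v = 0) (u v : V) : B u v = - B v u := by
  have h := hB (u + v)
  simp only [map_add, LinearMap.add_apply, hB, zero_add, add_zero] at h
  linear_combination h

theorem span_orth (S T : Set V) (h : ∀ a ∈ S, ∀ b ∈ T, B a b = 0) :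
    ∀ u ∈ Submodule.span F S, ∀ v ∈ Submodule.span F T, B u v = 0 := by
  intro u hu v hv
  induction hu using Submodule.span_induction with
  | mem a ha =>
    induction hv using Submodule.span_induction with
    | mem b hb => exact h a ha b hb
    | zero => rw [map_zero]
    | add x y _ _ hx hy => rw [map_add, hx, hy, add_zero]
    | smul c x _ hx => rw [map_smul, hx, smul_zero]
  | zero => rw [map_zero, LinearMap.zero_apply]
  | add x y _ _ hx hy => rw [map_add, LinearMap.add_apply, hx, hy, add_zero]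
  | smul c x _ hx => rw [map_smul, LinearMap.smul_apply, hx, smul_zero]

/-- the part of `W` orthogonal to `e` and `f` -/
def perpPair (W : Submodule F V) (e f : V) : Submodule F V :=
  W ⊓ LinearMap.ker (B e) ⊓ LinearMap.ker (B f)

theorem mem_perpPair (W : Submodule F V) (e f w : V) :
    w ∈ perpPair B W e f ↔ w ∈ W ∧ B e w = 0 ∧ B f w = 0 := by
  unfold perpPair
  rw [Submodule.mem_inf, Submodule.mem_inf, LinearMap.mem_ker, LinearMap.mem_ker, and_assoc]

theorem proj_mem (hB : ∀ v, B v v = 0) (W : Submodule F V) (e f : V) (he : e ∈ W) (hf : f ∈ W)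
    (hef : B e f = 1) (w : V) (hw : w ∈ W) :
    w - (B w f • e + B e w • f) ∈ perpPair B W e f := by
  rw [mem_perpPair]
  have hfe : B f e = -1 := by rw [skew B hB f e, hef]
  refine ⟨W.sub_mem hw (W.add_mem (W.smul_mem _ he) (W.smul_mem _ hf)), ?_, ?_⟩
  · simp only [map_sub, map_add, map_smul, smul_eq_mul, hB, hef]
    ring
  · simp only [map_sub, map_add, map_smul, smul_eq_mul, hB, hfe]
    rw [skew B hB w f]
    ring

/-- nondegeneracy of the form on a subspace -/
def NondegOn (W : Submodule F V) : Prop := ∀ u ∈ W, u ≠ 0 → ∃ v ∈ W, B u v ≠ 0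

theorem nd_perpPair (hB : ∀ v, B v v = 0) (W : Submodule F V) (e f : V) (he : e ∈ W)
    (hf : f ∈ W) (hef : B e f = 1) (hnd : NondegOn B W) : NondegOn B (perpPair B W e f) := by
  intro u hu hu0
  rw [mem_perpPair] at hu
  obtain ⟨v, hv, hne⟩ := hnd u hu.1 hu0
  refine ⟨_, proj_mem B hB W e f he hf hef v hv, ?_⟩
  have h1 : B u e = 0 := by rw [skew B hB u e, hu.2.1, neg_zero]
  have h2 : B u f = 0 := by rw [skew B hB u f, hu.2.2, neg_zero]
  simp only [map_sub, map_add, map_smul, smul_eq_mul, h1, h2, mul_zero, add_zero, sub_zero]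
  exact hne

theorem perpPair_lt [FiniteDimensional F V] (hB : ∀ v, B v v = 0) (W : Submodule F V)
    (e f : V) (he : e ∈ W) (hef : B e f = 1) :
    Module.finrank F (perpPair B W e f) < Module.finrank F W := by
  apply Submodule.finrank_lt_finrank_of_lt
  rw [lt_iff_le_and_ne]
  refine ⟨fun w hw => ((mem_perpPair B W e f w).mp hw).1, fun h => ?_⟩
  have h1 : e ∈ perpPair B W e f := by
    rw [h]
    exact he
  rw [mem_perpPair] at h1
  have h2 := h1.2.2
  rw [skew B hB f e, hef] at h2
  exact one_ne_zero (neg_eq_zero.mp h2)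

/-- a symplectic family spanning `W` -/
structure SF (W : Submodule F V) {ι : Type} (e f : ι → V) : Prop where
  e_mem : ∀ i, e i ∈ W
  f_mem : ∀ i, f i ∈ W
  ef_same : ∀ i, B (e i) (f i) = 1
  ef_ne : ∀ i j, i ≠ j → B (e i) (f j) = 0
  ee : ∀ i j, B (e i) (e j) = 0
  ff : ∀ i j, B (f i) (f j) = 0
  span : ∀ w ∈ W, w ∈ Submodule.span F (Set.range e ∪ Set.range f)

theorem sf_bot : SF B (⊥ : Submodule F V) (fun _ : Empty => (0 : V)) (fun _ : Empty => (0 : V)) := by
  refine ⟨fun i => i.elim, fun i => i.elim, fun i => i.elim, fun i => i.elim, fun i => i.elim,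
    fun i => i.elim, fun w hw => ?_⟩
  rw [(Submodule.mem_bot F).mp hw]
  exact Submodule.zero_mem _

theorem sf_add (hB : ∀ v, B v v = 0) (W : Submodule F V) (e₀ f₀ : V) (he : e₀ ∈ W)
    (hf : f₀ ∈ W) (hef : B e₀ f₀ = 1) {ι : Type} (e f : ι → V)
    (h : SF B (perpPair B W e₀ f₀) e f) :
    SF B W (fun o : Option ι => o.elim e₀ e) (fun o : Option ι => o.elim f₀ f) := by
  have hm : ∀ w, w ∈ perpPair B W e₀ f₀ →
      w ∈ W ∧ B e₀ w = 0 ∧ B f₀ w = 0 ∧ B w e₀ = 0 ∧ B w f₀ = 0 := by
    intro w hw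
    rw [mem_perpPair] at hw
    refine ⟨hw.1, hw.2.1, hw.2.2, ?_, ?_⟩
    · rw [skew B hB, hw.2.1, neg_zero]
    · rw [skew B hB, hw.2.2, neg_zero]
  refine ⟨?_, ?_, ?_, ?_, ?_, ?_, ?_⟩
  · rintro (_ | i)
    · exact he
    · exact (hm _ (h.e_mem i)).1
  · rintro (_ | i)
    · exact hf
    · exact (hm _ (h.f_mem i)).1
  · rintro (_ | i)
    · exact hef
    · exact h.ef_same i
  · rintro (_ | i) (_ | j) hne
    · exact absurd rfl hne
    · exact (hm _ (h.f_mem j)).2.1
    · exact (hm _ (h.e_mem i)).2.2.2.2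
    · exact h.ef_ne i j (fun hij => hne (by rw [hij]))
  · rintro (_ | i) (_ | j)
    · exact hB e₀
    · exact (hm _ (h.e_mem j)).2.1
    · exact (hm _ (h.e_mem i)).2.2.2.1
    · exact h.ee i j
  · rintro (_ | i) (_ | j)
    · exact hB f₀
    · exact (hm _ (h.f_mem j)).2.2.1
    · exact (hm _ (h.f_mem i)).2.2.2.2
    · exact h.ff i j
  · intro w hw
    have h1 := h.span _ (proj_mem B hB W e₀ f₀ he hf hef w hw)
    have h2 : w = (B w f₀ • e₀ + B e₀ w • f₀) + (w - (B w f₀ • e₀ + B e₀ w • f₀)) := by abel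
    rw [h2]
    apply Submodule.add_mem
    · apply Submodule.add_mem
      · exact Submodule.smul_mem _ _ (Submodule.subset_span (Or.inl ⟨none, rfl⟩))
      · exact Submodule.smul_mem _ _ (Submodule.subset_span (Or.inr ⟨none, rfl⟩))
    · refine Submodule.span_mono ?_ h1
      rintro x (⟨i, rfl⟩ | ⟨i, rfl⟩)
      · exact Or.inl ⟨some i, rfl⟩
      · exact Or.inr ⟨some i, rfl⟩

theorem sf_fe_same (hB : ∀ v, B v v = 0) (W : Submodule F V) {ι : Type} (e f : ι → V)
    (h : SF B W e f) (i : ι) : B (f i) (e i) = -1 := by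
  rw [skew B hB, h.ef_same]

theorem sf_fe_ne (hB : ∀ v, B v v = 0) (W : Submodule F V) {ι : Type} (e f : ι → V)
    (h : SF B W e f) (i j : ι) (hij : i ≠ j) : B (f i) (e j) = 0 := by
  rw [skew B hB, h.ef_ne j i (Ne.symm hij), neg_zero]

theorem sf_li (hB : ∀ v, B v v = 0) (W : Submodule F V) {ι : Type} [Fintype ι] (e f : ι → V)
    (h : SF B W e f) : LinearIndependent F (Sum.elim e f) := by
  classical
  rw [Fintype.linearIndependent_iff]
  intro g hg
  rw [Fintype.sum_sum_type] at hg
  simp only [Sum.elim_inl, Sum.elim_inr] at hg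
  rintro (k | k)
  · have h1 := congrArg (fun y => B y (f k)) hg
    simp only [map_add, map_sum, map_smul, LinearMap.add_apply, LinearMap.sum_apply,
      LinearMap.smul_apply, smul_eq_mul, map_zero, LinearMap.zero_apply] at h1
    have s1 : ∑ i, g (Sum.inl i) * B (e i) (f k) = g (Sum.inl k) := by
      rw [Finset.sum_eq_single k]
      · rw [h.ef_same, mul_one]
      · intro i _ hi
        rw [h.ef_ne i k hi, mul_zero]
      · intro hk
        exact absurd (Finset.mem_univ k) hk
    have s2 : ∑ i, g (Sum.inr i) * B (f i) (f k) = 0 :=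
      Finset.sum_eq_zero (fun i _ => by rw [h.ff, mul_zero])
    rw [s1, s2, add_zero] at h1
    exact h1
  · have h1 := congrArg (fun y => B y (e k)) hg
    simp only [map_add, map_sum, map_smul, LinearMap.add_apply, LinearMap.sum_apply,
      LinearMap.smul_apply, smul_eq_mul, map_zero, LinearMap.zero_apply] at h1
    have s1 : ∑ i, g (Sum.inl i) * B (e i) (e k) = 0 :=
      Finset.sum_eq_zero (fun i _ => by rw [h.ee, mul_zero])
    have s2 : ∑ i, g (Sum.inr i) * B (f i) (e k) = -g (Sum.inr k) := by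
      rw [Finset.sum_eq_single k]
      · rw [sf_fe_same B hB W e f h, mul_neg, mul_one]
      · intro i _ hi
        rw [sf_fe_ne B hB W e f h i k hi, mul_zero]
      · intro hk
        exact absurd (Finset.mem_univ k) hk
    rw [s1, s2, zero_add] at h1
    exact neg_eq_zero.mp h1

theorem map_eq_of_maps (X : V →ₗ[F] V) (z : F) (hz : z ≠ 0) (hX : ∀ v, X (X v) = z • v)
    (U U' : Submodule F V) (h1 : ∀ u ∈ U, X u ∈ U') (h2 : ∀ u ∈ U', X u ∈ U) :
    U.map X = U' := by
  apply le_antisymm
  · rintro _ ⟨u, hu, rfl⟩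
    exact h1 u hu
  · intro u hu
    refine ⟨z⁻¹ • X u, U.smul_mem _ (h2 u hu), ?_⟩
    rw [map_smul, hX, smul_smul, inv_mul_cancel₀ hz, one_smul]

theorem span_maps (X : V →ₗ[F] V) (S : Set V) (U' : Submodule F V)
    (h : ∀ s ∈ S, X s ∈ U') : ∀ u ∈ Submodule.span F S, X u ∈ U' := by
  intro u hu
  have h1 : Submodule.span F S ≤ U'.comap X := Submodule.span_le.mpr h
  exact h1 hu

/-- the inductive construction of an adapted symplectic family -/
theorem gi [FiniteDimensional F V] (hB : ∀ v, B v v = 0) (X : V →ₗ[F] V)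
    (hiso : ∀ u v, B (X u) (X v) = B u v) (z : F) (hz : z ≠ 0) (hX : ∀ v, X (X v) = z • v)
    (P Q : V → V → Prop)
    (hstep : ∀ W : Submodule F V, W ≠ ⊥ → (∀ w ∈ W, X w ∈ W) → NondegOn B W →
      (∃ e₀ f₀, e₀ ∈ W ∧ f₀ ∈ W ∧ B e₀ f₀ = 1 ∧ X e₀ ∈ Submodule.span F {e₀, f₀} ∧
        X f₀ ∈ Submodule.span F {e₀, f₀} ∧ P e₀ f₀) ∨
      (∃ e₀ f₀, e₀ ∈ W ∧ f₀ ∈ W ∧ B e₀ f₀ = 1 ∧ B e₀ (X e₀) = 0 ∧ B e₀ (X f₀) = 0 ∧
        B f₀ (X e₀) = 0 ∧ B f₀ (X f₀) = 0 ∧ Q e₀ f₀ ∧ Q (X e₀) (X f₀))) :
    ∀ (k : ℕ) (W : Submodule F V), Module.finrank F W = k → (∀ w ∈ W, X w ∈ W) →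
      NondegOn B W →
      ∃ (ι : Type) (_ : Fintype ι) (e f : ι → V) (π : ι → ι), SF B W e f ∧
        (∀ i, π (π i) = i) ∧
        (∀ i, X (e i) ∈ Submodule.span F {e (π i), f (π i)} ∧
          X (f i) ∈ Submodule.span F {e (π i), f (π i)}) ∧
        (∀ i, π i = i → P (e i) (f i)) ∧ (∀ i, π i ≠ i → Q (e i) (f i)) := by
  intro k
  induction k using Nat.strong_induction_on with
  | _ k ih =>
    intro W hk hinv hnd
    by_cases hW : W = ⊥
    · subst hW
      exact ⟨Empty, inferInstance, fun _ => 0, fun _ => 0, id, sf_bot B, fun i => i.elim,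
        fun i => i.elim, fun i => i.elim, fun i => i.elim⟩
    · have haux : ∀ y w : V, B (X y) w = 0 → B y (X w) = 0 := by
        intro y w h
        have h1 := hiso (X y) w
        rw [hX, map_smul, LinearMap.smul_apply, smul_eq_mul, h] at h1
        rcases mul_eq_zero.mp h1 with h2 | h2
        · exact absurd h2 hz
        · exact h2
      rcases hstep W hW hinv hnd with ⟨e₀, f₀, he, hf, hef, hXe, hXf, hP⟩ |
        ⟨e₀, f₀, he, hf, hef, h1, h2, h3, h4, hQ, hQ'⟩
      · have hinv' : ∀ w ∈ perpPair B W e₀ f₀, X w ∈ perpPair B W e₀ f₀ := by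
          intro w hw
          rw [mem_perpPair] at hw ⊢
          have hsp : ∀ y ∈ Submodule.span F {e₀, f₀}, B y w = 0 := by
            intro y hy
            obtain ⟨a, b, rfl⟩ := Submodule.mem_span_pair.mp hy
            rw [map_add, map_smul, map_smul, LinearMap.add_apply, LinearMap.smul_apply,
              LinearMap.smul_apply, hw.2.1, hw.2.2, smul_zero, smul_zero, add_zero]
          exact ⟨hinv w hw.1, haux _ _ (hsp _ hXe), haux _ _ (hsp _ hXf)⟩
        obtain ⟨ι', hfin, e', f', π', hSF, hπ', hXs, hP', hQ''⟩ := ih _ (by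
          rw [← hk]
          exact perpPair_lt B hB W e₀ f₀ he hef) _ rfl hinv'
          (nd_perpPair B hB W e₀ f₀ he hf hef hnd)
        haveI : Fintype ι' := hfin
        refine ⟨Option ι', inferInstance, fun o => o.elim e₀ e', fun o => o.elim f₀ f',
          fun o => o.map π', sf_add B hB W e₀ f₀ he hf hef e' f' hSF, ?_, ?_, ?_, ?_⟩
        · rintro (_ | i)
          · rfl
          · show some (π' (π' i)) = some i
            rw [hπ']
        · rintro (_ | i)
          · exact ⟨hXe, hXf⟩
          · exact hXs i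
        · rintro (_ | i) h
          · exact hP
          · exact hP' i (Option.some.inj h)
        · rintro (_ | i) h
          · exact absurd rfl h
          · exact hQ'' i (fun h' => h (by
              show some (π' i) = some i
              rw [h']))
      · have hXe : X e₀ ∈ W := hinv _ he
        have hXf : X f₀ ∈ W := hinv _ hf
        have hef' : B (X e₀) (X f₀) = 1 := by rw [hiso, hef]
        have hm1 : X e₀ ∈ perpPair B W e₀ f₀ := (mem_perpPair B W e₀ f₀ _).mpr ⟨hXe, h1, h3⟩
        have hm2 : X f₀ ∈ perpPair B W e₀ f₀ := (mem_perpPair B W e₀ f₀ _).mpr ⟨hXf, h2, h4⟩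
        obtain ⟨W', hW'⟩ : ∃ W' : Submodule F V,
            W' = perpPair B (perpPair B W e₀ f₀) (X e₀) (X f₀) := ⟨_, rfl⟩
        have hmem' : ∀ w, w ∈ W' ↔
            w ∈ W ∧ B e₀ w = 0 ∧ B f₀ w = 0 ∧ B (X e₀) w = 0 ∧ B (X f₀) w = 0 := by
          intro w
          rw [hW', mem_perpPair, mem_perpPair]
          tauto
        have hinv' : ∀ w ∈ W', X w ∈ W' := by
          intro w hw
          rw [hmem'] at hw ⊢
          refine ⟨hinv w hw.1, haux _ _ hw.2.2.2.1, haux _ _ hw.2.2.2.2, ?_, ?_⟩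
          · rw [hiso]
            exact hw.2.1
          · rw [hiso]
            exact hw.2.2.1
        have hnd1 := nd_perpPair B hB W e₀ f₀ he hf hef hnd
        have hnd' : NondegOn B W' := by
          rw [hW']
          exact nd_perpPair B hB _ (X e₀) (X f₀) hm1 hm2 hef' hnd1
        have hlt : Module.finrank F W' < k := by
          rw [← hk, hW']
          exact lt_trans (perpPair_lt B hB _ (X e₀) (X f₀) hm1 hef')
            (perpPair_lt B hB W e₀ f₀ he hef)
        obtain ⟨ι', hfin, e', f', π', hSF, hπ', hXs, hP', hQ''⟩ :=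
          ih _ hlt W' rfl hinv' hnd'
        haveI : Fintype ι' := hfin
        rw [hW'] at hSF
        have hSF1 := sf_add B hB _ (X e₀) (X f₀) hm1 hm2 hef' e' f' hSF
        have hSF2 := sf_add B hB W e₀ f₀ he hf hef _ _ hSF1
        refine ⟨Option (Option ι'), inferInstance, _, _,
          fun o => o.elim (some none) (fun o' => o'.elim none (fun i => some (some (π' i)))),
          hSF2, ?_, ?_, ?_, ?_⟩
        · rintro (_ | (_ | i))
          · rfl
          · rfl
          · show some (some (π' (π' i))) = some (some i)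
            rw [hπ']
        · rintro (_ | (_ | i))
          · exact ⟨Submodule.subset_span (Set.mem_insert _ _),
              Submodule.subset_span (Set.mem_insert_of_mem _ rfl)⟩
          · constructor
            · show X (X e₀) ∈ Submodule.span F {e₀, f₀}
              rw [hX]
              exact Submodule.smul_mem _ _ (Submodule.subset_span (Set.mem_insert _ _))
            · show X (X f₀) ∈ Submodule.span F {e₀, f₀}
              rw [hX]
              exact Submodule.smul_mem _ _
                (Submodule.subset_span (Set.mem_insert_of_mem _ rfl))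
          · exact hXs i
        · rintro (_ | (_ | i)) h
          · exact absurd h (by simp)
          · exact absurd h (by simp)
          · exact hP' i (Option.some.inj (Option.some.inj h))
        · rintro (_ | (_ | i)) h
          · exact hQ
          · exact hQ'
          · exact hQ'' i (fun h' => h (by
              show some (some (π' i)) = some (some i)
              rw [h']))

end general

section sp
variable {F : Type*} [Field F] {d : ℕ}

theorem Bl_iso (x : Matrix (Fin d ⊕ Fin d) (Fin d ⊕ Fin d) F)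
    (hx : x ∈ Matrix.symplecticGroup (Fin d) F) (u v : Fin d ⊕ Fin d → F) :
    Bl d F (Matrix.toLin' x u) (Matrix.toLin' x v) = Bl d F u v := by
  have hx' := SymplecticGroup.mem_iff'.mp hx
  rw [Bl, Matrix.toLinearMap₂'_apply', Matrix.toLinearMap₂'_apply', Matrix.toLin'_apply,
    Matrix.toLin'_apply, ← Matrix.vecMul_transpose x u, ← Matrix.dotProduct_mulVec]
  have key : xᵀ *ᵥ (Matrix.J (Fin d) F *ᵥ (x *ᵥ v)) = Matrix.J (Fin d) F *ᵥ v := by
    rw [Matrix.mulVec_mulVec, Matrix.mulVec_mulVec, hx']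
  rw [key]

theorem Bl_nd (u : Fin d ⊕ Fin d → F) (hu : u ≠ 0) : ∃ v, Bl d F u v ≠ 0 := by
  classical
  obtain ⟨s, hs⟩ := Function.ne_iff.mp hu
  rcases s with i | i
  · refine ⟨Pi.single (Sum.inr i) 1, ?_⟩
    rw [Bl_apply, symp_formula, Finset.sum_eq_single i]
    · simpa using hs
    · intro k _ hk
      simp [hk]
    · intro h
      exact absurd (Finset.mem_univ i) h
  · refine ⟨Pi.single (Sum.inl i) 1, ?_⟩
    rw [Bl_apply, symp_formula, Finset.sum_eq_single i]
    · simpa using hs
    · intro k _ hk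
      simp [hk]
    · intro h
      exact absurd (Finset.mem_univ i) h

end sp

end Cfsg.Agent.Lib.Helper9.Symp
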