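import Mathlib
import Cfsg.Agent.Lib.Helper9.Symp
import Cfsg.Agent.S5631

set_option autoImplicit false

namespace Cfsg.Agent.Lib.Helper9.SpGen

open Cfsg.Agent.S5648 (Bl Bl_apply symp_formula Bl_self Bl_skew)
open Cfsg.Agent.S5635 (tvG tvG_mulVec tvG_det)
open Cfsg.Agent.S5631 (gl_ext mul_inv_mulVec)
open Cfsg.Agent.Lib.Helper9.Symp (Bl_nd)
open scoped Matrix

section
variable {F : Type*} [Field F] [Fintype F] {m : ℕ}

theorem mem_sp_iff (g : Matrix.GeneralLinearGroup (Fin m ⊕ Fin m) F) :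
    g ∈ Cfsg.spGL m F ↔ ∀ u v, Bl m F ((g : Matrix (Fin m ⊕ Fin m) (Fin m ⊕ Fin m) F) *ᵥ u)
      ((g : Matrix (Fin m ⊕ Fin m) (Fin m ⊕ Fin m) F) *ᵥ v) = Bl m F u v := by
  constructor
  · intro h u v
    rw [Bl_apply, Bl_apply]
    exact h u v
  · intro h u v
    have := h u v
    rw [Bl_apply, Bl_apply] at this
    exact this

theorem sp_adj (g : Matrix.GeneralLinearGroup (Fin m ⊕ Fin m) F) (hg : g ∈ Cfsg.spGL m F)
    (u v : Fin m ⊕ Fin m → F) :
    Bl m F (((g⁻¹ : Matrix.GeneralLinearGroup (Fin m ⊕ Fin m) F) :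
      Matrix (Fin m ⊕ Fin m) (Fin m ⊕ Fin m) F) *ᵥ u) v
      = Bl m F u ((g : Matrix (Fin m ⊕ Fin m) (Fin m ⊕ Fin m) F) *ᵥ v) := by
  have h := (mem_sp_iff g).mp hg
    (((g⁻¹ : Matrix.GeneralLinearGroup (Fin m ⊕ Fin m) F) :
      Matrix (Fin m ⊕ Fin m) (Fin m ⊕ Fin m) F) *ᵥ u) v
  rw [mul_inv_mulVec] at h
  exact h.symm

theorem stv_aux (y : Fin m ⊕ Fin m → F) (c : F) : 1 + (c • (Bl m F).flip y) y ≠ 0 := by
  rw [LinearMap.smul_apply, LinearMap.flip_apply, Bl_self, smul_zero, add_zero]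
  exact one_ne_zero

/-- the symplectic transvection `x ↦ x + c B(x,y) y` -/
noncomputable def stv (y : Fin m ⊕ Fin m → F) (c : F) :
    Matrix.GeneralLinearGroup (Fin m ⊕ Fin m) F :=
  tvG (c • (Bl m F).flip y) y (stv_aux y c)

theorem stv_mulVec (y : Fin m ⊕ Fin m → F) (c : F) (x : Fin m ⊕ Fin m → F) :
    ((stv y c : Matrix.GeneralLinearGroup (Fin m ⊕ Fin m) F) :
      Matrix (Fin m ⊕ Fin m) (Fin m ⊕ Fin m) F) *ᵥ x = x + (c * Bl m F x y) • y := by
  rw [stv, tvG_mulVec, LinearMap.smul_apply, LinearMap.flip_apply, smul_eq_mul]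

theorem stv_mem (y : Fin m ⊕ Fin m → F) (c : F) : stv y c ∈ Cfsg.spGL m F := by
  rw [mem_sp_iff]
  intro u v
  rw [stv_mulVec, stv_mulVec]
  simp only [map_add, map_smul, LinearMap.add_apply, LinearMap.smul_apply, smul_eq_mul]
  rw [Bl_self, Bl_skew y v]
  ring

theorem stv_conj (g : Matrix.GeneralLinearGroup (Fin m ⊕ Fin m) F) (hg : g ∈ Cfsg.spGL m F)
    (y : Fin m ⊕ Fin m → F) (c : F) :
    g * stv y c * g⁻¹ = stv ((g : Matrix (Fin m ⊕ Fin m) (Fin m ⊕ Fin m) F) *ᵥ y) c := by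
  apply gl_ext
  intro x
  rw [Units.val_mul, Units.val_mul, ← Matrix.mulVec_mulVec, ← Matrix.mulVec_mulVec, stv_mulVec,
    stv_mulVec, Matrix.mulVec_add, Matrix.mulVec_smul, mul_inv_mulVec, sp_adj g hg]

theorem stv_smul (y : Fin m ⊕ Fin m → F) (l c : F) : stv (l • y) c = stv y (l ^ 2 * c) := by
  apply gl_ext
  intro x
  rw [stv_mulVec, stv_mulVec, map_smul, smul_smul, smul_eq_mul]
  have : c * (l * Bl m F x y) * l = l ^ 2 * c * Bl m F x y := by ring
  rw [this]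

theorem stv_zero (c : F) : stv (0 : Fin m ⊕ Fin m → F) c = 1 := by
  apply gl_ext
  intro x
  rw [stv_mulVec, smul_zero, add_zero, Units.val_one, Matrix.one_mulVec]

/-- the directions of the transvections lying in `K` -/
def Dset (K : Subgroup (Matrix.GeneralLinearGroup (Fin m ⊕ Fin m) F)) :
    Set (Fin m ⊕ Fin m → F) := {y | ∀ c, stv y c ∈ K}

theorem D_zero (K : Subgroup (Matrix.GeneralLinearGroup (Fin m ⊕ Fin m) F)) :
    (0 : Fin m ⊕ Fin m → F) ∈ Dset K := fun c => by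
  rw [stv_zero]
  exact K.one_mem

theorem D_inv (K : Subgroup (Matrix.GeneralLinearGroup (Fin m ⊕ Fin m) F))
    (k : Matrix.GeneralLinearGroup (Fin m ⊕ Fin m) F) (hk : k ∈ K) (hks : k ∈ Cfsg.spGL m F)
    (y : Fin m ⊕ Fin m → F) (hy : y ∈ Dset K) :
    (k : Matrix (Fin m ⊕ Fin m) (Fin m ⊕ Fin m) F) *ᵥ y ∈ Dset K := by
  intro c
  rw [← stv_conj k hks]
  exact K.mul_mem (K.mul_mem hk (hy c)) (K.inv_mem hk)

theorem D_smul (K : Subgroup (Matrix.GeneralLinearGroup (Fin m ⊕ Fin m) F))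
    (y : Fin m ⊕ Fin m → F) (hy : y ∈ Dset K) (l : F) : l • y ∈ Dset K := fun c => by
  rw [stv_smul]
  exact hy _

theorem D_add (K : Subgroup (Matrix.GeneralLinearGroup (Fin m ⊕ Fin m) F))
    (y y' : Fin m ⊕ Fin m → F) (hy : y ∈ Dset K) (hy' : y' ∈ Dset K) (h : Bl m F y y' ≠ 0)
    (l : F) : y + l • y' ∈ Dset K := by
  have h1 := D_inv K (stv y' (l / Bl m F y y')) (hy' _) (stv_mem _ _) y hy
  rw [stv_mulVec, div_mul_cancel₀ _ h] at h1
  exact h1

theorem move_exists (K : Subgroup (Matrix.GeneralLinearGroup (Fin m ⊕ Fin m) F))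
    (hK : ∀ (y : Fin m ⊕ Fin m → F) (c : F), stv y c ∈ K) (a b : Fin m ⊕ Fin m → F)
    (hab : Bl m F a b ≠ 0) :
    ∃ t ∈ K, t ∈ Cfsg.spGL m F ∧ (t : Matrix (Fin m ⊕ Fin m) (Fin m ⊕ Fin m) F) *ᵥ a = b ∧
      ∀ x, Bl m F x a = Bl m F x b →
        (t : Matrix (Fin m ⊕ Fin m) (Fin m ⊕ Fin m) F) *ᵥ x = x := by
  refine ⟨stv (a - b) (Bl m F a b)⁻¹, hK _ _, stv_mem _ _, ?_, ?_⟩
  · rw [stv_mulVec, map_sub, Bl_self, zero_sub, mul_neg, inv_mul_cancel₀ hab, neg_smul, one_smul]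
    abel
  · intro x hx
    rw [stv_mulVec, map_sub, hx, sub_self, mul_zero, zero_smul, add_zero]

theorem pair_move (K : Subgroup (Matrix.GeneralLinearGroup (Fin m ⊕ Fin m) F))
    (hK : ∀ (y : Fin m ⊕ Fin m → F) (c : F), stv y c ∈ K) (u v e f : Fin m ⊕ Fin m → F)
    (huv : Bl m F v u = 1) (hef : Bl m F f e = 1) :
    ∃ t ∈ K, t ∈ Cfsg.spGL m F ∧ (t : Matrix (Fin m ⊕ Fin m) (Fin m ⊕ Fin m) F) *ᵥ u = e ∧
      (t : Matrix (Fin m ⊕ Fin m) (Fin m ⊕ Fin m) F) *ᵥ v = f ∧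
      ∀ x, Bl m F x u = 0 → Bl m F x v = 0 → Bl m F x e = 0 → Bl m F x f = 0 →
        (t : Matrix (Fin m ⊕ Fin m) (Fin m ⊕ Fin m) F) *ᵥ x = x := by
  have huv' : Bl m F u v = -1 := by rw [Bl_skew, huv]
  have hef' : Bl m F e f = -1 := by rw [Bl_skew, hef]
  have step1 : ∃ t ∈ K, t ∈ Cfsg.spGL m F ∧
      (t : Matrix (Fin m ⊕ Fin m) (Fin m ⊕ Fin m) F) *ᵥ u = e ∧
      ∀ x, Bl m F x u = 0 → Bl m F x v = 0 → Bl m F x e = 0 → Bl m F x f = 0 →
        (t : Matrix (Fin m ⊕ Fin m) (Fin m ⊕ Fin m) F) *ᵥ x = x := by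
    have two : ∀ z, Bl m F u z ≠ 0 → Bl m F z e ≠ 0 →
        (∀ x, Bl m F x u = 0 → Bl m F x v = 0 → Bl m F x e = 0 → Bl m F x f = 0 →
          Bl m F x z = 0) →
        ∃ t ∈ K, t ∈ Cfsg.spGL m F ∧
          (t : Matrix (Fin m ⊕ Fin m) (Fin m ⊕ Fin m) F) *ᵥ u = e ∧
          ∀ x, Bl m F x u = 0 → Bl m F x v = 0 → Bl m F x e = 0 → Bl m F x f = 0 →
            (t : Matrix (Fin m ⊕ Fin m) (Fin m ⊕ Fin m) F) *ᵥ x = x := by
      intro z h1 h2 hz
      obtain ⟨t1, ht1K, ht1S, ht1a, ht1f⟩ := move_exists K hK u z h1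
      obtain ⟨t2, ht2K, ht2S, ht2a, ht2f⟩ := move_exists K hK z e h2
      refine ⟨t2 * t1, K.mul_mem ht2K ht1K, (Cfsg.spGL m F).mul_mem ht2S ht1S, ?_, ?_⟩
      · rw [Units.val_mul, ← Matrix.mulVec_mulVec, ht1a, ht2a]
      · intro x hxu hxv hxe hxf
        rw [Units.val_mul, ← Matrix.mulVec_mulVec,
          ht1f x (by rw [hxu, hz x hxu hxv hxe hxf]),
          ht2f x (by rw [hz x hxu hxv hxe hxf, hxe])]
    by_cases c1 : Bl m F u e = 0
    · by_cases c2 : Bl m F v e = 0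
      · by_cases c3 : Bl m F u f = 0
        · refine two (v + f) ?_ ?_ ?_
          · rw [map_add, huv', c3, add_zero]
            exact neg_ne_zero.mpr one_ne_zero
          · rw [LinearMap.map_add₂, c2, hef, zero_add]
            exact one_ne_zero
          · intro x _ hxv _ hxf
            rw [map_add, hxv, hxf, add_zero]
        · exact two f c3 (by rw [hef]; exact one_ne_zero) (fun x _ _ _ hxf => hxf)
      · exact two v (by rw [huv']; exact neg_ne_zero.mpr one_ne_zero) c2 (fun x _ hxv _ _ => hxv)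
    · obtain ⟨t, htK, htS, hta, htf⟩ := move_exists K hK u e c1
      exact ⟨t, htK, htS, hta, fun x hxu _ hxe _ => htf x (by rw [hxu, hxe])⟩
  obtain ⟨t1, ht1K, ht1S, ht1u, ht1f⟩ := step1
  obtain ⟨v', hv'⟩ : ∃ v', v' = (t1 : Matrix (Fin m ⊕ Fin m) (Fin m ⊕ Fin m) F) *ᵥ v :=
    ⟨_, rfl⟩
  have hv'e : Bl m F v' e = 1 := by
    rw [hv', ← ht1u, (mem_sp_iff t1).mp ht1S, huv]
  have hev' : Bl m F e v' = -1 := by rw [Bl_skew, hv'e]
  have hxv' : ∀ x, Bl m F x u = 0 → Bl m F x v = 0 → Bl m F x e = 0 → Bl m F x f = 0 →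
      Bl m F x v' = 0 := by
    intro x hxu hxv hxe hxf
    have := (mem_sp_iff t1).mp ht1S x v
    rw [ht1f x hxu hxv hxe hxf, ← hv'] at this
    rw [this, hxv]
  have step2 : ∃ t ∈ K, t ∈ Cfsg.spGL m F ∧
      (t : Matrix (Fin m ⊕ Fin m) (Fin m ⊕ Fin m) F) *ᵥ e = e ∧
      (t : Matrix (Fin m ⊕ Fin m) (Fin m ⊕ Fin m) F) *ᵥ v' = f ∧
      ∀ x, Bl m F x v' = 0 → Bl m F x e = 0 → Bl m F x f = 0 →
        (t : Matrix (Fin m ⊕ Fin m) (Fin m ⊕ Fin m) F) *ᵥ x = x := by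
    by_cases c : Bl m F v' f = 0
    · obtain ⟨s1, hs1K, hs1S, hs1a, hs1f⟩ := move_exists K hK v' (v' + e)
        (by rw [map_add, Bl_self, zero_add, hv'e]; exact one_ne_zero)
      obtain ⟨s2, hs2K, hs2S, hs2a, hs2f⟩ := move_exists K hK (v' + e) f
        (by rw [LinearMap.map_add₂, c, hef', zero_add]; exact neg_ne_zero.mpr one_ne_zero)
      refine ⟨s2 * s1, K.mul_mem hs2K hs1K, (Cfsg.spGL m F).mul_mem hs2S hs1S, ?_, ?_, ?_⟩
      · rw [Units.val_mul, ← Matrix.mulVec_mulVec,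
          hs1f e (by rw [map_add, Bl_self, add_zero]),
          hs2f e (by rw [map_add, Bl_self, add_zero, hev', hef'])]
      · rw [Units.val_mul, ← Matrix.mulVec_mulVec, hs1a, hs2a]
      · intro x hxv' hxe hxf
        rw [Units.val_mul, ← Matrix.mulVec_mulVec,
          hs1f x (by rw [map_add, hxv', hxe, add_zero]),
          hs2f x (by rw [map_add, hxv', hxe, add_zero, hxf])]
    · obtain ⟨s, hsK, hsS, hsa, hsf⟩ := move_exists K hK v' f c
      exact ⟨s, hsK, hsS, hsf e (by rw [hev', hef']), hsa,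
        fun x hxv' _ hxf => hsf x (by rw [hxv', hxf])⟩
  obtain ⟨t2, ht2K, ht2S, ht2e, ht2v, ht2f⟩ := step2
  refine ⟨t2 * t1, K.mul_mem ht2K ht1K, (Cfsg.spGL m F).mul_mem ht2S ht1S, ?_, ?_, ?_⟩
  · rw [Units.val_mul, ← Matrix.mulVec_mulVec, ht1u, ht2e]
  · rw [Units.val_mul, ← Matrix.mulVec_mulVec, ← hv', ht2v]
  · intro x hxu hxv hxe hxf
    rw [Units.val_mul, ← Matrix.mulVec_mulVec, ht1f x hxu hxv hxe hxf,
      ht2f x (hxv' x hxu hxv hxe hxf) hxe hxf]

theorem Bl_e (x : Fin m ⊕ Fin m → F) (j : Fin m) :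
    Bl m F x (Pi.single (Sum.inl j) 1) = x (Sum.inr j) := by
  classical
  rw [Bl_apply, symp_formula, Finset.sum_eq_single j]
  · simp
  · intro i _ hij
    simp [hij]
  · intro h
    exact absurd (Finset.mem_univ j) h

theorem Bl_f (x : Fin m ⊕ Fin m → F) (j : Fin m) :
    Bl m F x (Pi.single (Sum.inr j) 1) = - x (Sum.inl j) := by
  classical
  rw [Bl_apply, symp_formula, Finset.sum_eq_single j]
  · simp
  · intro i _ hij
    simp [hij]
  · intro h
    exact absurd (Finset.mem_univ j) h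

theorem Bl_ee (i j : Fin m) :
    Bl m F (Pi.single (Sum.inl i) 1) (Pi.single (Sum.inl j) 1) = 0 := by
  rw [Bl_e]
  simp

theorem Bl_ff (i j : Fin m) :
    Bl m F (Pi.single (Sum.inr i) 1) (Pi.single (Sum.inr j) 1) = 0 := by
  rw [Bl_f]
  simp

theorem Bl_fe (i j : Fin m) :
    Bl m F (Pi.single (Sum.inr i) 1) (Pi.single (Sum.inl j) 1) = if i = j then 1 else 0 := by
  rw [Bl_e]
  by_cases h : i = j
  · subst h
    simp
  · rw [if_neg h]
    simp [Ne.symm h, h]

theorem Bl_ef (i j : Fin m) :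
    Bl m F (Pi.single (Sum.inl i) 1) (Pi.single (Sum.inr j) 1) = if i = j then -1 else 0 := by
  rw [Bl_f]
  by_cases h : i = j
  · subst h
    simp
  · rw [if_neg h]
    simp [Ne.symm h, h]

/-- the symplectic group is generated by the symplectic transvections -/
theorem sp_le_of_stv (K : Subgroup (Matrix.GeneralLinearGroup (Fin m ⊕ Fin m) F))
    (hK : ∀ (y : Fin m ⊕ Fin m → F) (c : F), stv y c ∈ K) : Cfsg.spGL m F ≤ K := by
  classical
  have key : ∀ k, k ≤ m → ∀ g : Matrix.GeneralLinearGroup (Fin m ⊕ Fin m) F,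
      g ∈ Cfsg.spGL m F →
      (∀ i : Fin m, k ≤ i.val →
        (g : Matrix (Fin m ⊕ Fin m) (Fin m ⊕ Fin m) F) *ᵥ Pi.single (Sum.inl i) 1
          = Pi.single (Sum.inl i) 1 ∧
        (g : Matrix (Fin m ⊕ Fin m) (Fin m ⊕ Fin m) F) *ᵥ Pi.single (Sum.inr i) 1
          = Pi.single (Sum.inr i) 1) → g ∈ K := by
    intro k
    induction k with
    | zero =>
      intro _ g hg hfix
      have h1 : g = 1 := by
        apply Units.ext
        ext s s'
        have h2 : ((g : Matrix (Fin m ⊕ Fin m) (Fin m ⊕ Fin m) F) *ᵥ Pi.single s' 1) s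
            = (Pi.single s' (1 : F) : Fin m ⊕ Fin m → F) s := by
          rcases s' with i | i
          · rw [(hfix i (Nat.zero_le _)).1]
          · rw [(hfix i (Nat.zero_le _)).2]
        rw [Matrix.mulVec_single_one] at h2
        rw [Units.val_one, Matrix.one_apply]
        rw [Pi.single_apply] at h2
        exact h2
      rw [h1]
      exact K.one_mem
    | succ k ih =>
      intro hk g hg hfix
      obtain ⟨j, hj⟩ : ∃ j : Fin m, j.val = k := ⟨⟨k, hk⟩, rfl⟩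
      have hgB := (mem_sp_iff g).mp hg
      have h1 : Bl m F ((g : Matrix (Fin m ⊕ Fin m) (Fin m ⊕ Fin m) F) *ᵥ
          Pi.single (Sum.inr j) 1)
          ((g : Matrix (Fin m ⊕ Fin m) (Fin m ⊕ Fin m) F) *ᵥ Pi.single (Sum.inl j) 1) = 1 := by
        rw [hgB, Bl_fe, if_pos rfl]
      have h2 : Bl m F (Pi.single (Sum.inr j) (1 : F) : Fin m ⊕ Fin m → F)
          (Pi.single (Sum.inl j) 1) = 1 := by
        rw [Bl_fe, if_pos rfl]
      obtain ⟨t, htK, htS, hte, htf, htfix⟩ := pair_move K hK _ _ _ _ h1 h2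
      have htg : t * g ∈ K := by
        apply ih (Nat.le_of_succ_le hk) (t * g) ((Cfsg.spGL m F).mul_mem htS hg)
        intro i hi
        by_cases hij : i = j
        · rw [hij, Units.val_mul, ← Matrix.mulVec_mulVec, ← Matrix.mulVec_mulVec, hte, htf]
          exact ⟨rfl, rfl⟩
        · have hi' : k + 1 ≤ i.val := by
            have : i.val ≠ k := fun h => hij (Fin.ext (h.trans hj.symm))
            omega
          obtain ⟨he, hf⟩ := hfix i hi'
          rw [Units.val_mul, ← Matrix.mulVec_mulVec, ← Matrix.mulVec_mulVec, he, hf]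
          constructor
          · apply htfix
            · have := hgB (Pi.single (Sum.inl i) 1) (Pi.single (Sum.inl j) 1)
              rw [he] at this
              rw [this, Bl_ee]
            · have := hgB (Pi.single (Sum.inl i) 1) (Pi.single (Sum.inr j) 1)
              rw [he] at this
              rw [this, Bl_ef, if_neg hij]
            · rw [Bl_ee]
            · rw [Bl_ef, if_neg hij]
          · apply htfix
            · have := hgB (Pi.single (Sum.inr i) 1) (Pi.single (Sum.inl j) 1)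
              rw [hf] at this
              rw [this, Bl_fe, if_neg hij]
            · have := hgB (Pi.single (Sum.inr i) 1) (Pi.single (Sum.inr j) 1)
              rw [hf] at this
              rw [this, Bl_ff]
            · rw [Bl_fe, if_neg hij]
            · rw [Bl_ff]
      have h3 : g = t⁻¹ * (t * g) := by group
      rw [h3]
      exact K.mul_mem (K.inv_mem htK) htg
  intro g hg
  exact key m le_rfl g hg (fun i hi => absurd i.isLt (not_lt.mpr hi))

/-- the orthogonal complement for the symplectic form -/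
noncomputable def perp (W : Submodule F (Fin m ⊕ Fin m → F)) : Submodule F (Fin m ⊕ Fin m → F) :=
  LinearMap.BilinForm.orthogonal (Bl m F) W

theorem mem_perp (W : Submodule F (Fin m ⊕ Fin m → F)) (v : Fin m ⊕ Fin m → F) :
    v ∈ perp W ↔ ∀ w ∈ W, Bl m F w v = 0 := Iff.rfl

theorem Bl_nondeg : LinearMap.BilinForm.Nondegenerate (Bl m F) := by
  constructor
  · intro x hx
    by_contra hne
    obtain ⟨v, hv⟩ := Bl_nd x hne
    exact hv (hx v)
  · intro y hy
    by_contra hne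
    obtain ⟨v, hv⟩ := Bl_nd y hne
    apply hv
    rw [Bl_skew, hy v, neg_zero]

theorem Bl_refl : LinearMap.BilinForm.IsRefl (Bl m F) := by
  intro x y h
  rw [Bl_skew, h, neg_zero]

theorem perp_perp (W : Submodule F (Fin m ⊕ Fin m → F)) : perp (perp W) = W :=
  LinearMap.BilinForm.orthogonal_orthogonal Bl_nondeg Bl_refl W

theorem finrank_perp (W : Submodule F (Fin m ⊕ Fin m → F)) :
    Module.finrank F (perp W) = 2 * m - Module.finrank F W := by
  have h := LinearMap.BilinForm.finrank_orthogonal (Bl_nondeg (F := F) (m := m)) W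
  rw [Module.finrank_fintype_fun_eq_card] at h
  have h2 : Fintype.card (Fin m ⊕ Fin m) = 2 * m := by
    rw [Fintype.card_sum, Fintype.card_fin]
    ring
  rw [h2] at h
  exact h

end

end Cfsg.Agent.Lib.Helper9.SpGen
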