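import Mathlib
import Cfsg.Prelude.Def_Sporadic_a

set_option autoImplicit false

namespace Cfsg.Agent.Lib.Helper9

variable {α : Type*} [DecidableEq α]

/-- The number of `t`-subsets of `U` containing `S`. -/
theorem card_between (S U : Finset α) (hSU : S ⊆ U) (t : ℕ) (ht : S.card ≤ t) :
    ((U.powersetCard t).filter (fun T => S ⊆ T)).card = (U.card - S.card).choose (t - S.card) := by
  rw [← Finset.card_sdiff_of_subset hSU, ← Finset.card_powersetCard]
  refine Finset.card_bij' (fun T _ => T \ S) (fun R _ => R ∪ S) ?_ ?_ ?_ ?_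
  · intro T hT
    rw [Finset.mem_filter, Finset.mem_powersetCard] at hT
    rw [Finset.mem_powersetCard]
    refine ⟨Finset.sdiff_subset_sdiff hT.1.1 (le_refl S), ?_⟩
    rw [Finset.card_sdiff_of_subset hT.2, hT.1.2]
  · intro R hR
    rw [Finset.mem_powersetCard] at hR
    rw [Finset.mem_filter, Finset.mem_powersetCard]
    have hdisj : Disjoint R S := by
      rw [Finset.disjoint_left]
      intro x hx hxS
      exact (Finset.mem_sdiff.mp (hR.1 hx)).2 hxS
    refine ⟨⟨Finset.union_subset (hR.1.trans Finset.sdiff_subset) hSU, ?_⟩, Finset.subset_union_right⟩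
    rw [Finset.card_union_of_disjoint hdisj, hR.2]
    omega
  · intro T hT
    rw [Finset.mem_filter] at hT
    exact Finset.sdiff_union_of_subset hT.2
  · intro R hR
    rw [Finset.mem_powersetCard] at hR
    have hdisj : Disjoint R S := by
      rw [Finset.disjoint_left]
      intro x hx hxS
      exact (Finset.mem_sdiff.mp (hR.1 hx)).2 hxS
    exact Finset.union_sdiff_cancel_right hdisj

/-- In a Steiner system `S(t,k,n)` the number of blocks through an `i`-set (`i ≤ t`)
satisfies `λ_i * C(k-i, t-i) = C(n-i, t-i)`. -/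
theorem steiner_count [Fintype α] {t k : ℕ} {B : Set (Finset α)}
    (hB : Cfsg.IsSteinerSystem t k B) (S : Finset α) (hS : S.card ≤ t) :
    {b | b ∈ B ∧ S ⊆ b}.ncard * (k - S.card).choose (t - S.card) =
      (Fintype.card α - S.card).choose (t - S.card) := by
  classical
  let Bs : Finset (Finset α) := Finset.univ.filter (fun b => b ∈ B ∧ S ⊆ b)
  have hBs : {b | b ∈ B ∧ S ⊆ b} = (Bs : Set (Finset α)) := by
    ext b; simp [Bs]
  rw [hBs, Set.ncard_coe_finset]
  have h1 := card_between S Finset.univ (Finset.subset_univ S) t hS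
  rw [Finset.card_univ] at h1
  rw [← h1]
  have h2 : ((Finset.univ : Finset α).powersetCard t).filter (fun T => S ⊆ T) =
      Bs.biUnion (fun b => (b.powersetCard t).filter (fun T => S ⊆ T)) := by
    ext T
    rw [Finset.mem_filter, Finset.mem_powersetCard, Finset.mem_biUnion]
    constructor
    · rintro ⟨⟨-, hT⟩, hST⟩
      obtain ⟨b, ⟨hbB, hTb⟩, -⟩ := hB.2 T hT
      refine ⟨b, ?_, ?_⟩
      · exact Finset.mem_filter.mpr ⟨Finset.mem_univ _, hbB, hST.trans hTb⟩
      · exact Finset.mem_filter.mpr ⟨Finset.mem_powersetCard.mpr ⟨hTb, hT⟩, hST⟩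
    · rintro ⟨b, -, hT⟩
      rw [Finset.mem_filter, Finset.mem_powersetCard] at hT
      exact ⟨⟨Finset.subset_univ _, hT.1.2⟩, hT.2⟩
  rw [h2, Finset.card_biUnion]
  · rw [Finset.sum_const_nat (m := (k - S.card).choose (t - S.card))]
    intro b hb
    rw [Finset.mem_filter] at hb
    rw [card_between S b hb.2.2 t hS, hB.1 b hb.2.1]
  · intro b hb b' hb' hne
    show Disjoint ((b.powersetCard t).filter (fun T => S ⊆ T)) ((b'.powersetCard t).filter (fun T => S ⊆ T))
    rw [Finset.disjoint_left]
    intro T hT hT'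
    rw [Finset.mem_filter, Finset.mem_powersetCard] at hT hT'
    rw [Finset.mem_coe, Finset.mem_filter] at hb hb'
    obtain ⟨b0, -, huniq⟩ := hB.2 T hT.1.2
    exact hne ((huniq b ⟨hb.2.1, hT.1.1⟩).trans (huniq b' ⟨hb'.2.1, hT'.1.1⟩).symm)

end Cfsg.Agent.Lib.Helper9
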