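import Mathlib
import Cfsg.Prelude.Def_GeometricClasses
import Cfsg.Agent.Lib.Helper9.Family

set_option autoImplicit false

namespace Cfsg.Agent.Lib.Helper9.Tensor3

open Cfsg.Agent.Lib.Helper9.Frame3
open Cfsg.Agent.Lib.Helper9.Refl
open Cfsg.Agent.Lib.Helper9.Family
open scoped Matrix Kronecker

section bil
variable {F : Type*} [Field F] {κ : Type} [Fintype κ] [DecidableEq κ]

theorem bil_zero_left (f : (κ → F) → (κ → F) → F) (hf : Cfsg.Geo.IsBilinearForm f)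
    (x : κ → F) : f 0 x = 0 := by
  have h := hf.smul_left 0 0 x
  rw [zero_smul, zero_mul] at h
  exact h

theorem bil_zero_right (f : (κ → F) → (κ → F) → F) (hf : Cfsg.Geo.IsBilinearForm f)
    (x : κ → F) : f x 0 = 0 := by
  have h := hf.smul_right 0 x 0
  rw [zero_smul, zero_mul] at h
  exact h

theorem bil_sum_left (f : (κ → F) → (κ → F) → F) (hf : Cfsg.Geo.IsBilinearForm f)
    {ι : Type*} (S : Finset ι) (c : ι → F) (e : ι → κ → F) (x : κ → F) :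
    f (∑ a ∈ S, c a • e a) x = ∑ a ∈ S, c a * f (e a) x := by
  classical
  induction S using Finset.induction_on with
  | empty => simp [bil_zero_left f hf]
  | insert a S ha ih =>
    rw [Finset.sum_insert ha, Finset.sum_insert ha, hf.add_left, hf.smul_left, ih]

theorem bil_sum_right (f : (κ → F) → (κ → F) → F) (hf : Cfsg.Geo.IsBilinearForm f)
    {ι : Type*} (S : Finset ι) (c : ι → F) (e : ι → κ → F) (x : κ → F) :
    f x (∑ a ∈ S, c a • e a) = ∑ a ∈ S, c a * f x (e a) := by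
  classical
  induction S using Finset.induction_on with
  | empty => simp [bil_zero_right f hf]
  | insert a S ha ih =>
    rw [Finset.sum_insert ha, Finset.sum_insert ha, hf.add_right, hf.smul_right, ih]

theorem gram_repr (f : (κ → F) → (κ → F) → F) (hf : Cfsg.Geo.IsBilinearForm f)
    (u u' : κ → F) : f u u' = u ⬝ᵥ (Cfsg.Geo.gramMatrix f *ᵥ u') := by
  have hu : ∀ w : κ → F, w = ∑ i, w i • (Pi.single i (1 : F) : κ → F) := by
    intro w
    funext j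
    simp [Finset.sum_apply, Pi.single_apply]
  calc f u u' = f (∑ i, u i • (Pi.single i (1 : F) : κ → F))
        (∑ j, u' j • (Pi.single j (1 : F) : κ → F)) := by
        rw [← hu u, ← hu u']
    _ = ∑ i, u i * ∑ j, Cfsg.Geo.gramMatrix f i j * u' j := by
        rw [bil_sum_left f hf]
        apply Finset.sum_congr rfl
        intro i _
        rw [bil_sum_right f hf]
        congr 1
        apply Finset.sum_congr rfl
        intro j _
        rw [mul_comm]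
        rfl
    _ = u ⬝ᵥ (Cfsg.Geo.gramMatrix f *ᵥ u') := rfl

theorem fog_eq {κ' : Type} [Fintype κ'] (G : Matrix κ' κ' F) (x y : κ' → F) :
    Cfsg.Geo.formOfGram id G x y = x ⬝ᵥ (G *ᵥ y) := by
  unfold Cfsg.Geo.formOfGram
  simp only [dotProduct, Matrix.mulVec, Finset.mul_sum, id, mul_assoc]

end bil

section pt
variable {F : Type*} [Field F] {a b : ℕ}

/-- pure tensors -/
def pt (u : Fin a → F) (v : Fin b → F) : Fin a × Fin b → F := fun x => u x.1 * v x.2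

theorem kron_mulVec_pt (A : Matrix (Fin a) (Fin a) F) (B : Matrix (Fin b) (Fin b) F)
    (u : Fin a → F) (v : Fin b → F) :
    (A ⊗ₖ B) *ᵥ pt u v = pt (A *ᵥ u) (B *ᵥ v) := by
  funext ⟨i, j⟩
  simp only [Matrix.mulVec, dotProduct, pt, Matrix.kroneckerMap_apply, Fintype.sum_prod_type]
  rw [Finset.sum_mul_sum]
  apply Finset.sum_congr rfl
  intro i' _
  apply Finset.sum_congr rfl
  intro j' _
  ring

theorem pt_dot (u u' : Fin a → F) (v v' : Fin b → F) :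
    pt u v ⬝ᵥ pt u' v' = (u ⬝ᵥ u') * (v ⬝ᵥ v') := by
  simp only [dotProduct, pt, Fintype.sum_prod_type]
  rw [Finset.sum_mul_sum]
  apply Finset.sum_congr rfl
  intro i _
  apply Finset.sum_congr rfl
  intro j _
  ring

theorem fog_pt (f₁ : (Fin a → F) → (Fin a → F) → F) (f₂ : (Fin b → F) → (Fin b → F) → F)
    (h₁ : Cfsg.Geo.IsBilinearForm f₁) (h₂ : Cfsg.Geo.IsBilinearForm f₂)
    (u u' : Fin a → F) (v v' : Fin b → F) :
    Cfsg.Geo.formOfGram id (Cfsg.Geo.gramMatrix f₁ ⊗ₖ Cfsg.Geo.gramMatrix f₂) (pt u v)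
      (pt u' v') = f₁ u u' * f₂ v v' := by
  rw [fog_eq, kron_mulVec_pt, pt_dot, ← gram_repr f₁ h₁, ← gram_repr f₂ h₂]

end pt

section tau
variable {F : Type*} [Field F] {κ : Type} [Fintype κ] [DecidableEq κ] {a b : ℕ}
  (e : κ ≃ Fin a × Fin b) (P : Matrix.GeneralLinearGroup κ F)

/-- the image of a pure tensor -/
def tau (u : Fin a → F) (v : Fin b → F) : κ → F :=
  (P : Matrix κ κ F) *ᵥ (pt u v ∘ e)

theorem tau_add_right (u : Fin a → F) (v v' : Fin b → F) :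
    tau e P u (v + v') = tau e P u v + tau e P u v' := by
  unfold tau
  rw [← Matrix.mulVec_add]
  congr 1
  funext x
  simp only [Function.comp_apply, pt, Pi.add_apply]
  ring

theorem tau_smul_right (c : F) (u : Fin a → F) (v : Fin b → F) :
    tau e P u (c • v) = c • tau e P u v := by
  unfold tau
  rw [← Matrix.mulVec_smul]
  congr 1
  funext x
  simp only [Function.comp_apply, pt, Pi.smul_apply, smul_eq_mul]
  ring

theorem tau_smul_left (c : F) (u : Fin a → F) (v : Fin b → F) :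
    tau e P (c • u) v = c • tau e P u v := by
  unfold tau
  rw [← Matrix.mulVec_smul]
  congr 1
  funext x
  simp only [Function.comp_apply, pt, Pi.smul_apply, smul_eq_mul]
  ring

/-- `tau` as a linear map in the second variable -/
noncomputable def tauL (u : Fin a → F) : (Fin b → F) →ₗ[F] (κ → F) where
  toFun v := tau e P u v
  map_add' := tau_add_right e P u
  map_smul' := fun c v => by
    rw [tau_smul_right]
    rfl

theorem tau_inj (u u' : Fin a → F) (v v' : Fin b → F) (h : tau e P u v = tau e P u' v') :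
    pt u v = pt u' v' := by
  unfold tau at h
  have h1 := gl_inj P _ _ h
  funext x
  have h2 := congrFun h1 (e.symm x)
  simpa using h2

theorem tau_polar (Q : (κ → F) → F) (f₁ : (Fin a → F) → (Fin a → F) → F)
    (f₂ : (Fin b → F) → (Fin b → F) → F)
    (h₁ : Cfsg.Geo.IsBilinearForm f₁) (h₂ : Cfsg.Geo.IsBilinearForm f₂) (c : F)
    (hT : ∀ x y : Fin a × Fin b → F,
      QuadraticMap.polar Q ((P : Matrix κ κ F) *ᵥ (x ∘ e)) ((P : Matrix κ κ F) *ᵥ (y ∘ e))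
        = c * Cfsg.Geo.formOfGram id (Cfsg.Geo.gramMatrix f₁ ⊗ₖ Cfsg.Geo.gramMatrix f₂) x y)
    (u u' : Fin a → F) (v v' : Fin b → F) :
    QuadraticMap.polar Q (tau e P u v) (tau e P u' v') = c * (f₁ u u' * f₂ v v') := by
  unfold tau
  rw [hT, fog_pt f₁ f₂ h₁ h₂]

theorem tensor_act (g : Matrix.GeneralLinearGroup κ F)
    (hg : g ∈ Cfsg.Geo.tensorProductSubgroup a b e P) :
    ∃ (A : Matrix.GeneralLinearGroup (Fin a) F) (B : Matrix.GeneralLinearGroup (Fin b) F),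
      ∀ u v, (g : Matrix κ κ F) *ᵥ tau e P u v
        = tau e P ((A : Matrix (Fin a) (Fin a) F) *ᵥ u) ((B : Matrix (Fin b) (Fin b) F) *ᵥ v) := by
  obtain ⟨k', ⟨k, ⟨A, B, hk⟩, rfl⟩, rfl⟩ := hg
  refine ⟨A, B, fun u v => ?_⟩
  have h1 : (((MulAut.conj P).toMonoidHom ((Cfsg.Geo.glReindex e.symm).toMonoidHom k)
      : Matrix.GeneralLinearGroup κ F) : Matrix κ κ F)
      = (P : Matrix κ κ F) * ((k : Matrix (Fin a × Fin b) (Fin a × Fin b) F).submatrix e e)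
        * ((P⁻¹ : Matrix.GeneralLinearGroup κ F) : Matrix κ κ F) := rfl
  rw [h1]
  unfold tau
  rw [Matrix.mulVec_mulVec, mul_assoc, mul_assoc, ← Units.val_mul, inv_mul_cancel,
    Units.val_one, mul_one, ← Matrix.mulVec_mulVec]
  congr 1
  rw [hk, Matrix.submatrix_mulVec_equiv]
  have h2 : (pt u v ∘ e) ∘ e.symm = pt u v := by
    funext x
    simp
  rw [h2, kron_mulVec_pt]

end tau

section three
variable {F : Type*} [Field F] [Fintype F]

/-- the quadratic form `-f(u,u)`; its polar form is `f` in characteristic 3 -/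
def qOf {k : Type} (f : (k → F) → (k → F) → F) : (k → F) → F := fun u => -f u u

theorem qOf_polar (hF : Fintype.card F = 3) {k : Type} [Fintype k] [DecidableEq k]
    (f : (k → F) → (k → F) → F) (hf : Cfsg.Geo.IsSymmetricForm f) :
    QuadraticMap.polar (qOf f) = f := by
  funext u v
  unfold QuadraticMap.polar qOf
  rw [hf.bilinear.add_left, hf.bilinear.add_right, hf.bilinear.add_right, hf.symm v u]
  linear_combination (-f u v) * f3_three hF

theorem qOf_smul {k : Type} [Fintype k] [DecidableEq k]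
    (f : (k → F) → (k → F) → F) (hf : Cfsg.Geo.IsSymmetricForm f) (c : F) (v : k → F) :
    qOf f (c • v) = c ^ 2 * qOf f v := by
  unfold qOf
  rw [hf.bilinear.smul_left, hf.bilinear.smul_right]
  ring

theorem qOf_bil (hF : Fintype.card F = 3) {k : Type} [Fintype k] [DecidableEq k]
    (f : (k → F) → (k → F) → F) (hf : Cfsg.Geo.IsSymmetricForm f) :
    Cfsg.Geo.IsBilinearForm (QuadraticMap.polar (qOf f)) := by
  rw [qOf_polar hF f hf]
  exact hf.bilinear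

theorem qOf_nd (hF : Fintype.card F = 3) {k : Type} [Fintype k] [DecidableEq k]
    (f : (k → F) → (k → F) → F) (hf : Cfsg.Geo.IsSymmetricForm f) :
    Cfsg.Geo.IsNondegenerateOn (QuadraticMap.polar (qOf f)) ⊤ := by
  rw [qOf_polar hF f hf]
  intro w _ hw
  obtain ⟨⟨x, hx⟩, ⟨y, hy⟩⟩ := hf.nondegenerate w hw
  exact ⟨⟨x, Submodule.mem_top, hx⟩, ⟨y, Submodule.mem_top, hy⟩⟩

theorem frame_exists (hF : Fintype.card F = 3) (f₁ : (Fin 3 → F) → (Fin 3 → F) → F)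
    (hf₁ : Cfsg.Geo.IsSymmetricForm f₁) :
    ∃ (bb : Module.Basis (Fin 3) F (Fin 3 → F)) (η : F), η ≠ 0 ∧
      (∀ l l', l ≠ l' → f₁ (bb l) (bb l') = 0) ∧ ∀ l, f₁ (bb l) (bb l) = η := by
  have hpol := qOf_polar hF f₁ hf₁
  have hdim : Module.finrank F (⊤ : Submodule F (Fin 3 → F)) = 3 := by
    rw [finrank_top, Module.finrank_fintype_fun_eq_card, Fintype.card_fin]
  obtain ⟨ε₀, hε₀, B, hB1, hB2⟩ := frame3 (qOf f₁) hF (qOf_smul f₁ hf₁) (qOf_bil hF f₁ hf₁) ⊤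
    hdim (qOf_nd hF f₁ hf₁)
  refine ⟨B.map Submodule.topEquiv, -ε₀, neg_ne_zero.mpr hε₀, ?_, ?_⟩
  · intro l l' hne
    have h := hB1 l l' hne
    rw [hpol] at h
    rw [Module.Basis.map_apply, Module.Basis.map_apply]
    exact h
  · intro l
    have h : -f₁ (B l : Fin 3 → F) (B l : Fin 3 → F) = ε₀ := hB2 l
    rw [Module.Basis.map_apply]
    show f₁ (B l : Fin 3 → F) (B l : Fin 3 → F) = -ε₀
    linear_combination -h

theorem triple_exists (hF : Fintype.card F = 3) {b : ℕ} (hb : 4 ≤ b)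
    (f₂ : (Fin b → F) → (Fin b → F) → F) (hf₂ : Cfsg.Geo.IsSymmetricForm f₂) :
    ∃ (v₁ v₂ v₃ : Fin b → F) (θ : F), θ ≠ 0 ∧ f₂ v₁ v₂ = 0 ∧ f₂ v₁ v₃ = 0 ∧ f₂ v₂ v₃ = 0 ∧
      f₂ v₁ v₁ = θ ∧ f₂ v₂ v₂ = θ ∧ f₂ v₃ v₃ = θ := by
  have hpol := qOf_polar hF f₂ hf₂
  have hsm := qOf_smul f₂ hf₂
  have hbil := qOf_bil hF f₂ hf₂
  have hdim : Module.finrank F (⊤ : Submodule F (Fin b → F)) = b := by
    rw [finrank_top, Module.finrank_fintype_fun_eq_card, Fintype.card_fin]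
  obtain ⟨w, -, hwo, hwq⟩ := exists_orth (qOf f₂) hsm hbil (f3_two_ne hF) ⊤ hdim
    (qOf_nd hF f₂ hf₂)
  have hne : ∀ (i j : ℕ) (hi : i < b) (hj : j < b), i ≠ j → (⟨i, hi⟩ : Fin b) ≠ ⟨j, hj⟩ :=
    fun i j hi hj h h' => h (congrArg Fin.val h')
  obtain ⟨x, x', hxo, hxx, qx, qx'⟩ := pair_of_triple (qOf f₂) hF hsm hbil
    (w ⟨0, by omega⟩) (w ⟨1, by omega⟩) (w ⟨2, by omega⟩)
    (hwo _ _ (hne 0 1 _ _ (by norm_num))) (hwo _ _ (hne 0 2 _ _ (by norm_num)))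
    (hwo _ _ (hne 1 2 _ _ (by norm_num))) (hwq _) (hwq _) (hwq _)
    (qOf f₂ (w ⟨3, by omega⟩)) (hwq _)
  have h3 := hxo (w ⟨3, by omega⟩) (hwo _ _ (hne 3 0 _ _ (by norm_num)))
    (hwo _ _ (hne 3 1 _ _ (by norm_num))) (hwo _ _ (hne 3 2 _ _ (by norm_num)))
  rw [hpol] at hxx h3
  have hq3 : -f₂ (w ⟨3, by omega⟩) (w ⟨3, by omega⟩) ≠ 0 := hwq ⟨3, by omega⟩
  have qx1 : -f₂ x x = -f₂ (w ⟨3, by omega⟩) (w ⟨3, by omega⟩) := qx
  have qx2 : -f₂ x' x' = -f₂ (w ⟨3, by omega⟩) (w ⟨3, by omega⟩) := qx'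
  refine ⟨x, x', w ⟨3, by omega⟩, f₂ (w ⟨3, by omega⟩) (w ⟨3, by omega⟩), ?_, hxx, ?_, ?_, ?_,
    ?_, rfl⟩
  · intro h0
    apply hq3
    rw [h0, neg_zero]
  · rw [hf₂.symm]
    exact h3.1
  · rw [hf₂.symm]
    exact h3.2
  · linear_combination -qx1
  · linear_combination -qx2

theorem sim_frame (hF : Fintype.card F = 3) (f₁ : (Fin 3 → F) → (Fin 3 → F) → F)
    (hf₁ : Cfsg.Geo.IsSymmetricForm f₁) (bb : Module.Basis (Fin 3) F (Fin 3 → F)) (η : F)
    (hη : η ≠ 0) (hbo : ∀ l l', l ≠ l' → f₁ (bb l) (bb l') = 0)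
    (hbn : ∀ l, f₁ (bb l) (bb l) = η) (A : Matrix (Fin 3) (Fin 3) F) (lam : F)
    (hlam : lam ≠ 0) (hA : ∀ u u', f₁ (A *ᵥ u) (A *ᵥ u') = lam * f₁ u u') :
    ∀ l, ∃ (l' : Fin 3) (s : F), s ≠ 0 ∧ A *ᵥ bb l = s • bb l' := by
  classical
  have h2 := f3_two_ne hF
  have h3 := f3_three hF
  obtain ⟨c, hcdef⟩ : ∃ c : Fin 3 → Fin 3 → F, c = fun l j => bb.repr (A *ᵥ bb l) j :=
    ⟨_, rfl⟩
  have hrep : ∀ l, A *ᵥ bb l = ∑ j, c l j • bb j := by
    intro l
    rw [hcdef]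
    exact (bb.sum_repr _).symm
  have hcoord : ∀ l l', f₁ (A *ᵥ bb l) (A *ᵥ bb l') = η * ∑ j, c l j * c l' j := by
    intro l l'
    rw [hrep l, hrep l', bil_sum_left f₁ hf₁.bilinear, Finset.mul_sum]
    apply Finset.sum_congr rfl
    intro j _
    rw [bil_sum_right f₁ hf₁.bilinear, Finset.sum_eq_single j]
    · rw [hbn]
      ring
    · intro j' _ hj'
      rw [hbo j j' (Ne.symm hj'), mul_zero]
    · intro hj
      exact absurd (Finset.mem_univ j) hj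
  have hsum : ∀ l l', ∑ j, c l j * c l' j = if l = l' then lam else 0 := by
    intro l l'
    have h1 := hcoord l l'
    rw [hA] at h1
    by_cases hll : l = l'
    · rw [if_pos hll]
      rw [hll, hbn] at h1
      rw [hll]
      have h4 : η * (∑ j, c l' j * c l' j - lam) = 0 := by linear_combination -h1
      rcases mul_eq_zero.mp h4 with h5 | h5
      · exact absurd h5 hη
      · linear_combination h5
    · rw [if_neg hll]
      rw [hbo l l' hll, mul_zero] at h1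
      rcases mul_eq_zero.mp h1.symm with h5 | h5
      · exact absurd h5 hη
      · exact h5
  have hmat : Matrix.of c * (Matrix.of c)ᵀ = lam • (1 : Matrix (Fin 3) (Fin 3) F) := by
    ext l l'
    rw [Matrix.mul_apply, Matrix.smul_apply, Matrix.one_apply, smul_eq_mul]
    simp only [Matrix.transpose_apply, Matrix.of_apply]
    rw [hsum l l']
    by_cases hll : l = l'
    · rw [if_pos hll, if_pos hll, mul_one]
    · rw [if_neg hll, if_neg hll, mul_zero]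
  have hdet : (Matrix.of c).det ^ 2 = lam ^ 3 := by
    have h1 := congrArg Matrix.det hmat
    rw [Matrix.det_mul, Matrix.det_transpose, Matrix.det_smul, Matrix.det_one, Fintype.card_fin,
      mul_one] at h1
    rw [pow_two]
    exact h1
  have hlam1 : lam = 1 := by
    rcases f3_cases hF lam with h | h | h
    · exact absurd h hlam
    · exact h
    · exfalso
      rw [h] at hdet
      rcases f3_cases hF (Matrix.of c).det with h' | h' | h'
      · rw [h'] at hdet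
        exact one_ne_zero (by linear_combination hdet)
      · rw [h'] at hdet
        exact h2 (by linear_combination hdet)
      · rw [h'] at hdet
        exact h2 (by linear_combination hdet)
  intro l
  have hsq : ∑ j, (c l j) ^ 2 = 1 := by
    have h1 := hsum l l
    rw [if_pos rfl, hlam1] at h1
    rw [← h1]
    apply Finset.sum_congr rfl
    intro j _
    rw [pow_two]
  obtain ⟨j₀, hj₀, hz⟩ := sum_sq_one hF (le_refl 3) (c l) hsq
  refine ⟨j₀, c l j₀, hj₀, ?_⟩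
  rw [hrep l, Finset.sum_eq_single j₀]
  · intro j _ hj
    rw [hz j hj, zero_smul]
  · intro hj
    exact absurd (Finset.mem_univ j₀) hj

end three

section core
variable {F : Type*} [Field F] [Fintype F] {κ : Type} [Fintype κ] [DecidableEq κ]

theorem isom_polar (Q : (κ → F) → F) (g : Matrix.GeneralLinearGroup κ F)
    (hg : ∀ v, Q ((g : Matrix κ κ F) *ᵥ v) = Q v) (x y : κ → F) :
    QuadraticMap.polar Q ((g : Matrix κ κ F) *ᵥ x) ((g : Matrix κ κ F) *ᵥ y)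
      = QuadraticMap.polar Q x y := by
  unfold QuadraticMap.polar
  rw [← Matrix.mulVec_add, hg, hg, hg]

theorem tensor3_core (hF : Fintype.card F = 3) (Q : (κ → F) → F)
    (hsm : ∀ (c : F) (v : κ → F), Q (c • v) = c ^ 2 * Q v)
    (hbil : Cfsg.Geo.IsBilinearForm (QuadraticMap.polar Q)) {b : ℕ} (hb : 4 ≤ b)
    (e : κ ≃ Fin 3 × Fin b) (P : Matrix.GeneralLinearGroup κ F)
    (f₁ : (Fin 3 → F) → (Fin 3 → F) → F) (f₂ : (Fin b → F) → (Fin b → F) → F)
    (hf₁ : Cfsg.Geo.IsSymmetricForm f₁) (hf₂ : Cfsg.Geo.IsSymmetricForm f₂)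
    (hT : Cfsg.Geo.IsTensorFormStructure id (QuadraticMap.polar Q) f₁ f₂ e P) :
    ∃ K : Subgroup (Matrix.GeneralLinearGroup κ F),
      Cfsg.Geo.tensorProductSubgroup 3 b e P ⊓ Cfsg.Geo.omegaGL Q < K ∧
        K < Cfsg.Geo.omegaGL Q := by
  classical
  have h2 := f3_two_ne hF
  have h3 := f3_three hF
  obtain ⟨c, hc, hT'⟩ := hT
  have tp : ∀ (u u' : Fin 3 → F) (v v' : Fin b → F),
      QuadraticMap.polar Q (tau e P u v) (tau e P u' v') = c * (f₁ u u' * f₂ v v') :=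
    fun u u' v v' => tau_polar e P Q f₁ f₂ hf₁.bilinear hf₂.bilinear c hT' u u' v v'
  have tq : ∀ (u : Fin 3 → F) (v : Fin b → F),
      Q (tau e P u v) = -(c * (f₁ u u * f₂ v v)) := by
    intro u v
    have h := tp u u v v
    rw [polar_self Q hsm] at h
    linear_combination (-1 : F) * h + Q (tau e P u v) * h3
  obtain ⟨bb, η, hη, hbo, hbn⟩ := frame_exists hF f₁ hf₁
  obtain ⟨v₁, v₂, v₃, θ, hθ, h12, h13, h23, n1, n2, n3⟩ := triple_exists hF hb f₂ hf₂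
  obtain ⟨q₀, hq₀⟩ : ∃ q₀ : F, q₀ = -(c * (η * θ)) := ⟨_, rfl⟩
  have hq₀ne : q₀ ≠ 0 := by
    rw [hq₀]
    exact neg_ne_zero.mpr (mul_ne_zero hc (mul_ne_zero hη hθ))
  have h2q : q₀ + q₀ + 0 ≠ 0 := by
    intro h
    have h' : 2 * q₀ = 0 := by linear_combination h
    rcases mul_eq_zero.mp h' with h'' | h''
    · exact h2 h''
    · exact hq₀ne h''
  obtain ⟨D', hD'⟩ : ∃ D' : Fin 3 → Submodule F (κ → F),
      D' = fun l => LinearMap.range (tauL e P (bb l)) := ⟨_, rfl⟩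
  have hmem : ∀ l x, x ∈ D' l ↔ ∃ v, tau e P (bb l) v = x := by
    intro l x
    rw [hD']
    exact LinearMap.mem_range
  have mt : ∀ l v, tau e P (bb l) v ∈ D' l := fun l v => (hmem l _).mpr ⟨v, rfl⟩
  have orthD : ∀ l l', l ≠ l' → ∀ x ∈ D' l, ∀ z ∈ D' l', QuadraticMap.polar Q x z = 0 := by
    intro l l' hne x hx z hz
    obtain ⟨v, rfl⟩ := (hmem l x).mp hx
    obtain ⟨v', rfl⟩ := (hmem l' z).mp hz
    rw [tp, hbo l l' hne]
    ring
  have refl_D : ∀ (a : κ → F) (ha : Q a ≠ 0) (l₀ : Fin 3), a ∈ D' l₀ → ∀ l, ∀ x ∈ D' l,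
      ((refl Q hsm hbil a ha : Matrix.GeneralLinearGroup κ F) : Matrix κ κ F) *ᵥ x ∈ D' l := by
    intro a ha l₀ haD l x hx
    rw [refl_mulVec]
    by_cases hl : l = l₀
    · rw [hl] at hx ⊢
      exact (D' l₀).add_mem hx ((D' l₀).smul_mem _ haD)
    · rw [orthD l l₀ hl x hx a haD, mul_zero, zero_smul, add_zero]
      exact hx
  have qt : ∀ l, Q (tau e P (bb l) v₁) = q₀ ∧ Q (tau e P (bb l) v₂) = q₀ ∧
      Q (tau e P (bb l) v₃) = q₀ := by
    intro l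
    rw [tq, tq, tq, hbn, n1, n2, n3, hq₀]
    exact ⟨rfl, rfl, rfl⟩
  obtain ⟨a₁, ha₁⟩ : ∃ a₁, a₁ = tau e P (bb 0) v₁ := ⟨_, rfl⟩
  obtain ⟨a₂, ha₂⟩ : ∃ a₂, a₂ = tau e P (bb 0) v₂ := ⟨_, rfl⟩
  obtain ⟨a₃, ha₃⟩ : ∃ a₃, a₃ = tau e P (bb 0) v₃ := ⟨_, rfl⟩
  obtain ⟨x₁, hx₁⟩ : ∃ x₁, x₁ = tau e P (bb 1) v₁ := ⟨_, rfl⟩
  obtain ⟨x₂, hx₂⟩ : ∃ x₂, x₂ = tau e P (bb 2) v₁ := ⟨_, rfl⟩
  have p12 : QuadraticMap.polar Q a₁ a₂ = 0 := by
    rw [ha₁, ha₂, tp, h12]
    ring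
  have p13 : QuadraticMap.polar Q a₁ a₃ = 0 := by
    rw [ha₁, ha₃, tp, h13]
    ring
  have p23 : QuadraticMap.polar Q a₂ a₃ = 0 := by
    rw [ha₂, ha₃, tp, h23]
    ring
  have px1 : QuadraticMap.polar Q a₁ x₁ = 0 := by
    rw [ha₁, hx₁, tp, hbo 0 1 (by decide)]
    ring
  have px2 : QuadraticMap.polar Q a₁ x₂ = 0 := by
    rw [ha₁, hx₂, tp, hbo 0 2 (by decide)]
    ring
  have px12 : QuadraticMap.polar Q x₁ x₂ = 0 := by
    rw [hx₁, hx₂, tp, hbo 1 2 (by decide)]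
    ring
  have qa₁ : Q a₁ = q₀ := by
    rw [ha₁]
    exact (qt 0).1
  have qa₂ : Q a₂ = q₀ := by
    rw [ha₂]
    exact (qt 0).2.1
  have qa₃ : Q a₃ = q₀ := by
    rw [ha₃]
    exact (qt 0).2.2
  have qx₁ : Q x₁ = q₀ := by
    rw [hx₁]
    exact (qt 1).1
  have qx₂ : Q x₂ = q₀ := by
    rw [hx₂]
    exact (qt 2).1
  have na12 : Q (a₁ + a₂) ≠ 0 := by
    rw [Q_add Q, qa₁, qa₂, p12]
    exact h2q
  have na13 : Q (a₁ + a₃) ≠ 0 := by
    rw [Q_add Q, qa₁, qa₃, p13]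
    exact h2q
  have nx1 : Q (a₁ + x₁) ≠ 0 := by
    rw [Q_add Q, qa₁, qx₁, px1]
    exact h2q
  have nx2 : Q (a₁ + x₂) ≠ 0 := by
    rw [Q_add Q, qa₁, qx₂, px2]
    exact h2q
  have e1 := comm_eval Q hsm hbil a₁ a₂ a₃ p12 p13 p23 q₀ qa₁ qa₂ qa₃ na12 na13
  have e2 := comm_eval Q hsm hbil a₁ x₁ x₂ px1 px2 px12 q₀ qa₁ qx₁ qx₂ nx1 nx2
  have m1 := comm4_mem Q hsm hbil (a₁ + a₂) (a₁ + a₃) na12 na13
  have m2 := comm4_mem Q hsm hbil (a₁ + x₁) (a₁ + x₂) nx1 nx2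
  obtain ⟨g₁, hg₁⟩ : ∃ g : Matrix.GeneralLinearGroup κ F, g = refl Q hsm hbil (a₁ + a₂) na12
      * refl Q hsm hbil (a₁ + a₃) na13 * refl Q hsm hbil (a₁ + a₂) na12
      * refl Q hsm hbil (a₁ + a₃) na13 := ⟨_, rfl⟩
  obtain ⟨g₂, hg₂⟩ : ∃ g : Matrix.GeneralLinearGroup κ F, g = refl Q hsm hbil (a₁ + x₁) nx1
      * refl Q hsm hbil (a₁ + x₂) nx2 * refl Q hsm hbil (a₁ + x₁) nx1
      * refl Q hsm hbil (a₁ + x₂) nx2 := ⟨_, rfl⟩
  rw [← hg₁] at e1 m1
  rw [← hg₂] at e2 m2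
  have ha₁D : a₁ ∈ D' 0 := by
    rw [ha₁]
    exact mt 0 v₁
  have ha₂D : a₂ ∈ D' 0 := by
    rw [ha₂]
    exact mt 0 v₂
  have ha₃D : a₃ ∈ D' 0 := by
    rw [ha₃]
    exact mt 0 v₃
  have hx₁D : x₁ ∈ D' 1 := by
    rw [hx₁]
    exact mt 1 v₁
  have hx₂D : x₂ ∈ D' 2 := by
    rw [hx₂]
    exact mt 2 v₁
  have hA12 : a₁ + a₂ ∈ D' 0 := (D' 0).add_mem ha₁D ha₂D
  have hA13 : a₁ + a₃ ∈ D' 0 := (D' 0).add_mem ha₁D ha₃D
  have g₁maps : ∀ l, ∀ x ∈ D' l, (g₁ : Matrix κ κ F) *ᵥ x ∈ D' l := by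
    intro l x hx
    rw [hg₁]
    simp only [Units.val_mul, ← Matrix.mulVec_mulVec]
    exact refl_D _ na12 0 hA12 l _ (refl_D _ na13 0 hA13 l _ (refl_D _ na12 0 hA12 l _
      (refl_D _ na13 0 hA13 l x hx)))
  have g₁D : g₁ ∈ Cfsg.Geo.decompositionStabilizer D' := by
    show ∃ σ : Equiv.Perm (Fin 3), ∀ i,
      (D' i).map (Matrix.toLin' (g₁ : Matrix κ κ F)) = D' (σ i)
    refine ⟨1, fun l => ?_⟩
    exact img_of_stab (D' l) g₁ (stab_of_maps (D' l) g₁ (g₁maps l))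
  refine ⟨Cfsg.Geo.decompositionStabilizer D' ⊓ Cfsg.Geo.omegaGL Q, ?_, ?_⟩
  · apply SetLike.lt_iff_le_and_exists.mpr
    refine ⟨?_, g₁, ⟨g₁D, m1⟩, ?_⟩
    · rintro g ⟨hten, hgΩ⟩
      refine ⟨?_, hgΩ⟩
      obtain ⟨A, B, hAB⟩ := tensor_act e P g hten
      have hiso := omega_isom Q g hgΩ
      have key : ∀ (u u' : Fin 3 → F) (v v' : Fin b → F),
          f₁ ((A : Matrix (Fin 3) (Fin 3) F) *ᵥ u) ((A : Matrix (Fin 3) (Fin 3) F) *ᵥ u')
            * f₂ ((B : Matrix (Fin b) (Fin b) F) *ᵥ v) ((B : Matrix (Fin b) (Fin b) F) *ᵥ v')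
            = f₁ u u' * f₂ v v' := by
        intro u u' v v'
        have h1 := isom_polar Q g hiso (tau e P u v) (tau e P u' v')
        rw [hAB, hAB, tp, tp] at h1
        exact mul_left_cancel₀ hc h1
      obtain ⟨μ, hμ⟩ : ∃ μ : F, μ = f₂ ((B : Matrix (Fin b) (Fin b) F) *ᵥ v₁)
          ((B : Matrix (Fin b) (Fin b) F) *ᵥ v₁) := ⟨_, rfl⟩
      have hμ0 : μ ≠ 0 := by
        intro h0
        have h1 := key (bb 0) (bb 0) v₁ v₁
        rw [← hμ, h0, mul_zero, hbn, n1] at h1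
        exact mul_ne_zero hη hθ h1.symm
      have hA : ∀ u u', f₁ ((A : Matrix (Fin 3) (Fin 3) F) *ᵥ u)
          ((A : Matrix (Fin 3) (Fin 3) F) *ᵥ u') = (θ * μ⁻¹) * f₁ u u' := by
        intro u u'
        have h1 := key u u' v₁ v₁
        rw [← hμ, n1] at h1
        have h4 : f₁ ((A : Matrix (Fin 3) (Fin 3) F) *ᵥ u)
            ((A : Matrix (Fin 3) (Fin 3) F) *ᵥ u') = f₁ u u' * θ * μ⁻¹ := by
          rw [← h1, mul_assoc, mul_inv_cancel₀ hμ0, mul_one]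
        rw [h4]
        ring
      have hsim := sim_frame hF f₁ hf₁ bb η hη hbo hbn (A : Matrix (Fin 3) (Fin 3) F)
        (θ * μ⁻¹) (mul_ne_zero hθ (inv_ne_zero hμ0)) hA
      choose π s hs hAπ using hsim
      have hinj : Function.Injective π := by
        intro l l' hll
        by_contra hne
        have h1 := hA (bb l) (bb l')
        rw [hAπ l, hAπ l', hll, hf₁.bilinear.smul_left, hf₁.bilinear.smul_right, hbn,
          hbo l l' hne, mul_zero] at h1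
        exact mul_ne_zero (hs l) (mul_ne_zero (hs l') hη) h1
      show ∃ σ : Equiv.Perm (Fin 3), ∀ i,
        (D' i).map (Matrix.toLin' (g : Matrix κ κ F)) = D' (σ i)
      refine ⟨Equiv.ofBijective π ⟨hinj, Finite.surjective_of_injective hinj⟩, fun l => ?_⟩
      show (D' l).map (Matrix.toLin' (g : Matrix κ κ F)) = D' (π l)
      ext x
      rw [Submodule.mem_map]
      constructor
      · rintro ⟨y, hy, rfl⟩
        obtain ⟨v, rfl⟩ := (hmem l y).mp hy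
        rw [Matrix.toLin'_apply, hAB, hAπ l, tau_smul_left, ← tau_smul_right]
        exact mt _ _
      · intro hx
        obtain ⟨w, rfl⟩ := (hmem _ x).mp hx
        refine ⟨tau e P (bb l) (((B⁻¹ : Matrix.GeneralLinearGroup (Fin b) F)
          : Matrix (Fin b) (Fin b) F) *ᵥ ((s l)⁻¹ • w)), mt _ _, ?_⟩
        rw [Matrix.toLin'_apply, hAB, hAπ l, tau_smul_left, ← tau_smul_right,
          Matrix.mulVec_mulVec, ← Units.val_mul, mul_inv_cancel, Units.val_one,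
          Matrix.one_mulVec, smul_smul, mul_inv_cancel₀ (hs l), one_smul]
    · rintro ⟨hten, -⟩
      obtain ⟨A, B, hAB⟩ := tensor_act e P g₁ hten
      have f1 := refl_fix Q hsm hbil (a₁ + a₂) na12 x₁ (orthD 1 0 (by decide) x₁ hx₁D _ hA12)
      have f2 := refl_fix Q hsm hbil (a₁ + a₃) na13 x₁ (orthD 1 0 (by decide) x₁ hx₁D _ hA13)
      have fx : (g₁ : Matrix κ κ F) *ᵥ x₁ = x₁ := by
        rw [hg₁]
        simp only [Units.val_mul, ← Matrix.mulVec_mulVec]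
        rw [f2, f1, f2, f1]
      rw [hx₁, hAB] at fx
      rw [ha₁, ha₂, hAB] at e1
      have e1' : tau e P ((A : Matrix (Fin 3) (Fin 3) F) *ᵥ bb 0)
          ((B : Matrix (Fin b) (Fin b) F) *ᵥ v₁) = tau e P (bb 0) ((-1 : F) • v₂) := by
        rw [e1, tau_smul_right, neg_one_smul]
      have t1 := tau_inj e P _ _ _ _ fx
      have t2 := tau_inj e P _ _ _ _ e1'
      obtain ⟨i₀, hi₀⟩ : ∃ i, bb 1 i ≠ 0 := Function.ne_iff.mp (bb.ne_zero 1)
      obtain ⟨i₁, hi₁⟩ : ∃ i, bb 0 i ≠ 0 := Function.ne_iff.mp (bb.ne_zero 0)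
      obtain ⟨w, hw⟩ : ∃ w, w = (B : Matrix (Fin b) (Fin b) F) *ᵥ v₁ := ⟨_, rfl⟩
      rw [← hw] at t1 t2
      have hv1 : v₁ = (((A : Matrix (Fin 3) (Fin 3) F) *ᵥ bb 1) i₀ * (bb 1 i₀)⁻¹) • w := by
        funext j
        have h5 := congrFun t1 (i₀, j)
        simp only [pt] at h5
        have h6 : v₁ j = (bb 1 i₀)⁻¹ * (bb 1 i₀ * v₁ j) := by
          rw [← mul_assoc, inv_mul_cancel₀ hi₀, one_mul]
        rw [Pi.smul_apply, smul_eq_mul, h6, ← h5]
        ring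
      have hv2 : v₂ = (-((A : Matrix (Fin 3) (Fin 3) F) *ᵥ bb 0) i₁ * (bb 0 i₁)⁻¹) • w := by
        funext j
        have h5 := congrFun t2 (i₁, j)
        simp only [pt, Pi.smul_apply, smul_eq_mul] at h5
        have h6 : v₂ j = (bb 0 i₁)⁻¹ * (bb 0 i₁ * v₂ j) := by
          rw [← mul_assoc, inv_mul_cancel₀ hi₁, one_mul]
        have h7 : bb 0 i₁ * v₂ j = -(((A : Matrix (Fin 3) (Fin 3) F) *ᵥ bb 0) i₁ * w j) := by
          linear_combination h5
        rw [Pi.smul_apply, smul_eq_mul, h6, h7]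
        ring
      obtain ⟨α', hα'⟩ : ∃ α' : F, v₁ = α' • w := ⟨_, hv1⟩
      obtain ⟨β', hβ'⟩ : ∃ β' : F, v₂ = β' • w := ⟨_, hv2⟩
      have k12 := h12
      have k1 := n1
      have k2 := n2
      rw [hα', hβ', hf₂.bilinear.smul_left, hf₂.bilinear.smul_right] at k12
      rw [hα', hf₂.bilinear.smul_left, hf₂.bilinear.smul_right] at k1
      rw [hβ', hf₂.bilinear.smul_left, hf₂.bilinear.smul_right] at k2
      have hθθ : θ * θ = 0 := by
        linear_combination (-(β' * (β' * f₂ w w))) * k1 + (-θ) * k2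
          + (α' * (β' * f₂ w w)) * k12
      exact hθ (mul_self_eq_zero.mp hθθ)
  · apply SetLike.lt_iff_le_and_exists.mpr
    refine ⟨inf_le_right, g₂, m2, ?_⟩
    rintro ⟨⟨σ, hσ⟩, -⟩
    have i1 : (g₂ : Matrix κ κ F) *ᵥ a₁ ∈ D' (σ 0) := by
      rw [← hσ 0]
      exact Submodule.mem_map.mpr ⟨a₁, ha₁D, Matrix.toLin'_apply _ _⟩
    rw [e2] at i1
    have i1' : x₁ ∈ D' (σ 0) := by simpa using (D' (σ 0)).neg_mem i1
    have hσ0 : σ 0 = 1 := by
      by_contra hne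
      have h5 := orthD (σ 0) 1 hne x₁ i1' x₁ hx₁D
      rw [polar_self Q hsm, qx₁] at h5
      rcases mul_eq_zero.mp h5 with h' | h'
      · exact h2 h'
      · exact hq₀ne h'
    have f1 := refl_fix Q hsm hbil (a₁ + x₁) nx1 a₂ (by
      rw [hbil.add_right, QuadraticMap.polar_comm Q a₂ a₁, p12,
        orthD 0 1 (by decide) a₂ ha₂D x₁ hx₁D, add_zero])
    have f2 := refl_fix Q hsm hbil (a₁ + x₂) nx2 a₂ (by
      rw [hbil.add_right, QuadraticMap.polar_comm Q a₂ a₁, p12,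
        orthD 0 2 (by decide) a₂ ha₂D x₂ hx₂D, add_zero])
    have fa : (g₂ : Matrix κ κ F) *ᵥ a₂ = a₂ := by
      rw [hg₂]
      simp only [Units.val_mul, ← Matrix.mulVec_mulVec]
      rw [f2, f1, f2, f1]
    have i2 : (g₂ : Matrix κ κ F) *ᵥ a₂ ∈ D' (σ 0) := by
      rw [← hσ 0]
      exact Submodule.mem_map.mpr ⟨a₂, ha₂D, Matrix.toLin'_apply _ _⟩
    rw [fa, hσ0] at i2
    have h5 := orthD 0 1 (by decide) a₂ ha₂D a₂ i2
    rw [polar_self Q hsm, qa₂] at h5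
    rcases mul_eq_zero.mp h5 with h' | h'
    · exact h2 h'
    · exact hq₀ne h'

end core

end Cfsg.Agent.Lib.Helper9.Tensor3
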